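import Cfsg.Agent.H1.FF
import Cfsg.Agent.H1.OO
import Cfsg.Agent.H1.PGrp2
import Cfsg.Agent.H1.Coprime
import Cfsg.Agent.H1.CopExtra
import Cfsg.Agent.H1.MinNormal
import Cfsg.Agent.H3.Nilp
import Cfsg.Agent.H3.PBasic
import Cfsg.Prelude.Def_LieExceptional

set_option autoImplicit false

/-! CN-groups. -/

namespace CfsgH3

open Subgroup Cfsg
open scoped commutatorElement Pointwise

universe u
variable {G : Type u} [Group G]

theorem commute_of_nilp {H : Subgroup G} (hH : Group.IsNilpotent H) {x g : G} (hx : x ∈ H) (hg : g ∈ H)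
    (h : (orderOf x).Coprime (orderOf g)) : x * g = g * x :=
  commute_of_nilpotent_mem hx hg (pow_orderOf_eq_one x) (pow_orderOf_eq_one g) h

theorem nilpotent_map {G' : Type*} [Group G'] {H : Subgroup G} (hH : Group.IsNilpotent H) (f : G →* G') :
    Group.IsNilpotent (H.map f) :=
  Group.nilpotent_of_surjective (f.subgroupMap H) (f.subgroupMap_surjective H)

/-- Lifting the centralizer of a `q`-element modulo a normal `p`-subgroup. -/
theorem cn_step [Finite G] {p : ℕ} [hp : Fact p.Prime] (hCN : IsCNGroup G) {H : Subgroup G} [hHn : H.Normal] (hHp : IsPGroup p H)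
    (hHb : H ≠ ⊥) : IsCNGroup (G ⧸ H) := by
  intro X hX
  set π := QuotientGroup.mk' H with hπ
  have hsurj : Function.Surjective π := QuotientGroup.mk'_surjective H
  -- an element of prime order
  obtain ⟨q, hq, hqX⟩ := Nat.exists_prime_and_dvd (fun h => hX (orderOf_eq_one_iff.1 h))
  haveI : Fact q.Prime := ⟨hq⟩
  obtain ⟨m, hm⟩ := hqX
  have hX1 : orderOf (X ^ m) = q := by
    have hm0 : m ≠ 0 := by
      rintro rfl
      exact (orderOf_pos X).ne' (by rw [hm, mul_zero])
    rw [orderOf_pow, hm, Nat.gcd_eq_right (dvd_mul_left m q), Nat.mul_div_cancel _ (Nat.pos_of_ne_zero hm0)]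
  set Y := X ^ m with hY
  have hY1 : Y ≠ 1 := by
    intro h
    rw [h, orderOf_one] at hX1
    exact hq.one_lt.ne hX1
  have hle : Subgroup.centralizer ({X} : Set (G ⧸ H)) ≤ Subgroup.centralizer ({Y} : Set (G ⧸ H)) := by
    intro c hc
    rw [Subgroup.mem_centralizer_singleton_iff] at hc ⊢
    exact ((show Commute c X from hc).pow_right m)
  refine CfsgH1.isNilpotent_of_le ?_ hle
  -- pull back
  set K := (Subgroup.centralizer ({Y} : Set (G ⧸ H))).comap π with hK
  have hKmap : Subgroup.centralizer ({Y} : Set (G ⧸ H)) = K.map π := (Subgroup.map_comap_eq_self_of_surjective hsurj _).symm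
  rw [hKmap]
  obtain ⟨g, hg⟩ := hsurj Y
  have hKg : ∀ k ∈ K, ∀ x : G, π x = Y → k * x * k⁻¹ * x⁻¹ ∈ H := by
    intro k hk x hx
    have h1 : π k * Y = Y * π k := Subgroup.mem_centralizer_singleton_iff.1 hk
    rw [← QuotientGroup.eq_one_iff]
    change π (k * x * k⁻¹ * x⁻¹) = 1
    rw [map_mul, map_mul, map_mul, hx, h1, map_inv, map_inv, hx]
    group
  by_cases hqp : q = p
  · subst hqp
    set P₀ := H ⊔ Subgroup.zpowers g with hP₀
    have hgp : IsPGroup q (Subgroup.zpowers g) := by
      have h1 : g ^ q ∈ H := by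
        rw [← QuotientGroup.eq_one_iff]
        change π (g ^ q) = 1
        rw [map_pow, hg, ← hX1, pow_orderOf_eq_one]
      obtain ⟨k, hk⟩ := hHp ⟨_, h1⟩
      have h2 : g ^ q ^ (k + 1) = 1 := by
        rw [pow_succ', pow_mul]
        exact congrArg Subtype.val hk
      rw [IsPGroup.iff_card, Nat.card_zpowers]
      obtain ⟨j, _, hj⟩ := (Nat.dvd_prime_pow hq).1 (orderOf_dvd_of_pow_eq_one h2)
      exact ⟨j, hj⟩
    have hP₀p : IsPGroup q P₀ := hHp.to_sup_of_normal_left hgp
    have hHP : H ≤ P₀ := le_sup_left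
    have hgP : g ∈ P₀ := Subgroup.mem_sup_right (Subgroup.mem_zpowers g)
    have hKP : K ≤ Subgroup.normalizer (P₀ : Set G) := by
      rw [CfsgH1.le_normalizer_iff_conj]
      have h0 : ∀ k ∈ K, P₀ ≤ P₀.comap (MulAut.conj k).toMonoidHom := by
        intro k hk
        refine sup_le ?_ (Subgroup.zpowers_le.2 ?_)
        · intro h hh
          exact hHP (hHn.conj_mem h hh k)
        · change k * g * k⁻¹ ∈ P₀
          have h1 := hHP (hKg k hk g hg)
          have := mul_mem h1 hgP
          rwa [inv_mul_cancel_right] at this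
      intro k hk x hx
      exact h0 k hk hx
    have hZ := CfsgH1.inf_centralizer_ne_bot_of_nilpotent hP₀p.isNilpotent hHP (CfsgH1.le_normalizer_of_normal P₀ H) hHb
    obtain ⟨z, hz, hz1⟩ := (Subgroup.bot_or_exists_ne_one _).resolve_left hZ
    obtain ⟨hzH, hzP⟩ := Subgroup.mem_inf.1 hz
    have hgH : g ∉ H := by
      intro h
      apply hY1
      rw [← hg]
      exact (QuotientGroup.eq_one_iff g).2 h
    have hcop : ∀ y : G, (orderOf y).Coprime q → ∀ w ∈ P₀, (orderOf y).Coprime (orderOf w) := by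
      intro y hy w hw
      obtain ⟨j, hj⟩ := IsPGroup.iff_orderOf.1 hP₀p ⟨w, hw⟩
      rw [Subgroup.orderOf_mk] at hj
      rw [hj]
      exact hy.pow_right j
    have hyz : ∀ y ∈ K, (orderOf y).Coprime q → y * z = z * y := by
      intro y hy hyq
      have hcy : (Nat.card (Subgroup.zpowers y)).Coprime (Nat.card H) := by
        obtain ⟨j, hj⟩ := IsPGroup.iff_card.1 hHp
        rw [Nat.card_zpowers, hj]
        exact hyq.pow_right j
      obtain ⟨c, hc, hcH⟩ := CfsgH1.exists_fixed_in_coset (A := Subgroup.zpowers y) (D := H) (CfsgH1.le_normalizer_of_normal _ H) hcy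
        (Or.inr (CfsgH1.isSolvable_of_isPGroup hHp)) g (by
          intro a ha
          have haK : a ∈ K := (Subgroup.zpowers_le.2 hy) ha
          have h1 := hHn.conj_mem _ (hKg a haK g hg) g⁻¹
          have e : g⁻¹ * (a * g * a⁻¹ * g⁻¹) * g⁻¹⁻¹ = g⁻¹ * (a * g * a⁻¹) := by group
          rwa [e] at h1)
      have hcP : c ∈ P₀ := by
        have e : c = g * (g⁻¹ * c) := by group
        rw [e]
        exact mul_mem hgP (hHP hcH)
      have hc1 : c ≠ 1 := by
        rintro rfl
        rw [mul_one] at hcH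
        exact hgH (inv_mem_iff.1 hcH)
      refine commute_of_nilp (hCN c hc1) ?_ ?_ (hcop y hyq z (hHP hzH))
      · rw [Subgroup.mem_centralizer_singleton_iff]
        exact Subgroup.mem_centralizer_iff.1 hc y (Subgroup.mem_zpowers y)
      · rw [Subgroup.mem_centralizer_singleton_iff]
        exact (Subgroup.mem_centralizer_iff.1 hzP c hcP).symm
    -- Sylow subgroup of `K`
    have hHK : H ≤ K := by
      intro h hh
      rw [hK, Subgroup.mem_comap, show π h = 1 from (QuotientGroup.eq_one_iff h).2 hh]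
      exact one_mem _
    have hP₀K : P₀ ≤ K := by
      refine sup_le hHK (Subgroup.zpowers_le.2 ?_)
      rw [hK, Subgroup.mem_comap, hg, Subgroup.mem_centralizer_singleton_iff]
    obtain ⟨P, hP, hP₀P⟩ := CfsgH1.exists_isSylowOf_ge hP₀p hP₀K
    have hPP := CfsgH1.isSylowOf_isPGroup hP
    have hPK := CfsgH1.isSylowOf_le hP
    have hP₀b : P₀ ≠ ⊥ := fun h => hHb (le_bot_iff.1 (hHP.trans h.le))
    have hA := CfsgH1.inf_centralizer_ne_bot_of_nilpotent hPP.isNilpotent hP₀P (hPK.trans hKP) hP₀b
    obtain ⟨a, ha, ha1⟩ := (Subgroup.bot_or_exists_ne_one _).resolve_left hA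
    obtain ⟨haP₀, haP⟩ := Subgroup.mem_inf.1 ha
    have hKa : K ≤ Subgroup.centralizer ({a} : Set G) := by
      apply CfsgH1.le_of_forall_sylowOf
      intro r hr
      haveI : Fact r.Prime := ⟨hr⟩
      by_cases hrq : r = q
      · subst hrq
        refine ⟨P, hP, fun x hx => ?_⟩
        rw [Subgroup.mem_centralizer_singleton_iff]
        exact Subgroup.mem_centralizer_iff.1 haP x hx
      · obtain ⟨R, hR⟩ := CfsgH1.exists_isSylowOf r K
        refine ⟨R, hR, fun y hy => ?_⟩
        have hyq : (orderOf y).Coprime q := by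
          obtain ⟨j, hj⟩ := IsPGroup.iff_orderOf.1 (CfsgH1.isSylowOf_isPGroup hR) ⟨y, hy⟩
          rw [Subgroup.orderOf_mk] at hj
          rw [hj]
          exact Nat.Coprime.pow_left j ((Nat.coprime_primes hr hq).2 hrq)
        rw [Subgroup.mem_centralizer_singleton_iff]
        refine commute_of_nilp (hCN z hz1) ?_ ?_ (hcop y hyq a haP₀)
        · rw [Subgroup.mem_centralizer_singleton_iff]
          exact hyz y (CfsgH1.isSylowOf_le hR hy) hyq
        · rw [Subgroup.mem_centralizer_singleton_iff]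
          exact (Subgroup.mem_centralizer_iff.1 hzP a haP₀)
    exact nilpotent_map (CfsgH1.isNilpotent_of_le (hCN a ha1) hKa) π
  · -- coprime case
    have h1 : g ^ q ∈ H := by
      rw [← QuotientGroup.eq_one_iff]
      change π (g ^ q) = 1
      rw [map_pow, hg, ← hX1, pow_orderOf_eq_one]
    obtain ⟨k, hk⟩ := hHp ⟨_, h1⟩
    have hcop : (p ^ k).Coprime q := Nat.Coprime.pow_left k ((Nat.coprime_primes hp.out hq).2 (Ne.symm hqp))
    obtain ⟨m', hm'⟩ := Nat.exists_mul_mod_eq_one_of_coprime hcop hq.one_lt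
    set x := g ^ (p ^ k * m') with hx
    have hxq : x ^ q = 1 := by
      have e : x ^ q = ((g ^ q) ^ p ^ k) ^ m' := by
        rw [hx, ← pow_mul, ← pow_mul, ← pow_mul]; congr 1; ring
      rw [e, show (g ^ q) ^ p ^ k = 1 from congrArg Subtype.val hk, one_pow]
    have hπx : π x = Y := by
      rw [hx, map_pow, hg, ← Nat.mod_add_div (p ^ k * m') q, hm'.2, pow_add, pow_one, pow_mul, ← hX1, pow_orderOf_eq_one,
        one_pow, mul_one]
    have hx1 : x ≠ 1 := by
      rintro h
      rw [h, map_one] at hπx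
      exact hY1 hπx.symm
    have hxo : orderOf x = q := orderOf_eq_prime hxq hx1
    have hcard : (Nat.card (Subgroup.zpowers x)).Coprime (Nat.card H) := by
      obtain ⟨j, hj⟩ := IsPGroup.iff_card.1 hHp
      rw [Nat.card_zpowers, hj, hxo]
      exact ((Nat.coprime_primes hq hp.out).2 hqp).pow_right j
    have hKC : K.map π ≤ (Subgroup.centralizer ({x} : Set G)).map π := by
      rintro _ ⟨k, hk, rfl⟩
      have hconj : ∀ a ∈ Subgroup.zpowers x, k⁻¹ * (a * k * a⁻¹) ∈ H := by
        have hxK : x ∈ K := by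
          rw [hK, Subgroup.mem_comap, hπx, Subgroup.mem_centralizer_singleton_iff]
        intro a ha
        obtain ⟨n, rfl⟩ := Subgroup.mem_zpowers_iff.1 ha
        rw [← QuotientGroup.eq_one_iff]
        change π (k⁻¹ * (x ^ n * k * (x ^ n)⁻¹)) = 1
        have h2 : Commute (π k) Y := Subgroup.mem_centralizer_singleton_iff.1 hk
        rw [map_mul, map_mul, map_mul, map_inv, map_inv, map_zpow, hπx, ← (h2.zpow_right n).eq]
        group
      obtain ⟨c, hc, hcH⟩ := CfsgH1.exists_fixed_in_coset (A := Subgroup.zpowers x) (D := H) (CfsgH1.le_normalizer_of_normal _ H) hcard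
        (Or.inr (CfsgH1.isSolvable_of_isPGroup hHp)) k hconj
      refine ⟨c, ?_, ?_⟩
      · rw [SetLike.mem_coe, Subgroup.mem_centralizer_singleton_iff]
        exact (Subgroup.mem_centralizer_iff.1 hc x (Subgroup.mem_zpowers x)).symm
      · have e : c = k * (k⁻¹ * c) := by group
        rw [e, map_mul, show π (k⁻¹ * c) = 1 from (QuotientGroup.eq_one_iff _).2 hcH, mul_one]
    exact CfsgH1.isNilpotent_of_le (nilpotent_map (hCN x hx1) π) hKC


theorem cn_equiv {G' : Type*} [Group G'] (h : IsCNGroup G) (e : G ≃* G') : IsCNGroup G' := by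
  intro g hg
  have h1 := h (e.symm g) (by
    intro h
    apply hg
    rw [← e.apply_symm_apply g, h, map_one])
  have h2 : Subgroup.centralizer ({g} : Set G') ≤ (Subgroup.centralizer ({e.symm g} : Set G)).map e.toMonoidHom := by
    intro c hc
    refine ⟨e.symm c, ?_, e.apply_symm_apply c⟩
    rw [SetLike.mem_coe, Subgroup.mem_centralizer_singleton_iff]
    rw [Subgroup.mem_centralizer_singleton_iff] at hc
    rw [← map_mul, ← map_mul, hc]
  exact CfsgH1.isNilpotent_of_le (nilpotent_map h1 e.toMonoidHom) h2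

theorem cn_subgroup (h : IsCNGroup G) (K : Subgroup G) : IsCNGroup ↥K := by
  intro g hg
  have h1 := h (g : G) (fun h => hg (Subtype.ext h))
  have h2 : (Subgroup.centralizer ({g} : Set ↥K)).map K.subtype ≤ Subgroup.centralizer ({(g : G)} : Set G) := by
    rintro _ ⟨c, hc, rfl⟩
    rw [SetLike.mem_coe, Subgroup.mem_centralizer_singleton_iff] at hc
    rw [Subgroup.mem_centralizer_singleton_iff]
    exact congrArg Subtype.val hc
  have h3 := CfsgH1.isNilpotent_of_le h1 h2
  exact Group.nilpotent_of_mulEquiv ((Subgroup.centralizer ({g} : Set ↥K)).equivMapOfInjective K.subtype K.subtype_injective).symm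

theorem cn_quotient (n : ℕ) : ∀ (G : Type u) [Group G] [Finite G], Nat.card G = n → IsCNGroup G → ∀ (H : Subgroup G) [H.Normal],
    Group.IsSolvable H → IsCNGroup (G ⧸ H) := by
  induction n using Nat.strong_induction_on with
  | _ n ih =>
  intro G _ _ hn hCN H hHn hHs
  by_cases hH : H = ⊥
  · subst hH
    exact cn_equiv hCN QuotientGroup.quotientBot.symm
  · obtain ⟨M, hMn, hMH, hMb, hMmin⟩ := CfsgH1.exists_minNormal_le hH
    have hMs : Group.IsSolvable M := CfsgH1.isSolvable_of_le hHs hMH
    obtain ⟨hMc, p, hp, hMp⟩ := CfsgH1.elemAb_of_min_invariant (B := ⊤) (CfsgH1.le_normalizer_of_normal ⊤ M) hMb hMs (by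
      intro N hN hle
      exact hMmin N (Subgroup.normalizer_eq_top_iff.1 (top_le_iff.1 hN)) hle)
    haveI : Fact p.Prime := ⟨hp⟩
    have hMpg : IsPGroup p M := fun x => ⟨1, Subtype.ext (by rw [pow_one]; exact hMp x x.2)⟩
    have h1 := cn_step hCN (H := M) hMpg hMb
    have hlt : Nat.card (G ⧸ M) < n := by
      rw [← hn, ← M.index_eq_card, ← M.card_mul_index]
      have h2 : 1 < Nat.card M := by
        rw [Nat.lt_iff_add_one_le]
        by_contra hcon
        have h3 : Nat.card M = 1 := by
          have := Nat.card_pos (α := M); omega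
        exact hMb (Subgroup.card_eq_one.1 h3)
      exact lt_mul_of_one_lt_left (Nat.pos_of_ne_zero Subgroup.index_ne_zero_of_finite) h2
    have hHM : (H.map (QuotientGroup.mk' M)).Normal := hHn.map _ (QuotientGroup.mk'_surjective M)
    have hHMs : Group.IsSolvable ↥(H.map (QuotientGroup.mk' M)) :=
      Group.isSolvable_of_surjective ((QuotientGroup.mk' M).subgroupMap_surjective H)
    have h2 := ih _ hlt (G ⧸ M) rfl h1 (H.map (QuotientGroup.mk' M)) hHMs
    exact cn_equiv h2 (QuotientGroup.quotientQuotientEquivQuotient M H hMH)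

end CfsgH3
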