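import Cfsg.Agent.H3.CNgrp
import Cfsg.Agent.H1.KW
import Cfsg.Agent.H1.FrobComp
import Cfsg.Agent.H7.Syl
import Cfsg.Agent.H3.FitHall
import Cfsg.Agent.S0069
import Cfsg.Agent.H2.Misc7

set_option autoImplicit false

/-! Maximal nilpotent subgroups of CN-groups. -/

namespace CfsgH3

open Subgroup Cfsg
open scoped commutatorElement Pointwise

universe u
variable {G : Type u} [Group G]

theorem coprime_of_pgroups [Finite G] {p q : ℕ} [hp : Fact p.Prime] [hq : Fact q.Prime] (hpq : p ≠ q) {P Q : Subgroup G}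
    (hP : IsPGroup p P) (hQ : IsPGroup q Q) {x y : G} (hx : x ∈ P) (hy : y ∈ Q) : (orderOf x).Coprime (orderOf y) := by
  obtain ⟨j, hj⟩ := IsPGroup.iff_orderOf.1 hP ⟨x, hx⟩
  obtain ⟨k, hk⟩ := IsPGroup.iff_orderOf.1 hQ ⟨y, hy⟩
  rw [Subgroup.orderOf_mk] at hj hk
  rw [hj, hk]
  exact Nat.Coprime.pow _ _ ((Nat.coprime_primes hp.out hq.out).2 hpq)

/-- In a nilpotent group the centre of a Sylow subgroup is central. -/
theorem le_centralizer_of_sylow_center [Finite G] {p : ℕ} [hp : Fact p.Prime] {H P : Subgroup G} (hH : Group.IsNilpotent H)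
    (hP : CfsgH1.IsSylowOf p P H) {v : G} (hv : v ∈ P) (hvP : v ∈ centralizer (P : Set G)) : H ≤ centralizer ({v} : Set G) := by
  apply CfsgH1.le_of_forall_sylowOf
  intro r hr
  haveI : Fact r.Prime := ⟨hr⟩
  by_cases hrp : r = p
  · subst hrp
    refine ⟨P, hP, fun x hx => ?_⟩
    rw [mem_centralizer_singleton_iff]
    exact mem_centralizer_iff.1 hvP x hx
  · obtain ⟨R, hR⟩ := CfsgH1.exists_isSylowOf r H
    refine ⟨R, hR, fun y hy => ?_⟩
    rw [mem_centralizer_singleton_iff]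
    exact commute_of_nilp hH (CfsgH1.isSylowOf_le hR hy) (CfsgH1.isSylowOf_le hP hv)
      (coprime_of_pgroups hrp (CfsgH1.isSylowOf_isPGroup hR) (CfsgH1.isSylowOf_isPGroup hP) hy hv)

/-- A central element of order `p`. -/
theorem exists_central_order [Finite G] {p : ℕ} [hp : Fact p.Prime] {H : Subgroup G} (hH : Group.IsNilpotent H)
    (hpH : p ∣ Nat.card H) : ∃ v ∈ H, orderOf v = p ∧ H ≤ centralizer ({v} : Set G) := by
  obtain ⟨P, hP⟩ := CfsgH1.exists_isSylowOf p H
  have hPb := CfsgH1.isSylowOf_ne_bot hP hpH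
  have hPp := CfsgH1.isSylowOf_isPGroup hP
  have h1 := CfsgH1.inf_centralizer_ne_bot_of_nilpotent hPp.isNilpotent le_rfl Subgroup.le_normalizer hPb
  have h2 : p ∣ Nat.card ↥(P ⊓ centralizer (P : Set G)) := by
    obtain ⟨k, hk⟩ := IsPGroup.iff_card.1 (hPp.to_le (inf_le_left : P ⊓ centralizer (P : Set G) ≤ P))
    rw [hk]
    refine dvd_pow_self p ?_
    rintro rfl
    rw [pow_zero, Subgroup.card_eq_one] at hk
    exact h1 hk
  obtain ⟨v, hv⟩ := exists_prime_orderOf_dvd_card' (G := ↥(P ⊓ centralizer (P : Set G))) p h2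
  obtain ⟨hvP, hvC⟩ := Subgroup.mem_inf.1 v.2
  exact ⟨v, CfsgH1.isSylowOf_le hP hvP, by rw [Subgroup.orderOf_coe, hv], le_centralizer_of_sylow_center hH hP hvP hvC⟩

/-- The setting of a maximal nilpotent subgroup. -/
def MaxNil (H : Subgroup G) : Prop := Group.IsNilpotent H ∧ ∀ L : Subgroup G, Group.IsNilpotent L → H ≤ L → L = H

theorem MaxNil.cent_eq (hCN : IsCNGroup G) {H : Subgroup G} (h : MaxNil H) {v : G} (hv : v ≠ 1) (hvC : H ≤ centralizer ({v} : Set G)) :
    centralizer ({v} : Set G) = H := h.2 _ (hCN v hv) hvC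

theorem MaxNil.sylow [Finite G] (hCN : IsCNGroup G) {H : Subgroup G} (h : MaxNil H) {p : ℕ} [hp : Fact p.Prime] (hpH : p ∣ Nat.card H)
    {P : Subgroup G} (hP : CfsgH1.IsSylowOf p P H) : CfsgH1.IsSylowOf p P ⊤ := by
  have hPp := CfsgH1.isSylowOf_isPGroup hP
  have hPb := CfsgH1.isSylowOf_ne_bot hP hpH
  refine CfsgH1.isSylowOf_of_normalizer le_top hPp ?_
  rw [top_inf_eq]
  obtain ⟨R, hR, hPR⟩ := CfsgH1.exists_isSylowOf_ge hPp (Subgroup.le_normalizer (H := P))
  have hRp := CfsgH1.isSylowOf_isPGroup hR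
  have hRN := CfsgH1.isSylowOf_le hR
  have hc1 := CfsgH1.inf_centralizer_ne_bot_of_nilpotent hPp.isNilpotent le_rfl Subgroup.le_normalizer hPb
  have hRZ : R ≤ normalizer ((P ⊓ centralizer (P : Set G) : Subgroup G) : Set G) :=
    CfsgH1.le_normalizer_inf_centralizer hRN
  have hc2 := CfsgH1.inf_centralizer_ne_bot_of_nilpotent hRp.isNilpotent (inf_le_left.trans hPR) hRZ hc1
  obtain ⟨z, hz, hz1⟩ := (Subgroup.bot_or_exists_ne_one _).resolve_left hc2
  obtain ⟨hz2, hzR⟩ := Subgroup.mem_inf.1 hz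
  obtain ⟨hzP, hzC⟩ := Subgroup.mem_inf.1 hz2
  have h3 := h.cent_eq hCN hz1 (le_centralizer_of_sylow_center h.1 hP hzP hzC)
  have hRH : R ≤ H := by
    rw [← h3]
    intro r hr
    rw [mem_centralizer_singleton_iff]
    exact mem_centralizer_iff.1 hzR r hr
  have : R = P := CfsgH7.IsSyl.eq_of_le (CfsgH1.isSylowOf_iff.1 hP) hRp hPR hRH
  rwa [this] at hR


theorem MaxNil.hall [Finite G] (hCN : IsCNGroup G) {H : Subgroup G} (h : MaxNil H) : (Nat.card H).Coprime H.index := by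
  by_contra hcon
  obtain ⟨p, hp, h1, h2⟩ := Nat.Prime.not_coprime_iff_dvd.1 hcon
  haveI : Fact p.Prime := ⟨hp⟩
  obtain ⟨P, hP⟩ := CfsgH1.exists_isSylowOf p H
  have h3 := (CfsgH1.isSylowOf_iff.1 (h.sylow hCN h1 hP)).2.2
  apply h3
  have h4 := Subgroup.relIndex_mul_relIndex P H ⊤ (CfsgH1.isSylowOf_le hP) le_top
  rw [← h4, Subgroup.relIndex_top_right]
  exact dvd_mul_of_dvd_right h2 _

/-- Centralizers of elements of prime order when `H` is not a `p`-group. -/
theorem MaxNil.cent_le_prime [Finite G] (hCN : IsCNGroup G) {H : Subgroup G} (h : MaxNil H) {p q : ℕ} (hp : p.Prime) (hq : q.Prime)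
    (hpq : p ≠ q) (hpH : p ∣ Nat.card H) (hqH : q ∣ Nat.card H) {x : G} (hx : x ∈ H) (hx1 : x ≠ 1) :
    centralizer ({x} : Set G) ≤ H := by
  haveI : Fact p.Prime := ⟨hp⟩
  haveI : Fact q.Prime := ⟨hq⟩
  obtain ⟨v, hvH, hv, hvC⟩ := exists_central_order h.1 hpH
  obtain ⟨u, huH, hu, huC⟩ := exists_central_order h.1 hqH
  have hv1 : v ≠ 1 := by
    rintro rfl
    rw [orderOf_one] at hv
    exact hp.one_lt.ne hv
  have hu1 : u ≠ 1 := by
    rintro rfl
    rw [orderOf_one] at hu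
    exact hq.one_lt.ne hu
  have ev := h.cent_eq hCN hv1 hvC
  have eu := h.cent_eq hCN hu1 huC
  have hvx : v ∈ centralizer ({x} : Set G) := by
    rw [mem_centralizer_singleton_iff]
    exact (mem_centralizer_singleton_iff.1 (hvC hx)).symm
  have hux : u ∈ centralizer ({x} : Set G) := by
    rw [mem_centralizer_singleton_iff]
    exact (mem_centralizer_singleton_iff.1 (huC hx)).symm
  apply CfsgH1.le_of_forall_sylowOf
  intro r hr
  haveI : Fact r.Prime := ⟨hr⟩
  obtain ⟨R, hR⟩ := CfsgH1.exists_isSylowOf r (centralizer ({x} : Set G))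
  have hcop : ∀ (s : ℕ) (w y : G), s.Prime → r ≠ s → orderOf w = s → y ∈ R → (orderOf y).Coprime (orderOf w) := by
    intro s w y hs hrs hw hy
    obtain ⟨j, hj⟩ := IsPGroup.iff_orderOf.1 (CfsgH1.isSylowOf_isPGroup hR) ⟨y, hy⟩
    rw [Subgroup.orderOf_mk] at hj
    rw [hj, hw]
    exact Nat.Coprime.pow_left j ((Nat.coprime_primes hr hs).2 hrs)
  refine ⟨R, hR, fun y hy => ?_⟩
  by_cases hrp : r = p
  · rw [← eu, mem_centralizer_singleton_iff]
    exact commute_of_nilp (hCN x hx1) (CfsgH1.isSylowOf_le hR hy) hux (hcop q u y hq (by rw [hrp]; exact hpq) hu hy)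
  · rw [← ev, mem_centralizer_singleton_iff]
    exact commute_of_nilp (hCN x hx1) (CfsgH1.isSylowOf_le hR hy) hvx (hcop p v y hp hrp hv hy)

theorem MaxNil.ti [Finite G] (hCN : IsCNGroup G) {H : Subgroup G} (h : MaxNil H) {p q : ℕ} (hp : p.Prime) (hq : q.Prime)
    (hpq : p ≠ q) (hpH : p ∣ Nat.card H) (hqH : q ∣ Nat.card H) (g : G) (hne : H.map (MulAut.conj g).toMonoidHom ≠ H) :
    H ⊓ H.map (MulAut.conj g).toMonoidHom = ⊥ := by
  by_contra hcon
  obtain ⟨x, hx, hx1⟩ := (Subgroup.bot_or_exists_ne_one _).resolve_left hcon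
  obtain ⟨hxH, hxg⟩ := Subgroup.mem_inf.1 hx
  set H' := H.map (MulAut.conj g).toMonoidHom with hH'
  have hcard : Nat.card H' = Nat.card H := CfsgH7.card_cj g H
  have h' : MaxNil H' := by
    refine ⟨nilpotent_map h.1 _, fun L hL hHL => ?_⟩
    have h1 := h.2 (L.map (MulAut.conj g⁻¹).toMonoidHom) (nilpotent_map hL _) (by
      intro y hy
      refine ⟨g * y * g⁻¹, hHL ⟨y, hy, rfl⟩, ?_⟩
      simp only [MulEquiv.toMonoidHom_eq_coe, MonoidHom.coe_coe, MulAut.conj_apply]; group)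
    have h2 : Nat.card L = Nat.card H := by
      rw [← h1]; exact (CfsgH7.card_cj g⁻¹ L).symm
    exact (Subgroup.eq_of_le_of_card_ge hHL (by rw [hcard, h2])).symm
  have c1 := h.cent_le_prime hCN hp hq hpq hpH hqH hxH hx1
  have c2 := h'.cent_le_prime hCN hp hq hpq (by rw [hcard]; exact hpH) (by rw [hcard]; exact hqH) hxg hx1
  haveI : Fact p.Prime := ⟨hp⟩
  obtain ⟨v, hvH, hv, hvC⟩ := exists_central_order h.1 hpH
  have hv1 : v ≠ 1 := by
    rintro rfl
    rw [orderOf_one] at hv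
    exact hp.one_lt.ne hv
  have hvx : v ∈ centralizer ({x} : Set G) := by
    rw [mem_centralizer_singleton_iff]
    exact (mem_centralizer_singleton_iff.1 (hvC hxH)).symm
  have c3 := h'.cent_le_prime hCN hp hq hpq (by rw [hcard]; exact hpH) (by rw [hcard]; exact hqH) (c2 hvx) hv1
  rw [h.cent_eq hCN hv1 hvC] at c3
  exact hne (Subgroup.eq_of_le_of_card_ge c3 hcard.le).symm

theorem MaxNil.cent_le_of_ti [Finite G] (hCN : IsCNGroup G) {H : Subgroup G} (h : MaxNil H)
    (hti : ∀ g : G, H.map (MulAut.conj g).toMonoidHom ≠ H → H ⊓ H.map (MulAut.conj g).toMonoidHom = ⊥) {x : G} (hx : x ∈ H) (hx1 : x ≠ 1) :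
    centralizer ({x} : Set G) ≤ H := by
  have hN : centralizer ({x} : Set G) ≤ normalizer (H : Set G) := by
    intro y hy
    rw [Subgroup.mem_normalizer_iff_map_conj_eq]
    by_contra hne
    have h1 := hti y hne
    have h2 : x ∈ H ⊓ H.map (MulAut.conj y).toMonoidHom := by
      refine Subgroup.mem_inf.2 ⟨hx, ⟨x, hx, ?_⟩⟩
      have := mem_centralizer_singleton_iff.1 hy
      simp only [MulEquiv.toMonoidHom_eq_coe, MonoidHom.coe_coe, MulAut.conj_apply]
      rw [this, mul_inv_cancel_right]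
    rw [h1, Subgroup.mem_bot] at h2
    exact hx1 h2
  have hH1 : Nat.card H ≠ 1 := by
    intro h1
    rw [Subgroup.card_eq_one] at h1
    rw [h1, Subgroup.mem_bot] at hx
    exact hx1 hx
  obtain ⟨p, hp, hpH⟩ := Nat.exists_prime_and_dvd hH1
  haveI : Fact p.Prime := ⟨hp⟩
  by_cases hex : ∃ q : ℕ, q.Prime ∧ p ≠ q ∧ q ∣ Nat.card H
  · obtain ⟨q, hq, hpq, hqH⟩ := hex
    exact h.cent_le_prime hCN hp hq hpq hpH hqH hx hx1
  · push Not at hex
    obtain ⟨v, hvH, hv, hvC⟩ := exists_central_order h.1 hpH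
    have hv1 : v ≠ 1 := by
      rintro rfl
      rw [orderOf_one] at hv
      exact hp.one_lt.ne hv
    have hvx : v ∈ centralizer ({x} : Set G) := by
      rw [mem_centralizer_singleton_iff]
      exact (mem_centralizer_singleton_iff.1 (hvC hx)).symm
    have hHall := h.hall hCN
    apply CfsgH1.le_of_forall_sylowOf
    intro r hr
    haveI : Fact r.Prime := ⟨hr⟩
    obtain ⟨R, hR⟩ := CfsgH1.exists_isSylowOf r (centralizer ({x} : Set G))
    refine ⟨R, hR, ?_⟩
    have hRp := CfsgH1.isSylowOf_isPGroup hR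
    by_cases hrp : r = p
    · subst hrp
      -- `R` normalizes the normal Sylow subgroup `H`
      have h1 : CfsgH1.IsSylowOf r H (normalizer (H : Set G)) := by
        rw [CfsgH1.isSylowOf_iff]
        refine ⟨Subgroup.le_normalizer, ?_, fun hd => ?_⟩
        · rw [IsPGroup.iff_card]
          refine ⟨_, Nat.eq_prime_pow_of_unique_prime_dvd Nat.card_pos.ne' (fun {d} hd hdv => ?_)⟩
          by_contra hne
          exact hex d hd (Ne.symm hne) hdv
        · have h2 : H.relIndex (normalizer (H : Set G)) ∣ H.index := Subgroup.relIndex_dvd_index_of_le Subgroup.le_normalizer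
          exact hp.one_lt.ne' (Nat.eq_one_of_dvd_coprimes hHall hpH (hd.trans h2))
      have h2 := CfsgH7.IsSyl.eq_of_le (CfsgH1.isSylowOf_iff.1 h1) (Q := H ⊔ R)
        ((CfsgH1.isSylowOf_isPGroup h1).to_sup_of_normal_left' hRp ((CfsgH1.isSylowOf_le hR).trans hN)) le_sup_left
        (sup_le Subgroup.le_normalizer ((CfsgH1.isSylowOf_le hR).trans hN))
      rw [← h2]
      exact le_sup_right
    · intro y hy
      rw [← h.cent_eq hCN hv1 hvC, mem_centralizer_singleton_iff]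
      refine commute_of_nilp (hCN x hx1) (CfsgH1.isSylowOf_le hR hy) hvx ?_
      obtain ⟨j, hj⟩ := IsPGroup.iff_orderOf.1 hRp ⟨y, hy⟩
      rw [Subgroup.orderOf_mk] at hj
      rw [hj, hv]
      exact Nat.Coprime.pow_left j ((Nat.coprime_primes hr hp).2 hrp)

theorem normal_of_sylow_nilpotent [Finite G] {q : ℕ} [hq : Fact q.Prime] {C S : Subgroup G} (hC : C.Normal) (hCn : Group.IsNilpotent C)
    (hS : CfsgH1.IsSylowOf q S C) : S.Normal := by
  obtain ⟨P, rfl⟩ := hS
  have h0 : ∀ (p : ℕ) (_ : Fact p.Prime) (P : Sylow p ↥C), (P : Subgroup ↥C).Normal :=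
    ((Group.isNilpotent_of_finite_tfae (G := ↥C)).out 0 3).1 hCn
  have h1 : (P : Subgroup C).Normal := h0 q hq P
  haveI h2 : (P : Subgroup C).Characteristic := P.characteristic_of_normal h1
  haveI := hC
  exact CfsgH1.normal_map_characteristic (P : Subgroup C)

theorem cn_fittingHall_fpf [Finite G] (hCN : IsCNGroup G) {e : G} (he : (orderOf e).Coprime (Nat.card (fittingHall G))) (he1 : e ≠ 1) :
    fittingHall G ⊓ centralizer ({e} : Set G) = ⊥ := by
  set H := fittingHall G with hH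
  by_contra hcon
  obtain ⟨h, hh, hh1⟩ := (Subgroup.bot_or_exists_ne_one _).resolve_left hcon
  obtain ⟨hhH, hhe⟩ := Subgroup.mem_inf.1 hh
  have hHn : Group.IsNilpotent H := fittingHall_nilpotent
  have hHb : Nat.card H ≠ 1 := by
    intro h1
    rw [Subgroup.card_eq_one] at h1
    rw [h1, Subgroup.mem_bot] at hhH
    exact hh1 hhH
  -- `q`-element
  obtain ⟨q, hq, hqe⟩ := Nat.exists_prime_and_dvd (fun h => he1 (orderOf_eq_one_iff.1 h))
  haveI : Fact q.Prime := ⟨hq⟩
  have hqH : ¬ q ∣ Nat.card H := fun h1 => hq.one_lt.ne' (Nat.eq_one_of_dvd_coprimes he hqe h1)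
  obtain ⟨m, hm⟩ := hqe
  have hm0 : m ≠ 0 := by
    rintro rfl
    exact (orderOf_pos e).ne' (by rw [hm, mul_zero])
  set y := e ^ m with hy
  have hyo : orderOf y = q := by
    rw [hy, orderOf_pow, hm, Nat.gcd_eq_right (dvd_mul_left m q), Nat.mul_div_cancel _ (Nat.pos_of_ne_zero hm0)]
  have hyh : y ∈ centralizer ({h} : Set G) := by
    rw [mem_centralizer_singleton_iff]
    have h1 : Commute h e := mem_centralizer_singleton_iff.1 hhe
    exact (h1.pow_right m).symm
  obtain ⟨p, hp, hpH⟩ := Nat.exists_prime_and_dvd hHb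
  haveI : Fact p.Prime := ⟨hp⟩
  have hpq : p ≠ q := fun h1 => hqH (h1 ▸ hpH)
  obtain ⟨z, hzH, hz, hzC⟩ := exists_central_order hHn hpH
  have hz1 : z ≠ 1 := by
    rintro rfl
    rw [orderOf_one] at hz
    exact hp.one_lt.ne hz
  have hyz : y ∈ centralizer ({z} : Set G) := by
    rw [mem_centralizer_singleton_iff]
    refine commute_of_nilp (hCN h hh1) hyh ?_ ?_
    · rw [mem_centralizer_singleton_iff]
      exact (mem_centralizer_singleton_iff.1 (hzC hhH)).symm
    · rw [hyo, hz]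
      exact (Nat.coprime_primes hq hp).2 (Ne.symm hpq)
  have hordH : ∀ x ∈ H, ∀ w : G, (∃ k, orderOf w = q ^ k) → (orderOf w).Coprime (orderOf x) := by
    rintro x hx w ⟨k, hk⟩
    rw [hk]
    refine Nat.Coprime.pow_left k ?_
    have h1 : orderOf x ∣ Nat.card H := by
      have := _root_.orderOf_dvd_natCard (⟨x, hx⟩ : ↥H)
      rwa [← Subgroup.orderOf_coe] at this
    exact (hq.coprime_iff_not_dvd.2 hqH).coprime_dvd_right h1
  set C := centralizer (H : Set G) with hC
  have hHnorm : H.Normal := fittingHall_normal G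
  have hCnorm : C.Normal := inferInstance
  have hCz : C ≤ centralizer ({z} : Set G) := by
    intro c hc
    rw [mem_centralizer_singleton_iff]
    exact (mem_centralizer_iff.1 hc z hzH).symm
  have hCnil : Group.IsNilpotent C := CfsgH1.isNilpotent_of_le (hCN z hz1) hCz
  have hyC : y ∈ C := by
    rw [hC, mem_centralizer_iff]
    intro x hx
    exact (commute_of_nilp (hCN z hz1) hyz (hzC hx) (hordH x hx y ⟨1, by rw [pow_one]; exact hyo⟩)).symm
  obtain ⟨Q, hQ⟩ := CfsgH1.exists_isSylowOf q C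
  have hQn := normal_of_sylow_nilpotent hCnorm hCnil hQ
  have hqC : q ∣ Nat.card C := by
    have := _root_.orderOf_dvd_natCard (⟨y, hyC⟩ : ↥C)
    rw [← Subgroup.orderOf_coe] at this
    rw [← hyo]; exact this
  have hQb := CfsgH1.isSylowOf_ne_bot hQ hqC
  have hQp := CfsgH1.isSylowOf_isPGroup hQ
  obtain ⟨S, hS, hQS⟩ := CfsgH1.exists_isSylowOf_ge hQp (le_top : Q ≤ ⊤)
  have hSp := CfsgH1.isSylowOf_isPGroup hS
  have h1 := CfsgH1.inf_centralizer_ne_bot_of_nilpotent hSp.isNilpotent hQS (CfsgH1.le_normalizer_of_normal S Q) hQb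
  obtain ⟨w, hw, hw1⟩ := (Subgroup.bot_or_exists_ne_one _).resolve_left h1
  obtain ⟨hwQ, hwS⟩ := Subgroup.mem_inf.1 hw
  have hSC : S ≤ C := by
    intro s hs
    rw [hC, mem_centralizer_iff]
    intro x hx
    refine (commute_of_nilp (hCN w hw1) ?_ ?_ (hordH x hx s ?_)).symm
    · rw [mem_centralizer_singleton_iff]
      exact mem_centralizer_iff.1 hwS s hs
    · rw [mem_centralizer_singleton_iff]
      exact mem_centralizer_iff.1 (CfsgH1.isSylowOf_le hQ hwQ) x hx
    · obtain ⟨j, hj⟩ := IsPGroup.iff_orderOf.1 hSp ⟨s, hs⟩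
      rw [Subgroup.orderOf_mk] at hj
      exact ⟨j, hj⟩
  have hSn : S.Normal := normal_of_sylow_nilpotent hCnorm hCnil (CfsgH1.isSylowOf_of_le hS hSC le_top)
  have hSH : S ≤ H := by
    refine le_fittingHall hSn hSp.isNilpotent ?_
    obtain ⟨k, hk⟩ := IsPGroup.iff_card.1 hSp
    rw [hk]
    refine Nat.Coprime.pow_left k (hq.coprime_iff_not_dvd.2 ?_)
    have := (CfsgH1.isSylowOf_iff.1 hS).2.2
    rwa [Subgroup.relIndex_top_right] at this
  apply hqH
  have h2 : q ∣ Nat.card Q := by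
    obtain ⟨k, hk⟩ := IsPGroup.iff_card.1 hQp
    rw [hk]
    refine dvd_pow_self q ?_
    rintro rfl
    rw [pow_zero, Subgroup.card_eq_one] at hk
    exact hQb hk
  exact h2.trans (Subgroup.card_dvd_of_le (hQS.trans hSH))

theorem cn_struct [Finite G] (hCN : IsCNGroup G) (hnn : ¬ Group.IsNilpotent G) (hne : fittingHall G ≠ ⊥) :
    fittingHall G ≠ ⊤ ∧ (∃ E : Subgroup G, IsComplement' (fittingHall G) E ∧ IsFrobeniusComplement E ∧
        ∀ e ∈ E, e ≠ 1 → fittingHall G ⊓ centralizer ({e} : Set G) = ⊥) ∧ Group.IsNilpotent (G ⧸ fittingHall G) := by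
  have htop : fittingHall G ≠ ⊤ := by
    intro h
    apply hnn
    have h1 : Group.IsNilpotent (⊤ : Subgroup G) := by rw [← h]; exact fittingHall_nilpotent
    exact Group.nilpotent_of_mulEquiv Subgroup.topEquiv
  refine ⟨htop, ?_⟩
  obtain ⟨E, hE⟩ := Subgroup.exists_right_complement'_of_coprime (N := fittingHall G) fittingHall_coprime
  have hEc : Nat.card E = (fittingHall G).index := hE.symm.index_eq_card.symm
  have hf : ∀ e ∈ E, e ≠ 1 → fittingHall G ⊓ centralizer ({e} : Set G) = ⊥ := by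
    intro e he he1
    apply cn_fittingHall_fpf hCN _ he1
    have := _root_.orderOf_dvd_natCard (⟨e, he⟩ : ↥E)
    rw [← Subgroup.orderOf_coe, hEc] at this
    exact (fittingHall_coprime (G := G)).symm.coprime_dvd_left this
  have hEb : E ≠ ⊥ := by
    rintro rfl
    apply htop
    rw [Subgroup.card_bot] at hEc
    exact Subgroup.index_eq_one.1 hEc.symm
  refine ⟨⟨E, hE, (CfsgH2.frob_of_fpf_top hE hne hEb hf).1, hf⟩, ?_⟩
  have hZ := Cfsg.Agent.S0069.result (fittingHall G) E hE hne hEb hf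
  obtain ⟨s, hs, hs1⟩ := (Subgroup.bot_or_exists_ne_one _).resolve_left hZ
  have hEn : Group.IsNilpotent E := by
    refine CfsgH1.isNilpotent_of_le (hCN (s : G) (fun h => hs1 (Subtype.ext h))) ?_
    intro x hx
    rw [mem_centralizer_singleton_iff]
    exact congrArg Subtype.val (Subgroup.mem_center_iff.1 hs ⟨x, hx⟩)
  have h1 : E.map (QuotientGroup.mk' (fittingHall G)) = ⊤ := by
    rw [eq_top_iff]
    intro x _
    obtain ⟨g, rfl⟩ := QuotientGroup.mk'_surjective _ x
    have h2 : g ∈ E ⊔ fittingHall G := by rw [sup_comm, hE.sup_eq_top]; trivial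
    obtain ⟨u, hu, k, hk, rfl⟩ := Subgroup.mem_sup_of_normal_right.1 h2
    refine ⟨u, hu, ?_⟩
    rw [map_mul, show QuotientGroup.mk' (fittingHall G) k = 1 from (QuotientGroup.eq_one_iff k).2 hk, mul_one]
  have h2 := nilpotent_map hEn (QuotientGroup.mk' (fittingHall G))
  rw [h1] at h2
  exact Group.nilpotent_of_mulEquiv Subgroup.topEquiv

end CfsgH3
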