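import Cfsg.Agent.H3.CNgrp2
import Cfsg.Agent.S0016
import Cfsg.Agent.H1.SZ3
import Cfsg.Agent.H1.Fit
import Cfsg.Agent.H2.PLayer
import Cfsg.Agent.H2.Misc10

set_option autoImplicit false

/-! Solvable CN-groups. -/

namespace CfsgH3

open Subgroup Cfsg
open scoped commutatorElement Pointwise

universe u
variable {G : Type u} [Group G]

theorem nilp_fpf_struct [Finite G] {E K : Subgroup G} (hEK : E ≤ normalizer (K : Set G)) (hK : K ≠ ⊥)
    (hcop : (Nat.card E).Coprime (Nat.card K)) (hfpf : ∀ e ∈ E, e ≠ 1 → ∀ k ∈ K, e * k = k * e → k = 1)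
    (hE : Group.IsNilpotent E) :
    IsCyclic E ∨ ∃ C Q : Subgroup G, C ⊔ Q = E ∧ (∀ a ∈ C, ∀ b ∈ Q, a * b = b * a) ∧ IsCyclic C ∧ Odd (Nat.card C) ∧
          ∃ n : ℕ, Nonempty (↥Q ≃* QuaternionGroup (2 ^ n)) := by
  have hsyl : ∀ (p : ℕ) [Fact p.Prime] (P : Subgroup E), IsPGroup p P →
      IsCyclic P ∨ (p = 2 ∧ ∃ n : ℕ, Nonempty (P ≃* QuaternionGroup (2 ^ n))) := by
    intro p hp P hP
    exact Cfsg.Agent.S0016.result p hP (CfsgH1.frob_sylow_unique hEK hK hcop hfpf hP)
  obtain ⟨S⟩ : Nonempty (Sylow 2 E) := inferInstance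
  rcases hsyl 2 (S : Subgroup E) S.isPGroup' with hS | ⟨-, n, ⟨eS⟩⟩
  · left
    haveI : IsZGroup E := by
      refine ⟨fun p hp P => ?_⟩
      haveI : Fact p.Prime := ⟨hp⟩
      rcases hsyl p (P : Subgroup E) P.isPGroup' with h | ⟨h2, -⟩
      · exact h
      · subst h2
        exact isCyclic_of_surjective (Sylow.equiv S P) (Sylow.equiv S P).surjective
    infer_instance
  · right
    have h0 : ∀ (p : ℕ) (_ : Fact p.Prime) (P : Sylow p ↥E), (P : Subgroup ↥E).Normal :=
      ((Group.isNilpotent_of_finite_tfae (G := ↥E)).out 0 3).1 hE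
    haveI hSn : (S : Subgroup E).Normal := h0 2 ⟨Nat.prime_two⟩ S
    obtain ⟨C, hC⟩ := Subgroup.exists_right_complement'_of_coprime (N := (S : Subgroup E)) S.card_coprime_index
    have hCc : Nat.card C = (S : Subgroup E).index := hC.symm.index_eq_card.symm
    have hCodd : Odd (Nat.card C) := by
      rw [← Nat.not_even_iff_odd, even_iff_two_dvd, hCc]
      exact S.not_dvd_index
    haveI : IsZGroup C := by
      refine ⟨fun p hp P => ?_⟩
      haveI : Fact p.Prime := ⟨hp⟩
      have hPp : IsPGroup p ((P : Subgroup C).map C.subtype) := P.isPGroup'.map _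
      rcases hsyl p ((P : Subgroup C).map C.subtype) hPp with h | ⟨h2, -⟩
      · have e := ((P : Subgroup C).equivMapOfInjective C.subtype C.subtype_injective).symm
        exact isCyclic_of_surjective e e.surjective
      · subst h2
        have h3 : (P : Subgroup C) = ⊥ := by
          rw [← Subgroup.card_eq_one]
          obtain ⟨k, hk⟩ := IsPGroup.iff_card.1 P.isPGroup'
          have h4 := Subgroup.card_subgroup_dvd_card (P : Subgroup C)
          rcases k with _ | k
          · simpa using hk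
          · exfalso
            rw [hk] at h4
            exact (Nat.not_even_iff_odd.2 hCodd) (even_iff_two_dvd.2 ((dvd_pow_self 2 (Nat.succ_ne_zero k)).trans h4))
        rw [h3]
        infer_instance
    have hcyc : IsCyclic C := inferInstance
    refine ⟨C.map E.subtype, (S : Subgroup E).map E.subtype, ?_, ?_, ?_, ?_, n, ⟨?_⟩⟩
    · rw [← Subgroup.map_sup, sup_comm, hC.sup_eq_top, ← MonoidHom.range_eq_map, Subgroup.range_subtype]
    · rintro _ ⟨a, ha, rfl⟩ _ ⟨b, hb, rfl⟩
      refine commute_of_nilp hE a.2 b.2 ?_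
      have h1 : orderOf (a : G) ∣ Nat.card C := by
        rw [Subgroup.orderOf_coe]
        have := _root_.orderOf_dvd_natCard (⟨a, ha⟩ : ↥C)
        rwa [← Subgroup.orderOf_coe] at this
      have h2 : orderOf (b : G) ∣ Nat.card (S : Subgroup E) := by
        rw [Subgroup.orderOf_coe]
        have := _root_.orderOf_dvd_natCard (⟨b, hb⟩ : ↥(S : Subgroup E))
        rwa [← Subgroup.orderOf_coe] at this
      rw [hCc] at h1
      exact Nat.Coprime.coprime_dvd_left h1 (Nat.Coprime.coprime_dvd_right h2 S.card_coprime_index.symm)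
    · have e := (C.equivMapOfInjective E.subtype E.subtype_injective)
      exact isCyclic_of_surjective e e.surjective
    · rw [← Nat.card_congr (C.equivMapOfInjective E.subtype E.subtype_injective).toEquiv]
      exact hCodd
    · exact ((S : Subgroup E).equivMapOfInjective E.subtype E.subtype_injective).symm.trans eS

/-- Lemma C -/
theorem cn_fpf_of_pcore [Finite G] {p : ℕ} [hp : Fact p.Prime] (hCN : IsCNGroup G) {F : Subgroup G} (hFn : F.Normal) (hFp : IsPGroup p F)
    (hFc : centralizer (F : Set G) ≤ F) {a f : G} (ha : (orderOf a).Coprime p) (ha1 : a ≠ 1) (hf : f ∈ F) (hc : a * f = f * a) : f = 1 := by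
  by_contra hf1
  have hFb : F ≠ ⊥ := by
    rintro rfl
    exact hf1 (Subgroup.mem_bot.1 hf)
  have h1 := CfsgH1.inf_centralizer_ne_bot_of_nilpotent hFp.isNilpotent le_rfl Subgroup.le_normalizer hFb
  obtain ⟨z, hz, hz1⟩ := (Subgroup.bot_or_exists_ne_one _).resolve_left h1
  obtain ⟨hzF, hzC⟩ := Subgroup.mem_inf.1 hz
  have hcp : ∀ x ∈ F, (orderOf a).Coprime (orderOf x) := by
    intro x hx
    obtain ⟨j, hj⟩ := IsPGroup.iff_orderOf.1 hFp ⟨x, hx⟩
    rw [Subgroup.orderOf_mk] at hj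
    rw [hj]
    exact Nat.Coprime.pow_right j ha
  have haz : a * z = z * a := by
    refine commute_of_nilp (hCN f hf1) ?_ ?_ (hcp z hzF)
    · rw [mem_centralizer_singleton_iff]; exact hc
    · rw [mem_centralizer_singleton_iff]; exact (mem_centralizer_iff.1 hzC f hf).symm
  have haC : a ∈ centralizer (F : Set G) := by
    rw [mem_centralizer_iff]
    intro x hx
    refine (commute_of_nilp (hCN z hz1) ?_ ?_ (hcp x hx)).symm
    · rw [mem_centralizer_singleton_iff]; exact haz
    · rw [mem_centralizer_singleton_iff]; exact mem_centralizer_iff.1 hzC x hx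
  have haF := hFc haC
  have h2 := hcp a haF
  rw [Nat.coprime_self, orderOf_eq_one_iff] at h2
  exact ha1 h2

/-- Lemma B -/
theorem cn_mixed [Finite G] {p : ℕ} [hp : Fact p.Prime] (hCN : IsCNGroup G) {F : Subgroup G} (hFn : F.Normal) (hFp : IsPGroup p F)
    (hFc : centralizer (F : Set G) ≤ F) {w x : G} (hw : (orderOf w).Coprime p) (hw1 : w ≠ 1) (hxF : x ∉ F) (hxp : ∃ k, x ^ (p ^ k) ∈ F)
    (hc : x * w * x⁻¹ * w⁻¹ ∈ F) : False := by
  set W := Subgroup.zpowers w with hW
  have hWc : Nat.card W = orderOf w := Nat.card_zpowers w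
  have hcop : (Nat.card F).Coprime (Nat.card W) := by
    obtain ⟨k, hk⟩ := IsPGroup.iff_card.1 hFp
    rw [hk, hWc]
    exact (Nat.Coprime.pow_right k hw).symm
  have hWx : MulAut.conj x • W = Subgroup.zpowers (x * w * x⁻¹) := by
    ext y
    rw [CfsgH1.mem_conj_smul, hW, Subgroup.mem_zpowers_iff, Subgroup.mem_zpowers_iff]
    constructor
    · rintro ⟨n, hn⟩
      exact ⟨n, by rw [conj_zpow, hn]; group⟩
    · rintro ⟨n, hn⟩
      exact ⟨n, by rw [← hn, conj_zpow]; group⟩
  have hsup : F ⊔ W = F ⊔ MulAut.conj x • W := by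
    rw [hWx, hW]
    apply le_antisymm
    · refine sup_le le_sup_left ?_
      rw [Subgroup.zpowers_le]
      have h1 : (x * w * x⁻¹ * w⁻¹)⁻¹ * (x * w * x⁻¹) = w := by group
      have h2 := Subgroup.mul_mem_sup (F.inv_mem hc) (Subgroup.mem_zpowers (x * w * x⁻¹))
      rwa [h1] at h2
    · refine sup_le le_sup_left ?_
      rw [Subgroup.zpowers_le]
      have h1 : (x * w * x⁻¹ * w⁻¹) * w = x * w * x⁻¹ := by group
      have h2 := Subgroup.mul_mem_sup hc (Subgroup.mem_zpowers w)
      rwa [h1] at h2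
  obtain ⟨g, hg, hgW⟩ := CfsgH1.sz_conj_internal (N := F) (H := MulAut.conj x • W) (K := W) (CfsgH1.le_normalizer_of_normal _ F)
    (CfsgH1.le_normalizer_of_normal _ F) (by rw [CfsgH1.card_conj_smul]; exact hcop) (Or.inl (by haveI := hFp.isNilpotent; infer_instance))
    hsup.symm (CfsgH1.inf_eq_bot_of_coprime hcop)
  rw [smul_smul, ← map_mul] at hgW
  set y := g * x with hy
  have hyF : y ∉ F := by
    intro h
    apply hxF
    have := F.mul_mem (F.inv_mem hg) h
    rwa [hy, inv_mul_cancel_left] at this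
  have hyw : y * w = w * y := by
    have h1 : y * w * y⁻¹ * w⁻¹ ∈ F ⊓ W := by
      refine ⟨?_, ?_⟩
      · have h2 : y * w * y⁻¹ * w⁻¹ = g * (x * w * x⁻¹ * w⁻¹) * (w * g⁻¹ * w⁻¹) := by rw [hy]; group
        rw [h2]
        exact F.mul_mem (F.mul_mem hg hc) (hFn.conj_mem _ (F.inv_mem hg) w)
      · refine W.mul_mem ?_ (W.inv_mem (Subgroup.mem_zpowers w))
        have h3 : y * w * y⁻¹ ∈ MulAut.conj y • W := by
          rw [CfsgH1.mem_conj_smul]
          have : y⁻¹ * (y * w * y⁻¹) * y = w := by group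
          rw [this]
          exact Subgroup.mem_zpowers w
        rwa [hgW] at h3
    rw [CfsgH1.inf_eq_bot_of_coprime hcop, Subgroup.mem_bot] at h1
    have h2 : y * w * y⁻¹ = w := by
      rw [mul_inv_eq_one] at h1
      exact h1
    calc y * w = y * w * y⁻¹ * y := by group
      _ = w * y := by rw [h2]
  -- `F ⊔ ⟨y⟩` is a `p`-group
  have hyp : ∃ k, y ^ (p ^ k) ∈ F := by
    obtain ⟨k, hk⟩ := hxp
    refine ⟨k, ?_⟩
    haveI := hFn
    have h1 : (QuotientGroup.mk' F) (y ^ (p ^ k)) = (QuotientGroup.mk' F) (x ^ (p ^ k)) := by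
      rw [map_pow, map_pow, hy, map_mul, show QuotientGroup.mk' F g = 1 from (QuotientGroup.eq_one_iff g).2 hg, one_mul]
    have h2 : (QuotientGroup.mk' F) (x ^ (p ^ k)) = 1 := (QuotientGroup.eq_one_iff _).2 hk
    rw [h2] at h1
    exact (QuotientGroup.eq_one_iff _).1 h1
  have hYp : IsPGroup p ↥(F ⊔ Subgroup.zpowers y) := by
    intro s
    obtain ⟨s, hs⟩ := s
    haveI := hFn
    obtain ⟨f, hf, t, ht, rfl⟩ := Subgroup.mem_sup_of_normal_left.1 hs
    obtain ⟨m, rfl⟩ := Subgroup.mem_zpowers_iff.1 ht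
    obtain ⟨k, hk⟩ := hyp
    have h1 : (f * y ^ m) ^ (p ^ k) ∈ F := by
      have h2 : (QuotientGroup.mk' F) ((f * y ^ m) ^ (p ^ k)) = 1 := by
        rw [map_pow, map_mul, show QuotientGroup.mk' F f = 1 from (QuotientGroup.eq_one_iff f).2 hf, one_mul, ← map_pow, 
          show (y ^ m) ^ (p ^ k) = (y ^ (p ^ k)) ^ m by rw [← zpow_natCast, ← zpow_natCast, ← zpow_mul, ← zpow_mul, mul_comm]]
        exact (QuotientGroup.eq_one_iff _).2 (F.zpow_mem hk m)
      exact (QuotientGroup.eq_one_iff _).1 h2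
    obtain ⟨l, hl⟩ := hFp ⟨_, h1⟩
    refine ⟨k + l, Subtype.ext ?_⟩
    have h3 := congrArg Subtype.val hl
    simp only [Subgroup.coe_pow, Subgroup.coe_one] at h3 ⊢
    rw [pow_add, pow_mul]
    exact h3
  obtain ⟨S, hS, hYS⟩ := CfsgH1.exists_isSylowOf_ge hYp (le_top : _ ≤ ⊤)
  have hSp := CfsgH1.isSylowOf_isPGroup hS
  have hyS : y ∈ S := hYS (le_sup_right (a := F) (Subgroup.mem_zpowers y))
  have hSb : S ≠ ⊥ := by
    rintro rfl
    rw [Subgroup.mem_bot] at hyS
    exact hyF (hyS ▸ F.one_mem)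
  have h1 := CfsgH1.inf_centralizer_ne_bot_of_nilpotent hSp.isNilpotent le_rfl Subgroup.le_normalizer hSb
  obtain ⟨z, hz, hz1⟩ := (Subgroup.bot_or_exists_ne_one _).resolve_left h1
  obtain ⟨hzS, hzC⟩ := Subgroup.mem_inf.1 hz
  have hzF : z ∈ F := by
    apply hFc
    rw [mem_centralizer_iff]
    intro f hf
    exact mem_centralizer_iff.1 hzC f (hYS (le_sup_left (a := F) hf))
  have hy1 : y ≠ 1 := by
    rintro h
    exact hyF (h ▸ F.one_mem)
  have hwz : w * z = z * w := by
    refine commute_of_nilp (hCN y hy1) ?_ ?_ ?_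
    · rw [mem_centralizer_singleton_iff]; exact hyw.symm
    · rw [mem_centralizer_singleton_iff]; exact (mem_centralizer_iff.1 hzC y hyS).symm
    · obtain ⟨j, hj⟩ := IsPGroup.iff_orderOf.1 hFp ⟨z, hzF⟩
      rw [Subgroup.orderOf_mk] at hj
      rw [hj]
      exact Nat.Coprime.pow_right j hw
  exact hz1 (cn_fpf_of_pcore hCN hFn hFp hFc hw hw1 hzF hwz)

end CfsgH3
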