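import Cfsg.Agent.H3.CNgrp3
import Cfsg.Agent.H3.PBasic

set_option autoImplicit false

/-! Solvable CN-groups: three-step groups. -/

namespace CfsgH3

open Subgroup Cfsg
open scoped commutatorElement Pointwise

universe u
variable {G : Type u} [Group G]

/-- `cn_struct` with nilpotent complement. -/
theorem cn_struct' [Finite G] (hCN : IsCNGroup G) (hnn : ¬ Group.IsNilpotent G) (hne : fittingHall G ≠ ⊥) :
    ∃ E : Subgroup G, IsComplement' (fittingHall G) E ∧ IsFrobeniusComplement E ∧ E ≠ ⊥ ∧ Group.IsNilpotent E ∧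
        ∀ e ∈ E, e ≠ 1 → fittingHall G ⊓ centralizer ({e} : Set G) = ⊥ := by
  obtain ⟨htop, ⟨E, hE, hEF, hf⟩, -⟩ := cn_struct hCN hnn hne
  haveI := fittingHall_normal G
  refine ⟨E, hE, hEF, hEF.1, ?_, hf⟩
  have hZ := Cfsg.Agent.S0069.result (fittingHall G) E hE hne hEF.1 hf
  obtain ⟨s, hs, hs1⟩ := (Subgroup.bot_or_exists_ne_one _).resolve_left hZ
  refine CfsgH1.isNilpotent_of_le (hCN (s : G) (fun h => hs1 (Subtype.ext h))) ?_
  intro x hx
  rw [mem_centralizer_singleton_iff]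
  exact congrArg Subtype.val (Subgroup.mem_center_iff.1 hs ⟨x, hx⟩)

/-- complement to a normal Hall subgroup inside an overgroup -/
theorem exists_complIn [Finite G] {F L : Subgroup G} (hFL : F ≤ L) (hn : L ≤ normalizer (F : Set G)) (hcop : (Nat.card F).Coprime (F.relIndex L)) :
    ∃ A : Subgroup G, A ≤ L ∧ F ⊔ A = L ∧ F ⊓ A = ⊥ ∧ Nat.card A = F.relIndex L := by
  haveI : (F.subgroupOf L).Normal := Subgroup.normal_subgroupOf_iff_le_normalizer hFL |>.2 hn
  have h1 : (Nat.card (F.subgroupOf L)).Coprime (F.subgroupOf L).index := by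
    rw [Nat.card_congr (Subgroup.subgroupOfEquivOfLe hFL).toEquiv]
    exact hcop
  obtain ⟨A, hA⟩ := Subgroup.exists_right_complement'_of_coprime h1
  refine ⟨A.map L.subtype, Subgroup.map_subtype_le _, ?_, ?_, ?_⟩
  · have h2 : (F.subgroupOf L).map L.subtype = F := by
      rw [Subgroup.subgroupOf_map_subtype]; exact inf_eq_left.2 hFL
    have h3 := congrArg (Subgroup.map L.subtype) hA.sup_eq_top
    rw [Subgroup.map_sup, h2, ← MonoidHom.range_eq_map, Subgroup.range_subtype] at h3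
    exact h3
  · rw [eq_bot_iff]
    rintro x ⟨hxF, a, ha, rfl⟩
    have : a ∈ F.subgroupOf L ⊓ A := ⟨hxF, ha⟩
    rw [hA.disjoint.eq_bot, Subgroup.mem_bot] at this
    rw [this]; exact Subgroup.mem_bot.2 rfl
  · rw [← Nat.card_congr (A.equivMapOfInjective L.subtype L.subtype_injective).toEquiv, ← hA.symm.index_eq_card]
    rfl

theorem cn_threestep_aux [Finite G] [Group.IsSolvable G] {p : ℕ} [hp : Fact p.Prime] (hCN : IsCNGroup G)
    (hFc : centralizer (pCore p G : Set G) ≤ pCore p G) (hpi : p ∣ (pCore p G).index) : IsThreeStepGroup p G := by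
  set F := pCore p G with hF
  have hFn : F.Normal := inferInstance
  have hFp : IsPGroup p F := CfsgH2.isPGroup_pCore p
  have hcore : pCore p (G ⧸ F) = ⊥ := CfsgH2.pCore_quotient_pCore (G := G) p
  have hFb : F ≠ ⊥ := by
    intro h
    rw [h] at hFc hpi
    have h1 : (⊤ : Subgroup G) ≤ ⊥ := by
      refine le_trans ?_ hFc
      intro x _
      rw [mem_centralizer_iff]
      intro y hy
      have : y = 1 := by simpa using hy
      rw [this, one_mul, mul_one]
    have h2 : Nat.card G = 1 := by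
      have := Subgroup.card_eq_one.2 (le_bot_iff.1 h1)
      rwa [Subgroup.card_top] at this
    rw [Subgroup.index_bot, h2] at hpi
    exact hp.out.one_lt.ne' (Nat.dvd_one.1 hpi)
  set π := QuotientGroup.mk' F with hπ
  have hπs : Function.Surjective π := QuotientGroup.mk'_surjective F
  have hπ1 : ∀ x, π x = 1 ↔ x ∈ F := fun x => QuotientGroup.eq_one_iff x
  have hCNq : IsCNGroup (G ⧸ F) := cn_quotient _ G rfl hCN F inferInstance
  obtain ⟨kF, hkF⟩ := IsPGroup.iff_card.1 hFp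
  have hpQ : p ∣ Nat.card (G ⧸ F) := hpi
  set F₂ := fittingSubgroup (G ⧸ F) with hF₂
  have hF₂n : F₂.Normal := inferInstance
  have hF₂nil : Group.IsNilpotent F₂ := CfsgH2.isNilpotent_fittingSubgroup
  have hF₂c : centralizer (F₂ : Set (G ⧸ F)) ≤ F₂ := CfsgH1.centralizer_fitting_le
  have hpF₂ : ¬ p ∣ Nat.card F₂ := by
    intro h
    obtain ⟨S, hS⟩ := CfsgH1.exists_isSylowOf p F₂
    have h1 := normal_of_sylow_nilpotent hF₂n hF₂nil hS
    have h2 := CfsgH1.isSylowOf_ne_bot hS h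
    have h3 := CfsgH2.le_pCore h1 (CfsgH1.isSylowOf_isPGroup hS)
    rw [hcore] at h3
    exact h2 (le_bot_iff.1 h3)
  have hF₂b : F₂ ≠ ⊥ := by
    intro h
    rw [h] at hF₂c
    have h1 : (⊤ : Subgroup (G ⧸ F)) ≤ ⊥ := by
      refine le_trans ?_ hF₂c
      intro x _
      rw [mem_centralizer_iff]
      intro y hy
      have : y = 1 := by simpa using hy
      rw [this, one_mul, mul_one]
    have h2 : Nat.card (G ⧸ F) = 1 := by
      have := Subgroup.card_eq_one.2 (le_bot_iff.1 h1)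
      rwa [Subgroup.card_top] at this
    rw [h2] at hpQ
    exact hp.out.one_lt.ne' (Nat.dvd_one.1 hpQ)
  set L := F₂.comap π with hL
  have hLn : L.Normal := inferInstance
  have hFL : F ≤ L := by
    intro x hx
    rw [hL, Subgroup.mem_comap, (hπ1 x).2 hx]
    exact F₂.one_mem
  have hLi : L.index = F₂.index := Subgroup.index_comap_of_surjective _ hπs
  have hFLi : F.relIndex L = Nat.card F₂ := by
    have h1 := Subgroup.relIndex_mul_index hFL
    have h2 := Subgroup.card_mul_index F₂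
    have h3 : Nat.card (G ⧸ F) = F.index := rfl
    rw [h3, ← h1, hLi] at h2
    have h4 : 0 < F₂.index := Nat.pos_of_ne_zero Subgroup.index_ne_zero_of_finite
    exact (Nat.eq_of_mul_eq_mul_right h4 h2).symm
  have hcopF : (Nat.card F).Coprime (Nat.card F₂) := by
    rw [hkF]
    exact Nat.Coprime.pow_left _ (hp.out.coprime_iff_not_dvd.2 hpF₂)
  obtain ⟨A, hAL, hFA, hFAb, hAc⟩ := exists_complIn hFL (CfsgH1.le_normalizer_of_normal L F) (by rw [hFLi]; exact hcopF)
  rw [hFLi] at hAc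
  have hAp : (Nat.card A).Coprime p := by
    rw [hAc]
    exact (hp.out.coprime_iff_not_dvd.2 hpF₂).symm
  have hAo : ∀ a ∈ A, (orderOf a).Coprime p := by
    intro a ha
    have := _root_.orderOf_dvd_natCard (⟨a, ha⟩ : ↥A)
    rw [← Subgroup.orderOf_coe] at this
    exact hAp.coprime_dvd_left this
  -- `A` is isomorphic to `F₂`
  let f : A →* G ⧸ F := π.comp A.subtype
  have hfi : Function.Injective f := by
    rw [injective_iff_map_eq_one]
    intro a ha
    have h1 : (a : G) ∈ F ⊓ A := ⟨(hπ1 _).1 ha, a.2⟩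
    rw [hFAb, Subgroup.mem_bot] at h1
    exact Subtype.ext h1
  have hfr : f.range = F₂ := by
    apply Subgroup.eq_of_le_of_card_ge
    · rintro _ ⟨a, rfl⟩
      exact hAL a.2
    · rw [← hAc, Nat.card_congr (MonoidHom.ofInjective hfi).toEquiv]
  have eA : A ≃* F₂ := (MonoidHom.ofInjective hfi).trans (MulEquiv.subgroupCongr hfr)
  have hAnil : Group.IsNilpotent A := Group.nilpotent_of_mulEquiv eA.symm
  have hAb : A ≠ ⊥ := by
    rintro rfl
    rw [Subgroup.card_bot] at hAc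
    exact hF₂b (Subgroup.card_eq_one.1 hAc.symm)
  have hfpf : ∀ a ∈ A, a ≠ 1 → ∀ k ∈ F, a * k = k * a → k = 1 :=
    fun a ha ha1 k hk hc => cn_fpf_of_pcore hCN hFn hFp hFc (hAo a ha) ha1 hk hc
  -- a `p`-element outside
  obtain ⟨xb, hxb⟩ := exists_prime_orderOf_dvd_card' (G := G ⧸ F) p hpQ
  obtain ⟨x₀, rfl⟩ := hπs xb
  have hx₀F : x₀ ∉ F := by
    intro h
    rw [(hπ1 _).2 h, orderOf_one] at hxb
    exact hp.out.one_lt.ne hxb
  have hx₀p : ∃ k, x₀ ^ (p ^ k) ∈ F := by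
    refine ⟨1, (hπ1 _).1 ?_⟩
    rw [map_pow, pow_one, ← hxb, pow_orderOf_eq_one]
  -- odd order
  have hAodd : Odd (Nat.card A) := by
    rw [← Nat.not_even_iff_odd, even_iff_two_dvd]
    intro h2
    obtain ⟨t, ht⟩ := exists_prime_orderOf_dvd_card' (G := A) 2 h2
    have ht' : orderOf (t : G) = 2 := by rw [Subgroup.orderOf_coe]; exact ht
    have ht1 : (t : G) ≠ 1 := by
      intro h
      rw [h, orderOf_one] at ht'
      exact absurd ht' (by norm_num)
    have htt : (t : G) * t = 1 := by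
      have := pow_orderOf_eq_one (t : G)
      rwa [ht', pow_two] at this
    have hinv := CfsgH2.inverts_sub (K := F) (s := (t : G)) (CfsgH1.le_normalizer_of_normal A F t.2) htt
      (fun k hk hc => hfpf t t.2 ht1 k hk hc)
    refine cn_mixed hCN hFn hFp hFc (w := (t : G)) (x := x₀) (hAo t t.2) ht1 hx₀F hx₀p (hFc ?_)
    rw [mem_centralizer_iff]
    intro g hg
    have hti : (t : G)⁻¹ = t := inv_eq_of_mul_eq_one_left htt
    have h3 : (t : G)⁻¹ * g * t = g⁻¹ := by
      rw [← hinv g hg, hti]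
    have h4 : (t : G) * (x₀⁻¹ * g⁻¹ * x₀) * (t : G)⁻¹ = x₀⁻¹ * g * x₀ := by
      have := hinv (x₀⁻¹ * g⁻¹ * x₀) (by
        have := hFn.conj_mem _ (F.inv_mem hg) x₀⁻¹
        rwa [inv_inv] at this)
      rw [this]; group
    have h5 : (x₀ * t * x₀⁻¹ * (t : G)⁻¹) * g * (x₀ * t * x₀⁻¹ * (t : G)⁻¹)⁻¹ = g := by
      calc (x₀ * t * x₀⁻¹ * (t : G)⁻¹) * g * (x₀ * t * x₀⁻¹ * (t : G)⁻¹)⁻¹
          = x₀ * ((t : G) * (x₀⁻¹ * ((t : G)⁻¹ * g * t) * x₀) * (t : G)⁻¹) * x₀⁻¹ := by group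
        _ = x₀ * (x₀⁻¹ * g * x₀) * x₀⁻¹ := by rw [h3, h4]
        _ = g := by group
    calc g * (x₀ * t * x₀⁻¹ * (t : G)⁻¹)
        = ((x₀ * t * x₀⁻¹ * (t : G)⁻¹) * g * (x₀ * t * x₀⁻¹ * (t : G)⁻¹)⁻¹) * (x₀ * t * x₀⁻¹ * (t : G)⁻¹) := by rw [h5]
      _ = (x₀ * t * x₀⁻¹ * (t : G)⁻¹) * g := by group
  -- cyclic
  have hAcyc : IsCyclic A := by
    rcases nilp_fpf_struct (CfsgH1.le_normalizer_of_normal A F) hFb (by rw [hAc]; exact hcopF.symm) hfpf hAnil with h | ⟨C, Q, hCQ, -, -, -, n, ⟨e⟩⟩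
    · exact h
    · exfalso
      have h1 : Nat.card Q ∣ Nat.card A := Subgroup.card_dvd_of_le (hCQ ▸ le_sup_right)
      have h2 : 2 ∣ Nat.card Q := by
        rw [Nat.card_congr e.toEquiv, Nat.card_eq_fintype_card, QuaternionGroup.card]
        exact ⟨2 * 2 ^ n, by ring⟩
      exact (Nat.not_even_iff_odd.2 hAodd) (even_iff_two_dvd.2 (h2.trans h1))
  haveI hF₂cyc : IsCyclic F₂ := isCyclic_of_surjective eA eA.surjective
  -- `F₂` is a Hall subgroup
  have hF₂hall : (Nat.card F₂).Coprime F₂.index := by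
    by_contra hcon
    obtain ⟨q, hq, h1, h2⟩ := Nat.Prime.not_coprime_iff_dvd.1 hcon
    haveI : Fact q.Prime := ⟨hq⟩
    obtain ⟨z, hz⟩ := exists_prime_orderOf_dvd_card' (G := F₂) q h1
    have hz' : orderOf (z : G ⧸ F) = q := by rw [Subgroup.orderOf_coe]; exact hz
    have hz1 : (z : G ⧸ F) ≠ 1 := by
      intro h
      rw [h, orderOf_one] at hz'
      exact hq.one_lt.ne hz'
    set Z := Subgroup.zpowers (z : G ⧸ F) with hZ
    have hZF : Z ≤ F₂ := by
      rw [hZ, Subgroup.zpowers_le]; exact z.2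
    have hZn : Z.Normal := by
      refine ⟨fun n hn g => ?_⟩
      have h3 : Subgroup.zpowers (⟨g * z * g⁻¹, hF₂n.conj_mem _ z.2 g⟩ : F₂) = Subgroup.zpowers z := by
        apply cyclic_subgroup_eq
        rw [Nat.card_zpowers, Nat.card_zpowers, hz, ← Subgroup.orderOf_coe]
        show orderOf (g * (z : G ⧸ F) * g⁻¹) = q
        rw [← hz']
        exact orderOf_injective (MulAut.conj g).toMonoidHom (MulAut.conj g).injective (z : G ⧸ F)
      obtain ⟨m, hm⟩ := Subgroup.mem_zpowers_iff.1 hn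
      rw [← hm]
      have h4 : (⟨g * z * g⁻¹, hF₂n.conj_mem _ z.2 g⟩ : F₂) ∈ Subgroup.zpowers z := h3 ▸ Subgroup.mem_zpowers _
      obtain ⟨l, hl⟩ := Subgroup.mem_zpowers_iff.1 h4
      have h5 : (z : G ⧸ F) ^ l = g * z * g⁻¹ := congrArg Subtype.val hl
      have h6 : g * (z : G ⧸ F) ^ m * g⁻¹ = ((z : G ⧸ F) ^ l) ^ m := by rw [h5, conj_zpow]
      rw [h6]
      exact Z.zpow_mem (Z.zpow_mem (Subgroup.mem_zpowers _) l) m
    have hZb : Z ≠ ⊥ := by
      rw [hZ, Ne, Subgroup.zpowers_eq_bot]; exact hz1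
    have hZp : IsPGroup q Z := by
      rw [IsPGroup.iff_card]
      exact ⟨1, by rw [Nat.card_zpowers, hz', pow_one]⟩
    obtain ⟨S, hS, hZS⟩ := CfsgH1.exists_isSylowOf_ge hZp (le_top : Z ≤ ⊤)
    have hSp := CfsgH1.isSylowOf_isPGroup hS
    have h3 := CfsgH1.inf_centralizer_ne_bot_of_nilpotent hSp.isNilpotent hZS (CfsgH1.le_normalizer_of_normal S Z) hZb
    have h4 : Z ⊓ centralizer (S : Set (G ⧸ F)) = Z := by
      have h5 : Nat.card ↥(Z ⊓ centralizer (S : Set (G ⧸ F))) ∣ q := by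
        have := Subgroup.card_dvd_of_le (inf_le_left : Z ⊓ centralizer (S : Set (G ⧸ F)) ≤ Z)
        rwa [Nat.card_zpowers, hz'] at this
      rcases (Nat.dvd_prime hq).1 h5 with h6 | h6
      · exact absurd (Subgroup.card_eq_one.1 h6) h3
      · apply Subgroup.eq_of_le_of_card_ge inf_le_left
        rw [h6, Nat.card_zpowers, hz']
    have hSC : S ≤ centralizer (Z : Set (G ⧸ F)) := Subgroup.le_centralizer_iff.1 (inf_eq_left.1 h4)
    have hCn : Group.IsNilpotent ↥(centralizer (Z : Set (G ⧸ F))) := by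
      refine CfsgH1.isNilpotent_of_le (hCNq (z : G ⧸ F) hz1) ?_
      exact Subgroup.centralizer_le (Set.singleton_subset_iff.2 (Subgroup.mem_zpowers (z : G ⧸ F)))
    have hCF : centralizer (Z : Set (G ⧸ F)) ≤ F₂ := CfsgH2.le_fittingSubgroup inferInstance hCn
    have h7 := (CfsgH1.isSylowOf_iff.1 hS).2.2
    rw [Subgroup.relIndex_top_right] at h7
    exact h7 (h2.trans (Subgroup.index_dvd_of_le (hSC.trans hCF)))
  have hFH : fittingHall (G ⧸ F) = F₂ :=
    le_antisymm fittingHall_le (le_fittingHall hF₂n hF₂nil hF₂hall)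
  have hnn : ¬ Group.IsNilpotent (G ⧸ F) := by
    intro h
    apply hpF₂
    have h1 : (⊤ : Subgroup (G ⧸ F)) ≤ F₂ := CfsgH2.le_fittingSubgroup inferInstance (Group.nilpotent_of_mulEquiv Subgroup.topEquiv.symm)
    rw [top_le_iff.1 h1, Subgroup.card_top]
    exact hpQ
  obtain ⟨E, hEc, -, -, hEnil, hEf⟩ := cn_struct' hCNq hnn (by rw [hFH]; exact hF₂b)
  rw [hFH] at hEc hEf
  have hEi : Nat.card E = F₂.index := hEc.symm.index_eq_card.symm
  have hpE : p ∣ Nat.card E := by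
    rw [hEi]
    have h1 := Subgroup.card_mul_index F₂
    have h2 : p ∣ Nat.card F₂ * F₂.index := by rw [h1]; exact hpQ
    exact (hp.out.dvd_mul.1 h2).resolve_left hpF₂
  have hEp : ∃ n, F₂.index = p ^ n := by
    rw [← hEi]
    refine ⟨_, Nat.eq_prime_pow_of_unique_prime_dvd Nat.card_pos.ne' (fun {r} hr hrE => ?_)⟩
    by_contra hrp
    haveI : Fact r.Prime := ⟨hr⟩
    obtain ⟨xe, hxe⟩ := exists_prime_orderOf_dvd_card' (G := E) p hpE
    obtain ⟨we, hwe⟩ := exists_prime_orderOf_dvd_card' (G := E) r hrE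
    have hxe' : orderOf (xe : G ⧸ F) = p := by rw [Subgroup.orderOf_coe]; exact hxe
    have hwe' : orderOf (we : G ⧸ F) = r := by rw [Subgroup.orderOf_coe]; exact hwe
    have hcomm : (xe : G ⧸ F) * we = we * xe := by
      refine commute_of_nilp hEnil xe.2 we.2 ?_
      rw [hxe', hwe']
      exact (Nat.coprime_primes hp.out hr).2 (Ne.symm hrp)
    obtain ⟨x, hx⟩ := hπs (xe : G ⧸ F)
    obtain ⟨w₀, hw₀⟩ := hπs (we : G ⧸ F)
    have hrF : (Nat.card F).Coprime r := by
      rw [hkF]; exact Nat.Coprime.pow_left _ ((Nat.coprime_primes hp.out hr).2 (Ne.symm hrp))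
    have hwr : (w₀ ^ Nat.card F) ^ r = 1 := by
      rw [← pow_mul, mul_comm, pow_mul]
      have h1 : w₀ ^ r ∈ F := (hπ1 _).1 (by rw [map_pow, hw₀, ← hwe', pow_orderOf_eq_one])
      have := pow_card_eq_one' (x := (⟨w₀ ^ r, h1⟩ : F))
      exact congrArg Subtype.val this
    have hπw : π (w₀ ^ Nat.card F) ≠ 1 := by
      rw [map_pow, hw₀]
      intro h
      have h1 := orderOf_dvd_of_pow_eq_one h
      rw [hwe'] at h1
      exact hr.one_lt.ne' (Nat.eq_one_of_dvd_coprimes hrF h1 dvd_rfl)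
    refine cn_mixed hCN hFn hFp hFc (w := w₀ ^ Nat.card F) (x := x) ?_ ?_ ?_ ?_ ?_
    · exact Nat.Coprime.coprime_dvd_left (orderOf_dvd_of_pow_eq_one hwr) ((Nat.coprime_primes hr hp.out).2 hrp)
    · intro h
      exact hπw (by rw [h, map_one])
    · intro h
      rw [(hπ1 _).2 h] at hx
      rw [← hx, orderOf_one] at hxe'
      exact hp.out.one_lt.ne hxe'
    · refine ⟨1, (hπ1 _).1 ?_⟩
      rw [map_pow, pow_one, hx, ← hxe', pow_orderOf_eq_one]
    · rw [← hπ1, map_mul, map_mul, map_mul, map_inv, map_inv, hx, map_pow, hw₀]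
      have h1 : Commute (xe : G ⧸ F) ((we : G ⧸ F) ^ Nat.card F) := (show Commute (xe : G ⧸ F) we from hcomm).pow_right _
      rw [h1.eq]; group
  obtain ⟨n, hn⟩ := hEp
  refine ⟨hFb, A, hAb, hAcyc, hAodd, hAp, ?_, ?_, ⟨n, ?_⟩, ?_, ?_⟩
  · rw [hFA]; exact hLn
  · rw [hFA]
    intro h
    rw [h, Subgroup.index_top] at hLi
    rw [hEi, ← hLi] at hpE
    exact hp.out.one_lt.ne' (Nat.dvd_one.1 hpE)
  · rw [hFA, hLi, hn]
  · intro a ha ha1
    rw [eq_bot_iff]
    rintro k ⟨hk, hkc⟩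
    rw [Subgroup.mem_bot]
    exact hfpf a ha ha1 k hk (mem_centralizer_singleton_iff.1 hkc).symm
  · intro x hx a ha ha1 hc
    rw [hFA] at hx
    have hxp : (π x) ^ (p ^ n) ∈ F₂ := by
      rw [← hn]
      exact Subgroup.pow_index_mem _ _
    refine cn_mixed hCN hFn hFp hFc (w := a) (x := x ^ Nat.card F₂) (hAo a ha) ha1 ?_ ⟨n, ?_⟩ ?_
    · intro h
      apply hx
      show π x ∈ F₂
      refine mem_of_coprime_pow F₂ hxp (n := Nat.card F₂) ?_ ?_
      · rw [← map_pow, (hπ1 _).2 h]; exact F₂.one_mem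
      · exact Nat.Coprime.pow_left _ (hp.out.coprime_iff_not_dvd.2 hpF₂)
    · rw [← hπ1, map_pow, map_pow, ← pow_mul, mul_comm, pow_mul]
      have := pow_card_eq_one' (x := (⟨_, hxp⟩ : F₂))
      exact congrArg Subtype.val this
    · have h1 : Commute (π x) (π a) := by
        have := (hπ1 _).2 hc
        rw [map_mul, map_mul, map_mul, map_inv, map_inv, mul_inv_eq_one, mul_inv_eq_iff_eq_mul] at this
        exact this
      rw [← hπ1, map_mul, map_mul, map_mul, map_inv, map_inv, map_pow, (h1.pow_left (Nat.card F₂)).eq]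
      group

end CfsgH3
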