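import Cfsg.Agent.H3.CNgrp4

set_option autoImplicit false

/-! Solvable CN-groups: trichotomy. -/

namespace CfsgH3

open Subgroup Cfsg
open scoped commutatorElement Pointwise

universe u
variable {G : Type u} [Group G]

/-- If two primes divide the order of the Fitting subgroup of a solvable CN-group, it is a Hall subgroup. -/
theorem cn_fitting_hall [Finite G] [Group.IsSolvable G] (hCN : IsCNGroup G) {p q : ℕ} (hp : p.Prime) (hq : q.Prime) (hpq : p ≠ q)
    (hpF : p ∣ Nat.card (fittingSubgroup G)) (hqF : q ∣ Nat.card (fittingSubgroup G)) : fittingHall G = fittingSubgroup G := by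
  set F := fittingSubgroup G with hF
  have hFn : F.Normal := inferInstance
  have hFnil : Group.IsNilpotent F := CfsgH2.isNilpotent_fittingSubgroup
  have key : (Nat.card F).Coprime F.index := by
    by_contra hcon
    obtain ⟨r, hr, h1, h2⟩ := Nat.Prime.not_coprime_iff_dvd.1 hcon
    haveI : Fact r.Prime := ⟨hr⟩
    obtain ⟨s, hs, hsr, hsF⟩ : ∃ s, s.Prime ∧ s ≠ r ∧ s ∣ Nat.card F := by
      by_cases h : p = r
      · exact ⟨q, hq, fun h3 => hpq (h.trans h3.symm), hqF⟩
      · exact ⟨p, hp, h, hpF⟩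
    haveI : Fact s.Prime := ⟨hs⟩
    obtain ⟨R, hR⟩ := CfsgH1.exists_isSylowOf r F
    obtain ⟨T, hT⟩ := CfsgH1.exists_isSylowOf s F
    have hRn := normal_of_sylow_nilpotent hFn hFnil hR
    have hTn := normal_of_sylow_nilpotent hFn hFnil hT
    have hRp := CfsgH1.isSylowOf_isPGroup hR
    have hTp := CfsgH1.isSylowOf_isPGroup hT
    obtain ⟨S, hS, hRS⟩ := CfsgH1.exists_isSylowOf_ge hRp (le_top : R ≤ ⊤)
    have hSp := CfsgH1.isSylowOf_isPGroup hS
    have h3 := CfsgH1.inf_centralizer_ne_bot_of_nilpotent hSp.isNilpotent hRS (CfsgH1.le_normalizer_of_normal S R) (CfsgH1.isSylowOf_ne_bot hR h1)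
    obtain ⟨z, hz, hz1⟩ := (Subgroup.bot_or_exists_ne_one _).resolve_left h3
    obtain ⟨hzR, hzS⟩ := Subgroup.mem_inf.1 hz
    have hSC : S ≤ centralizer (T : Set G) := by
      intro x hx
      rw [mem_centralizer_iff]
      intro t ht
      refine commute_of_nilp (hCN z hz1) ?_ ?_ (coprime_of_pgroups hsr hTp hSp ht hx)
      · rw [mem_centralizer_singleton_iff]
        exact commute_of_nilp hFnil (CfsgH1.isSylowOf_le hT ht) (CfsgH1.isSylowOf_le hR hzR) (coprime_of_pgroups hsr hTp hRp ht hzR)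
      · rw [mem_centralizer_singleton_iff]
        exact mem_centralizer_iff.1 hzS x hx
    have hTb := CfsgH1.isSylowOf_ne_bot hT hsF
    obtain ⟨t, htT, ht1⟩ := (Subgroup.bot_or_exists_ne_one _).resolve_left hTb
    have hCn : Group.IsNilpotent ↥(centralizer (T : Set G)) :=
      CfsgH1.isNilpotent_of_le (hCN t ht1) (Subgroup.centralizer_le (Set.singleton_subset_iff.2 htT))
    have hCF : centralizer (T : Set G) ≤ F := CfsgH2.le_fittingSubgroup inferInstance hCn
    have h7 := (CfsgH1.isSylowOf_iff.1 hS).2.2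
    rw [Subgroup.relIndex_top_right] at h7
    exact h7 (h2.trans (Subgroup.index_dvd_of_le (hSC.trans hCF)))
  exact le_antisymm fittingHall_le (le_fittingHall hFn hFnil key)

theorem cn_trichotomy [Finite G] [Group.IsSolvable G] (hCN : IsCNGroup G) (hnn : ¬ Group.IsNilpotent G) (hne : fittingHall G = ⊥) :
    ∃ p : ℕ, p.Prime ∧ IsThreeStepGroup p G := by
  set F := fittingSubgroup G with hF
  have hFn : F.Normal := inferInstance
  have hFnil : Group.IsNilpotent F := CfsgH2.isNilpotent_fittingSubgroup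
  have hFc : centralizer (F : Set G) ≤ F := CfsgH1.centralizer_fitting_le
  have hFb : F ≠ ⊥ := by
    intro h
    rw [h] at hFc
    have h1 : (⊤ : Subgroup G) ≤ ⊥ := by
      refine le_trans ?_ hFc
      intro x _
      rw [mem_centralizer_iff]
      intro y hy
      have : y = 1 := by simpa using hy
      rw [this, one_mul, mul_one]
    apply hnn
    have h2 : Group.IsNilpotent (⊤ : Subgroup G) := by rw [le_bot_iff.1 h1]; infer_instance
    exact Group.nilpotent_of_mulEquiv Subgroup.topEquiv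
  have hFc1 : Nat.card F ≠ 1 := fun h => hFb (Subgroup.card_eq_one.1 h)
  obtain ⟨p, hp, hpF⟩ := Nat.exists_prime_and_dvd hFc1
  haveI : Fact p.Prime := ⟨hp⟩
  have hFp : IsPGroup p F := by
    rw [IsPGroup.iff_card]
    refine ⟨_, Nat.eq_prime_pow_of_unique_prime_dvd Nat.card_pos.ne' (fun {r} hr hrE => ?_)⟩
    by_contra hrp
    have h1 := cn_fitting_hall hCN hr hp hrp hrE hpF
    rw [hne] at h1
    exact hFb h1.symm
  have hcore : pCore p G = F := le_antisymm
    (CfsgH2.le_fittingSubgroup inferInstance (CfsgH2.isPGroup_pCore (G := G) p).isNilpotent)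
    (CfsgH2.le_pCore hFn hFp)
  refine ⟨p, hp, cn_threestep_aux hCN (by rw [hcore]; exact hFc) ?_⟩
  rw [hcore]
  by_contra hcon
  apply hFb
  have h1 : F ≤ fittingHall G := by
    refine le_fittingHall hFn hFnil ?_
    obtain ⟨k, hk⟩ := IsPGroup.iff_card.1 hFp
    rw [hk]
    exact Nat.Coprime.pow_left k (hp.coprime_iff_not_dvd.2 hcon)
  rw [hne] at h1
  exact le_bot_iff.1 h1

end CfsgH3
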