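import Cfsg.Agent.H3.ZJE
import Cfsg.Agent.H2.CopGen

set_option autoImplicit false

/-! `p`-stability in groups of odd order. -/

namespace CfsgH3

open Subgroup Cfsg CfsgH7
open scoped commutatorElement

universe u
variable {G : Type u} [Group G] {p : ℕ}

theorem odd_nps [hp : Fact p.Prime] (hp2 : p ≠ 2) [Finite G] (h : Odd (Nat.card G)) : IsNormalizerPStable p G :=
  section_pstable ((pstable_sections_iff hp2).1 (not_involves_qd_of_odd hp2 h)) (involves_refl G)

theorem quad_of_le {P B : Subgroup G} (hB : ∀ x ∈ B, ∀ y ∈ B, x * y = y * x) (hPB : P ≤ Subgroup.normalizer (B : Set G))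
    {b : G} (hb : b ∈ B) : ⁅⁅P, Subgroup.zpowers b⁆, Subgroup.zpowers b⁆ = ⊥ := by
  have h1 : ⁅P, Subgroup.zpowers b⁆ ≤ B := by
    refine (Subgroup.commutator_mono le_rfl (Subgroup.zpowers_le.mpr hb)).trans ?_
    rw [Subgroup.commutator_le]
    intro x hx y hy
    rw [commutatorElement_def]
    exact mul_mem ((Subgroup.mem_normalizer_iff.mp (hPB hx) _).mp hy) (inv_mem hy)
  rw [eq_bot_iff]
  refine (Subgroup.commutator_mono h1 (Subgroup.zpowers_le.mpr hb)).trans ?_
  rw [Subgroup.commutator_le]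
  intro y hy z hz
  rw [Subgroup.mem_bot, commutatorElement_eq_one_iff_mul_comm]
  exact hB y hy z hz

theorem quad_mem_pCore [hp : Fact p.Prime] [Finite G] (hst : IsNormalizerPStable p G)
    (hc : Subgroup.centralizer (pCore p G : Set G) ≤ pCore p G) (P : Subgroup G) [hPn : P.Normal] (hP : IsPGroup p P)
    (hPc : pCore p G ⊓ Subgroup.centralizer (P : Set G) ≤ P) {b : G}
    (hq : ⁅⁅P, Subgroup.zpowers b⁆, Subgroup.zpowers b⁆ = ⊥) : b ∈ pCore p G := by
  obtain ⟨K, hK1, hK2, hK3, hK4⟩ := pStableOn_elt (pStableOn_of_normalizer hst P hP) hq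
  have hTp : IsPGroup p ↥(pCore p G) := CfsgH2.isPGroup_pCore p
  have hTn := pCore_normal' p G
  have hKp : IsPGroup p ↥K := by
    apply CfsgH3.isPGroup_of_forall_coprime
    intro k hk
    have hk' : (orderOf (k : G)).Coprime p := by rwa [Subgroup.orderOf_coe]
    have h3 := hK3 k k.2 hk'
    have hA : (Nat.card (Subgroup.zpowers (k : G))).Coprime p := by rwa [Nat.card_zpowers]
    have h4 : ⁅Subgroup.zpowers (k : G), P⁆ = ⊥ := by
      rw [Subgroup.commutator_eq_bot_iff_le_centralizer, Subgroup.zpowers_le]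
      exact h3
    have h5 := CfsgH2.thompson_axb hP hA h4 (pCore p G) hTp
      (by rw [Subgroup.normalizer_eq_top_iff.mpr hTn]; exact le_top)
      (by rw [Subgroup.normalizer_eq_top_iff.mpr hTn]; exact le_top) (by
        rw [eq_bot_iff, ← h4, Subgroup.commutator_comm (Subgroup.zpowers (k : G)) P]
        exact Subgroup.commutator_mono hPc le_rfl)
    have h6 : (k : G) ∈ Subgroup.centralizer (pCore p G : Set G) := by
      rw [Subgroup.commutator_comm, Subgroup.commutator_eq_bot_iff_le_centralizer, Subgroup.zpowers_le] at h5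
      exact h5
    obtain ⟨m, hm⟩ := isPGroup_pow_mem hTp (hc h6)
    exact Subtype.ext (CfsgH3.eq_one_of_coprime_of_pow hk' hm)
  exact CfsgH2.le_pCore hK1 hKp hK4

end CfsgH3
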