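import Cfsg.Agent.H7.ZJ3
import Cfsg.Agent.H1.Meta
import Cfsg.Agent.H7.QdBad
import Cfsg.Agent.H2.PLayer
import Cfsg.Agent.H1.HHPrime

set_option autoImplicit false

/-! The `ZJ`-theorem for the centre of the Thompson subgroup generated by elementary abelian subgroups. -/

namespace CfsgH3

open Subgroup Cfsg CfsgH7
open scoped commutatorElement

universe u
variable {G : Type u} [Group G] {p : ℕ}

/-- The join of the family. -/
def JE (p : ℕ) {G : Type u} [Group G] (D : Subgroup G) : Subgroup G := sSup (MF (PhiE p G) D)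

/-- Its centre. -/
def ZE (p : ℕ) {G : Type u} [Group G] (D : Subgroup G) : Subgroup G :=
  JE p D ⊓ Subgroup.centralizer ((JE p D : Subgroup G) : Set G)

theorem ZE_eq [Finite G] (D : Subgroup G) : centerThompsonOf p D = ZE p D := by
  unfold centerThompsonOf
  rw [thompsonOf_eq]; rfl

theorem JE_le (D : Subgroup G) : JE p D ≤ D := sSup_le fun _ hA => hA.1

theorem ZE_le (D : Subgroup G) : ZE p D ≤ D := inf_le_left.trans (JE_le D)

theorem ZE_comm {D : Subgroup G} : ∀ a ∈ ZE p D, ∀ b ∈ ZE p D, a * b = b * a := by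
  intro a ha b hb
  exact Subgroup.mem_centralizer_iff.1 (Subgroup.mem_inf.1 hb).2 a (Subgroup.mem_inf.1 ha).1

theorem ZE_cent {D : Subgroup G} {z : G} (hz : z ∈ ZE p D) {A : Subgroup G} (hA : A ∈ MF (PhiE p G) D) :
    ∀ a ∈ A, a * z = z * a := by
  intro a ha
  exact Subgroup.mem_centralizer_iff.1 (Subgroup.mem_inf.1 hz).2 a ((le_sSup hA : A ≤ JE p D) ha)

theorem zF_le_ZE [Finite G] (D : Subgroup G) : zF (PhiE p G) D ≤ ZE p D := by
  intro z hz
  obtain ⟨A, hA⟩ := exists_MF_E p D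
  refine Subgroup.mem_inf.mpr ⟨(le_sSup hA : A ≤ JE p D) (zF_le hA hz), ?_⟩
  unfold JE
  rw [inf_centralizer_sSup]
  intro B hB b hb
  exact isMulComm_iff.mp hB.2.1.1 b hb z (zF_le hB hz)

theorem JE_map_inj [hp : Fact p.Prime] (hp2 : p ≠ 2) {Q R : Type u} [Group Q] [Group R] [Finite Q] (f : Q →* R)
    (hf : Function.Injective f) (D : Subgroup Q) : (JE p D).map f = JE p (D.map f) :=
  map_sSup_MF (goodPred_E.{u} hp2) f hf D

theorem map_centralizer_inj {Q R : Type u} [Group Q] [Group R] (f : Q →* R) (hf : Function.Injective f) (J : Subgroup Q) :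
    (J ⊓ Subgroup.centralizer (J : Set Q)).map f = J.map f ⊓ Subgroup.centralizer ((J.map f : Subgroup R) : Set R) := by
  ext y
  constructor
  · rintro ⟨x, hx, rfl⟩
    obtain ⟨h1, h2⟩ := Subgroup.mem_inf.1 hx
    refine Subgroup.mem_inf.2 ⟨⟨x, h1, rfl⟩, ?_⟩
    rw [Subgroup.mem_centralizer_iff]
    rintro _ ⟨a, ha, rfl⟩
    rw [← map_mul, ← map_mul, Subgroup.mem_centralizer_iff.1 h2 a ha]
  · intro hy
    obtain ⟨⟨x, hx, rfl⟩, h2⟩ := Subgroup.mem_inf.1 hy
    refine ⟨x, Subgroup.mem_inf.2 ⟨hx, ?_⟩, rfl⟩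
    rw [Subgroup.mem_centralizer_iff]
    intro a ha
    apply hf
    rw [map_mul, map_mul]
    exact Subgroup.mem_centralizer_iff.1 h2 (f a) ⟨a, ha, rfl⟩

theorem ZE_map_inj [hp : Fact p.Prime] (hp2 : p ≠ 2) {Q R : Type u} [Group Q] [Group R] [Finite Q] (f : Q →* R)
    (hf : Function.Injective f) (D : Subgroup Q) : (ZE p D).map f = ZE p (D.map f) := by
  unfold ZE
  rw [map_centralizer_inj f hf, JE_map_inj hp2 f hf]

theorem JE_cj [Finite G] [hp : Fact p.Prime] (hp2 : p ≠ 2) (g : G) (D : Subgroup G) : cj g (JE p D) = JE p (cj g D) :=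
  JE_map_inj hp2 (MulAut.conj g).toMonoidHom (MulAut.conj g).injective D

theorem ZE_cj [Finite G] [hp : Fact p.Prime] (hp2 : p ≠ 2) (g : G) (D : Subgroup G) : cj g (ZE p D) = ZE p (cj g D) :=
  ZE_map_inj hp2 (MulAut.conj g).toMonoidHom (MulAut.conj g).injective D

theorem normalizer_le_JE [Finite G] [hp : Fact p.Prime] (hp2 : p ≠ 2) (D : Subgroup G) :
    Subgroup.normalizer (D : Set G) ≤ Subgroup.normalizer ((JE p D : Subgroup G) : Set G) := by
  intro g hg
  rw [mem_normalizer_iff_cj] at hg ⊢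
  rw [JE_cj hp2, hg]

theorem normalizer_le_ZE [Finite G] [hp : Fact p.Prime] (hp2 : p ≠ 2) (D : Subgroup G) :
    Subgroup.normalizer (D : Set G) ≤ Subgroup.normalizer ((ZE p D : Subgroup G) : Set G) := by
  intro g hg
  rw [mem_normalizer_iff_cj] at hg ⊢
  rw [ZE_cj hp2, hg]

theorem normalizer_le_cent (J : Subgroup G) :
    Subgroup.normalizer (J : Set G) ≤ Subgroup.normalizer ((Subgroup.centralizer (J : Set G) : Subgroup G) : Set G) := by
  intro g hg
  rw [Subgroup.mem_normalizer_iff]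
  have key : ∀ g ∈ Subgroup.normalizer (J : Set G), ∀ c, c ∈ Subgroup.centralizer (J : Set G) →
      g * c * g⁻¹ ∈ Subgroup.centralizer (J : Set G) := by
    intro g hg c hc
    rw [Subgroup.mem_centralizer_iff]
    intro j hj
    have h1 : g⁻¹ * j * g ∈ J := by
      have := (Subgroup.mem_normalizer_iff.1 (inv_mem hg) j).1 hj
      rwa [inv_inv] at this
    have h2 := Subgroup.mem_centralizer_iff.1 hc _ h1
    calc j * (g * c * g⁻¹) = g * ((g⁻¹ * j * g) * c) * g⁻¹ := by group
      _ = g * (c * (g⁻¹ * j * g)) * g⁻¹ := by rw [h2]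
      _ = g * c * g⁻¹ * j := by group
  intro c
  refine ⟨key g hg c, fun h => ?_⟩
  have := key g⁻¹ (inv_mem hg) _ h
  have e : g⁻¹ * (g * c * g⁻¹) * g⁻¹⁻¹ = c := by group
  rwa [e] at this

/-- The elements of `Z(J_e(D))` of order dividing `p ^ i`. -/
def TE (p : ℕ) (i : ℕ) {G : Type u} [Group G] (D : Subgroup G) : Subgroup G where
  carrier := {z | z ∈ ZE p D ∧ z ^ p ^ i = 1}
  one_mem' := ⟨one_mem _, one_pow _⟩
  mul_mem' := by
    rintro a b ⟨ha, ha'⟩ ⟨hb, hb'⟩
    refine ⟨mul_mem ha hb, ?_⟩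
    rw [(show Commute a b from ZE_comm a ha b hb).mul_pow, ha', hb', one_mul]
  inv_mem' := by
    rintro a ⟨ha, ha'⟩
    exact ⟨inv_mem ha, by rw [inv_pow, ha', inv_one]⟩

theorem mem_TE {i : ℕ} {D : Subgroup G} {z : G} : z ∈ TE p i D ↔ z ∈ ZE p D ∧ z ^ p ^ i = 1 := Iff.rfl

theorem TE_le {i : ℕ} {D : Subgroup G} : TE p i D ≤ ZE p D := fun _ hz => hz.1


theorem TE_normalizer [Finite G] [hp : Fact p.Prime] (hp2 : p ≠ 2) (i : ℕ) (D : Subgroup G) :
    Subgroup.normalizer (D : Set G) ≤ Subgroup.normalizer ((TE p i D : Subgroup G) : Set G) := by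
  intro g hg
  apply mem_normalizer_of_cj_le
  rintro _ ⟨z, hz, rfl⟩
  have h1 := (Subgroup.mem_normalizer_iff.1 (normalizer_le_ZE hp2 D hg) z).1 hz.1
  refine ⟨h1, ?_⟩
  change (g * z * g⁻¹) ^ p ^ i = 1
  rw [conj_pow, hz.2, mul_one, mul_inv_cancel]

/-- The main step. -/
theorem te_inf_normal [hp : Fact p.Prime] (hp2 : p ≠ 2) [Finite G] (S : Sylow p G) {D : Subgroup G}
    (hD : IsStronglyClosed D (S : Subgroup G))
    (hst : ∀ (P : Subgroup G) [P.Normal], IsPGroup p P → IsPStableOn p P) (i : ℕ) (hT : (TE p i D).Normal) :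
    ∀ (n : ℕ) (B : Subgroup G), Nat.card ↥B = n → B.Normal → IsPGroup p ↥B → (TE p (i + 1) D ⊓ B).Normal := by
  intro n
  induction n using Nat.strong_induction_on with
  | _ n ih =>
  intro B hBn hB hBp
  have hg := goodPred_E.{u} hp2
  have hΦ := hg.rclass G
  have hSp : IsPGroup p ↥(S : Subgroup G) := S.isPGroup'
  have hBS : B ≤ (S : Subgroup G) := (CfsgH2.le_pCore hB hBp).trans (pCore_le_sylow S)
  set Z := TE p (i + 1) D with hZdef
  have hZZ : Z ≤ ZE p D := TE_le
  have hZD : Z ≤ D := hZZ.trans (ZE_le D)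
  have hSD : (S : Subgroup G) ≤ Subgroup.normalizer (D : Set G) := by
    intro s hs
    apply mem_normalizer_of_cj_le
    rintro _ ⟨d, hd, rfl⟩
    exact hD.2 d hd s (mul_mem (mul_mem hs (hD.1 hd)) (inv_mem hs))
  have hSZ : (S : Subgroup G) ≤ Subgroup.normalizer (Z : Set G) := hSD.trans (TE_normalizer hp2 _ D)
  set W := Z ⊓ B with hW
  have hSW : (S : Subgroup G) ≤ Subgroup.normalizer (W : Set G) := by
    intro s hs
    rw [mem_normalizer_iff_cj, hW, cj_inf, mem_normalizer_iff_cj.mp (hSZ hs), cj_of_mem_normalizer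
      (by rw [Subgroup.normalizer_eq_top_iff.mpr hB]; trivial)]
  have hWB : W ≤ B := inf_le_right
  by_cases hB1 : Subgroup.normalClosure (W : Set G) = B
  swap
  · -- smaller normal subgroup
    have h1 : Subgroup.normalClosure (W : Set G) ≤ B := Subgroup.normalClosure_le_normal hWB
    have h2 : Subgroup.normalClosure (W : Set G) < B := lt_of_le_of_ne h1 hB1
    have h3 : Nat.card ↥(Subgroup.normalClosure (W : Set G)) < n := by
      rw [← hBn]; exact card_lt_of_lt' h2
    have h4 := ih _ h3 (Subgroup.normalClosure (W : Set G)) rfl inferInstance (hBp.to_le h1)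
    have h5 : Z ⊓ Subgroup.normalClosure (W : Set G) = W := by
      apply le_antisymm
      · exact le_inf inf_le_left (inf_le_right.trans h1)
      · exact le_inf inf_le_left Subgroup.le_normalClosure
    rwa [h5] at h4
  by_cases hB0 : B = ⊥
  · have : W = ⊥ := by rw [eq_bot_iff, ← hB0]; exact hWB
    rw [this]; infer_instance
  have hder : ⁅B, B⁆ < B := by
    refine lt_of_le_of_ne (Subgroup.commutator_le_left B B) ?_
    intro h
    have hnil : Group.IsNilpotent ↥B := hBp.isNilpotent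
    exact hB0 (CfsgH3.eq_bot_of_le_commutator le_rfl h.ge)
  have hdern : (⁅B, B⁆).Normal := inferInstance
  have hZB' : (Z ⊓ ⁅B, B⁆).Normal := by
    refine ih _ ?_ ⁅B, B⁆ rfl hdern (hBp.to_le hder.le)
    rw [← hBn]; exact card_lt_of_lt' hder
  have hB'Z : ⁅B, B⁆ ≤ Z ⊓ ⁅B, B⁆ := by
    rw [← le_chC]
    conv_lhs => rw [← hB1]
    have hchn : (chC B (Z ⊓ ⁅B, B⁆)).Normal := chC_normal
    refine Subgroup.normalClosure_le_normal ?_
    have h1 : W ≤ chC B (Z ⊓ ⁅B, B⁆) := by
      rw [le_chC]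
      refine le_inf ?_ (Subgroup.commutator_mono le_rfl hWB)
      rw [Subgroup.commutator_le]
      intro b hb w hw
      have h2 := (Subgroup.mem_normalizer_iff.mp (hSZ (hBS hb)) _).mp (Subgroup.mem_inf.mp hw).1
      rw [commutatorElement_def]
      exact mul_mem h2 (inv_mem (Subgroup.mem_inf.mp hw).1)
    exact h1
  have hB'Z' : ⁅B, B⁆ ≤ Z := hB'Z.trans inf_le_left
  -- `B` centralizes its derived subgroup and `T`
  have hBle : ∀ N : Subgroup G, N.Normal → W ≤ N → B ≤ N := by
    intro N hN hWN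
    rw [← hB1]
    exact Subgroup.normalClosure_le_normal hWN
  have hBc : B ≤ Subgroup.centralizer ((⁅B, B⁆ : Subgroup G) : Set G) := by
    refine hBle _ inferInstance ?_
    intro w hw
    rw [Subgroup.mem_centralizer_iff]
    intro c hc
    exact ZE_comm c (hZZ (hB'Z' hc)) w (hZZ (Subgroup.mem_inf.1 hw).1)
  have hBT : B ≤ Subgroup.centralizer ((TE p i D : Subgroup G) : Set G) := by
    refine hBle _ inferInstance ?_
    intro w hw
    rw [Subgroup.mem_centralizer_iff]
    intro c hc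
    exact ZE_comm c (TE_le hc) w (hZZ (Subgroup.mem_inf.1 hw).1)
  have hcen : ∀ x ∈ B, ∀ y ∈ B, ∀ z ∈ B, Commute ⁅x, y⁆ z := by
    intro x hx y hy z hz
    exact (Subgroup.mem_centralizer_iff.1 (hBc hz) _ (Subgroup.commutator_mem_commutator hx hy))
  -- exponent of the derived subgroup
  have hexp : ∀ z ∈ ⁅B, B⁆, z ^ p = 1 := by
    let E : Subgroup G :=
      { carrier := {z | z ∈ ⁅B, B⁆ ∧ z ^ p = 1}
        one_mem' := ⟨one_mem _, one_pow _⟩
        mul_mem' := by
          rintro a b ⟨ha, ha'⟩ ⟨hb, hb'⟩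
          refine ⟨mul_mem ha hb, ?_⟩
          rw [(show Commute a b from ZE_comm a (hZZ (hB'Z' ha)) b (hZZ (hB'Z' hb))).mul_pow, ha', hb', one_mul]
        inv_mem' := by
          rintro a ⟨ha, ha'⟩
          exact ⟨inv_mem ha, by rw [inv_pow, ha', inv_one]⟩ }
    have hE : E.Normal := by
      refine ⟨fun z hz g => ⟨hdern.conj_mem z hz.1 g, ?_⟩⟩
      rw [conj_pow, hz.2, mul_one, mul_inv_cancel]
    have h1 : B ≤ chC B E := by
      refine hBle _ chC_normal ?_
      rw [le_chC, Subgroup.commutator_le]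
      intro b hb w hw
      refine ⟨Subgroup.commutator_mem_commutator hb (hWB hw), ?_⟩
      obtain ⟨hwZ, hwB⟩ := Subgroup.mem_inf.1 hw
      have hwp : w ^ p ∈ TE p i D := by
        refine ⟨pow_mem hwZ.1 _, ?_⟩
        rw [← pow_mul, ← pow_succ']
        exact hwZ.2
      have h2 : Commute ⁅b, w⁆ w := hcen b hb w hwB w hwB
      have h3 : b * w * b⁻¹ = ⁅b, w⁆ * w := by rw [commutatorElement_def]; group
      have h4 : b * w ^ p * b⁻¹ = ⁅b, w⁆ ^ p * w ^ p := by
        rw [← conj_pow, h3, h2.mul_pow]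
      have h5 : b * w ^ p * b⁻¹ = w ^ p := by
        have := Subgroup.mem_centralizer_iff.1 (hBT hb) _ hwp
        rw [← this, mul_inv_cancel_right]
      rw [h5] at h4
      exact (mul_eq_right.1 h4.symm)
    rw [le_chC] at h1
    intro z hz
    exact (h1 hz).2
  have hBD : B ≤ D := by
    rw [← hB1]
    unfold Subgroup.normalClosure
    rw [Subgroup.closure_le]
    intro y hy
    obtain ⟨w, hw, hwy⟩ := Group.mem_conjugatesOfSet_iff.mp hy
    obtain ⟨g, rfl⟩ := isConj_iff.mp hwy
    have hw' : w ∈ W := hw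
    exact hD.2 w (hZD (Subgroup.mem_inf.mp hw').1) g (hBS (hB.conj_mem _ (hWB hw') g))
  have hB'F : ⁅B, B⁆ ≤ zF (PhiE p G) D := by
    intro z hz
    exact mem_zF_of_comm hg (hBD (hder.le hz)) (hexp z hz) (fun A hA => ZE_cent (hZZ (hB'Z' hz)) hA)
  -- powers
  have hmul : ∀ a ∈ B, ∀ b ∈ B, (a * b) ^ p = a ^ p * b ^ p := by
    intro a ha b hb
    have h1 := CfsgH1.pow_p_class_two (X := ↥B) hp.out hp2 (x := ⟨a, ha⟩) (y := ⟨b, hb⟩)
      (fun z => Subtype.ext (hcen b⁻¹ (inv_mem hb) a⁻¹ (inv_mem ha) z z.2))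
      (Subtype.ext (hexp _ (Subgroup.commutator_mem_commutator (inv_mem hb) (inv_mem ha))))
    exact congrArg Subtype.val h1
  have hpow : ∀ b ∈ B, b ^ p ∈ TE p i D := by
    let E : Subgroup G :=
      { carrier := {z | z ∈ B ∧ z ^ p ∈ TE p i D}
        one_mem' := ⟨one_mem _, by rw [one_pow]; exact one_mem _⟩
        mul_mem' := by
          rintro a b ⟨ha, ha'⟩ ⟨hb, hb'⟩
          refine ⟨mul_mem ha hb, ?_⟩
          rw [hmul a ha b hb]
          exact mul_mem ha' hb'
        inv_mem' := by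
          rintro a ⟨ha, ha'⟩
          exact ⟨inv_mem ha, by rw [inv_pow]; exact inv_mem ha'⟩ }
    have hE : E.Normal := by
      refine ⟨fun z hz g => ⟨hB.conj_mem z hz.1 g, ?_⟩⟩
      rw [conj_pow]
      exact hT.conj_mem _ hz.2 g
    have h1 : B ≤ E := by
      refine hBle _ hE ?_
      intro w hw
      obtain ⟨hwZ, hwB⟩ := Subgroup.mem_inf.1 hw
      refine ⟨hwB, pow_mem hwZ.1 _, ?_⟩
      rw [← pow_mul, ← pow_succ']
      exact hwZ.2
    intro b hb
    exact (h1 hb).2
  -- the group `L`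
  set L := (Subgroup.normalizer (W : Set G)).normalCore with hL
  have hLn : L.Normal := Subgroup.normalCore_normal _
  have hLW : L ≤ Subgroup.normalizer (W : Set G) := Subgroup.normalCore_le _
  have hSyl : IsSyl p ((S : Subgroup G) ⊓ L) L :=
    (isSyl_of_sylow S).inf le_top (by rw [Subgroup.normalizer_eq_top_iff.mpr hLn])
  have hNN : Subgroup.normalizer (((S : Subgroup G) ⊓ L : Subgroup G) : Set G) ≤ Subgroup.normalizer ((D ⊓ L : Subgroup G) : Set G) := by
    intro g hg
    apply mem_normalizer_of_cj_le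
    rintro _ ⟨d, hd, rfl⟩
    obtain ⟨hd1, hd2⟩ := Subgroup.mem_inf.mp hd
    have h1 : g * d * g⁻¹ ∈ (S : Subgroup G) ⊓ L :=
      (Subgroup.mem_normalizer_iff.mp hg _).mp (Subgroup.mem_inf.mpr ⟨hD.1 hd1, hd2⟩)
    exact Subgroup.mem_inf.mpr ⟨hD.2 d hd1 g (Subgroup.mem_inf.mp h1).1, (Subgroup.mem_inf.mp h1).2⟩
  have hfrat : ∀ g : G, ∃ n ∈ Subgroup.normalizer (((S : Subgroup G) ⊓ L : Subgroup G) : Set G), ∃ l ∈ L, g = n * l := by
    intro g
    obtain ⟨l, hl, y, hy, hgy⟩ := hSyl.frattini (H := ⊤) le_top (by rw [Subgroup.normalizer_eq_top_iff.mpr hLn]) (x := g⁻¹) trivial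
    refine ⟨y⁻¹, inv_mem (Subgroup.mem_inf.mp hy).2, l⁻¹, inv_mem hl, ?_⟩
    rw [← mul_inv_rev, ← hgy, inv_inv]
  have hRD : D ⊓ L ≤ D := inf_le_left
  -- normal subgroups in `K` acting nicely
  have hKL : ∀ K : Subgroup G, K.Normal → (∀ k ∈ K, (orderOf k).Coprime p → k ∈ Subgroup.centralizer (B : Set G)) → K ≤ L := by
    intro K hK1 hK3
    have hCn : (Subgroup.centralizer (B : Set G)).Normal := inferInstance
    have h1 := le_sup_sylow hK1 hCn S hK3
    have h2 : K ≤ Subgroup.normalizer (W : Set G) := by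
      refine h1.trans (sup_le ?_ hSW)
      intro c hc
      apply mem_normalizer_of_cj_le
      rintro _ ⟨w, hw, rfl⟩
      have h3 := Subgroup.mem_centralizer_iff.mp hc w (hWB hw)
      change c * w * c⁻¹ ∈ W
      rw [← h3, mul_inv_cancel_right]; exact hw
    exact Subgroup.normal_le_normalCore.mpr h2
  by_cases hall : ∀ A ∈ MF (PhiE p G) D, A ≤ L
  · -- case 1
    obtain ⟨A, hA⟩ := exists_MF hΦ D
    have h1 : ZE p (D ⊓ L) = ZE p D := by
      have : JE p (D ⊓ L) = JE p D := by
        apply le_antisymm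
        · refine sSup_le fun C hC => le_sSup ?_
          exact (MF_sub hRD hA (le_inf hA.1 (hall A hA))).2 hC
        · refine sSup_le fun C hC => le_sSup ?_
          exact (MF_sub hRD hC (le_inf hC.1 (hall C hC))).1
      unfold ZE
      rw [this]
    have h2 : Subgroup.normalizer (((S : Subgroup G) ⊓ L : Subgroup G) : Set G) ≤ Subgroup.normalizer (Z : Set G) := by
      have h3 : Z = TE p (i + 1) (D ⊓ L) := by
        ext z
        rw [hZdef, mem_TE, mem_TE, h1]
      rw [h3]
      exact hNN.trans (TE_normalizer hp2 _ _)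
    rw [← Subgroup.normalizer_eq_top_iff, eq_top_iff]
    intro g _
    obtain ⟨m, hm, l, hl, rfl⟩ := hfrat g
    refine mul_mem ?_ (hLW hl)
    rw [mem_normalizer_iff_cj, hW, cj_inf, mem_normalizer_iff_cj.mp (h2 hm), cj_of_mem_normalizer
      (by rw [Subgroup.normalizer_eq_top_iff.mpr hB]; trivial)]
  · -- case 2
    exfalso
    push Not at hall
    obtain ⟨A₀, hA₀, hA₀L⟩ := hall
    obtain ⟨A, ⟨hA, hAL⟩, hAmax⟩ := Set.exists_max_image {A : Subgroup G | A ∈ MF (PhiE p G) D ∧ ¬ A ≤ L} (fun A => Nat.card ↥(A ⊓ B))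
      (Set.toFinite _) ⟨A₀, hA₀, hA₀L⟩
    have hcomm := hΦ.comm A hA.2.1
    by_cases hBA : B ≤ Subgroup.normalizer (A : Set G)
    · apply hAL
      intro a ha
      have hq : ⁅⁅B, Subgroup.zpowers a⁆, Subgroup.zpowers a⁆ = ⊥ := by
        have h1 : ⁅B, Subgroup.zpowers a⁆ ≤ A := by
          refine (Subgroup.commutator_mono le_rfl (Subgroup.zpowers_le.mpr ha)).trans ?_
          rw [Subgroup.commutator_le]
          intro b hb a' ha'
          rw [commutatorElement_def]
          exact mul_mem ((Subgroup.mem_normalizer_iff.mp (hBA hb) _).mp ha') (inv_mem ha')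
        rw [eq_bot_iff]
        refine (Subgroup.commutator_mono h1 (Subgroup.zpowers_le.mpr ha)).trans ?_
        rw [Subgroup.commutator_le]
        intro y hy z hz
        rw [Subgroup.mem_bot, commutatorElement_eq_one_iff_mul_comm]
        exact hcomm y hy z hz
      obtain ⟨K, hK1, hK2, hK3, hK4⟩ := pStableOn_elt (hst B hBp) hq
      exact hKL K hK1 hK3 hK4
    · have hSB : (S : Subgroup G) ≤ Subgroup.normalizer (B : Set G) := by
        rw [Subgroup.normalizer_eq_top_iff.mpr hB]; exact le_top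
      obtain ⟨x, hxB, hxN, hxA⟩ := exists_repl_elt hSp hBS hSB hBA
      have hdata : ReplData A B x := exists_replData hSp (Or.inl hp2) (hA.1.trans hD.1) hBS hSB hcomm
        (hB'F.trans (zF_le hA)) hxB hxN
      have hxD : cj x A ≤ D := by
        rintro _ ⟨a, ha, rfl⟩
        exact mul_mem (mul_mem (hBD hxB) (hA.1 ha)) (inv_mem (hBD hxB))
      have hAs : aStar A x ∈ MF (PhiE p G) D := by
        refine ⟨hdata.aStar_le.trans (sup_le hA.1 hxD), hΦ.repl A B x hdata hA.2.1, fun C hC hC' => ?_⟩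
        rw [hdata.card_eq]
        exact hA.2.2 C hC hC'
      have hAsL : aStar A x ≤ L := by
        by_contra hcon
        have h1 := hAmax (aStar A x) ⟨hAs, hcon⟩
        have h2 := card_lt_of_lt' (hdata.inf_lt hxA)
        exact absurd h2 (not_lt_of_ge h1)
      have hAsR : aStar A x ≤ D ⊓ L := le_inf hAs.1 hAsL
      -- `B` centralizes the join of the maximal subgroups below `D ⊓ L`
      have hJJ : JE p (D ⊓ L) ≤ JE p D := sSup_le fun C hC => le_sSup ((MF_sub hRD hAs hAsR).2 hC)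
      have hZC : Z ≤ Subgroup.centralizer ((JE p (D ⊓ L) : Subgroup G) : Set G) := by
        refine hZZ.trans (inf_le_right.trans ?_)
        exact Subgroup.centralizer_le hJJ
      have h2 : Subgroup.normalizer (((S : Subgroup G) ⊓ L : Subgroup G) : Set G) ≤
          Subgroup.normalizer ((Subgroup.centralizer ((JE p (D ⊓ L) : Subgroup G) : Set G) : Subgroup G) : Set G) :=
        hNN.trans ((normalizer_le_JE hp2 _).trans (normalizer_le_cent _))
      have h3 : B ≤ Subgroup.centralizer ((JE p (D ⊓ L) : Subgroup G) : Set G) := by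
        rw [← hB1]
        unfold Subgroup.normalClosure
        rw [Subgroup.closure_le]
        intro y hy
        obtain ⟨w, hw, hwy⟩ := Group.mem_conjugatesOfSet_iff.mp hy
        obtain ⟨g, rfl⟩ := isConj_iff.mp hwy
        have hw' : w ∈ W := hw
        obtain ⟨m, hm, l, hl, rfl⟩ := hfrat g
        have h4 : l * w * l⁻¹ ∈ W := (Subgroup.mem_normalizer_iff.mp (hLW hl) _).mp hw'
        have h5 := (Subgroup.mem_normalizer_iff.mp (h2 hm) _).mp (hZC (Subgroup.mem_inf.mp h4).1)
        have e : m * (l * w * l⁻¹) * m⁻¹ = m * l * w * (m * l)⁻¹ := by group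
        rwa [e] at h5
      have hcA : ∀ b ∈ B, ∀ a ∈ aStar A x, a * b = b * a := by
        intro b hb a ha
        exact Subgroup.mem_centralizer_iff.1 (h3 hb) a ((le_sSup (MF_sub hRD hAs hAsR).1 : aStar A x ≤ JE p (D ⊓ L)) ha)
      -- elements of order `p` in `B` lie in `aStar A x`
      have hmem : ∀ b ∈ B, b ^ p = 1 → b ∈ aStar A x := by
        intro b hb hbp
        have h4 : PhiE p G (aStar A x ⊔ Subgroup.zpowers b) := elem_sup_zpowers hAs.2.1 (hcA b hb) hbp
        have h5 := hAs.2.2 _ (sup_le hAs.1 (Subgroup.zpowers_le.mpr (hBD hb))) h4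
        have h6 : aStar A x = aStar A x ⊔ Subgroup.zpowers b := Subgroup.eq_of_le_of_card_ge le_sup_left h5
        rw [h6]
        exact Subgroup.mem_sup_right (Subgroup.mem_zpowers b)
      let U : Subgroup G := B ⊓ aStar A x
      have hU : ∀ u, u ∈ U ↔ u ∈ B ∧ u ^ p = 1 := by
        intro u
        constructor
        · intro h
          exact ⟨(Subgroup.mem_inf.1 h).1, hAs.2.1.2 u (Subgroup.mem_inf.1 h).2⟩
        · rintro ⟨h, h'⟩
          exact Subgroup.mem_inf.2 ⟨h, hmem u h h'⟩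
      have hUn : U.Normal := by
        refine ⟨fun z hz g => ?_⟩
        rw [hU] at hz ⊢
        refine ⟨hB.conj_mem z hz.1 g, ?_⟩
        rw [conj_pow, hz.2, mul_one, mul_inv_cancel]
      have hUp : IsPGroup p ↥U := hBp.to_le inf_le_left
      apply hAL
      intro a ha
      have hq : ⁅⁅U, Subgroup.zpowers a⁆, Subgroup.zpowers a⁆ = ⊥ := by
        have h1 : ⁅U, Subgroup.zpowers a⁆ ≤ A := by
          refine (Subgroup.commutator_mono le_rfl (Subgroup.zpowers_le.mpr ha)).trans ?_
          rw [Subgroup.commutator_le]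
          intro b hb a' ha'
          rw [commutatorElement_def]
          exact mul_mem ((Subgroup.mem_normalizer_iff.mp (hdata.aStar_le_normalizer (Subgroup.mem_inf.1 hb).2) _).mp ha') (inv_mem ha')
        rw [eq_bot_iff]
        refine (Subgroup.commutator_mono h1 (Subgroup.zpowers_le.mpr ha)).trans ?_
        rw [Subgroup.commutator_le]
        intro y hy z hz
        rw [Subgroup.mem_bot, commutatorElement_eq_one_iff_mul_comm]
        exact hcomm y hy z hz
      obtain ⟨K, hK1, hK2, hK3, hK4⟩ := pStableOn_elt (hst U hUp) hq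
      have hch : (chC B U).Normal := chC_normal
      have haC : a ∈ chC B U := by
        rw [mem_chC]
        intro b hb
        rw [hU, commutatorElement_def]
        have h5 : a * b⁻¹ * a⁻¹ ∈ B := hB.conj_mem _ (inv_mem hb) a
        have e : b * a * b⁻¹ * a⁻¹ = b * (a * b⁻¹ * a⁻¹) := by group
        refine ⟨by rw [e]; exact mul_mem hb h5, ?_⟩
        rw [e, hmul b hb _ h5, conj_pow, inv_pow]
        have h6 : a * b ^ p = b ^ p * a := ZE_cent (TE_le (hpow b hb)) hA a ha
        have h7 : a * (b ^ p)⁻¹ * a⁻¹ = (b ^ p)⁻¹ := by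
          have : a * b ^ p * a⁻¹ = b ^ p := by rw [h6, mul_inv_cancel_right]
          calc a * (b ^ p)⁻¹ * a⁻¹ = (a * b ^ p * a⁻¹)⁻¹ := by group
            _ = _ := by rw [this]
        rw [h7, mul_inv_cancel]
      refine hKL (K ⊓ chC B U) inferInstance ?_ (Subgroup.mem_inf.2 ⟨hK4, haC⟩)
      intro k hk hkp
      obtain ⟨hk1, hk2⟩ := Subgroup.mem_inf.1 hk
      have hkU := hK3 k hk1 hkp
      rw [Subgroup.mem_centralizer_iff]
      intro b hb
      have h5 : ⁅b, k⁆ ∈ U := mem_chC.1 hk2 b hb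
      obtain ⟨u, hu⟩ : ∃ u, u = ⁅b, k⁆ := ⟨_, rfl⟩
      rw [← hu] at h5
      have h6 : b * k * b⁻¹ = u * k := by
        rw [hu, commutatorElement_def]; group
      have h7 : Commute u k := Subgroup.mem_centralizer_iff.1 hkU u h5
      have h8 : u ^ orderOf k = 1 := by
        have h9 : (b * k * b⁻¹) ^ orderOf k = 1 := by
          rw [conj_pow, pow_orderOf_eq_one, mul_one, mul_inv_cancel]
        rw [h6, h7.mul_pow, pow_orderOf_eq_one, mul_one] at h9
        exact h9
      have h9 : u ^ p = 1 := ((hU u).1 h5).2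
      have h10 : orderOf u ∣ 1 := by
        rw [← hkp.gcd_eq_one]
        exact Nat.dvd_gcd (orderOf_dvd_of_pow_eq_one h8) (orderOf_dvd_of_pow_eq_one h9)
      have h11 : u = 1 := orderOf_eq_one_iff.1 (Nat.dvd_one.1 h10)
      rw [hu, commutatorElement_eq_one_iff_mul_comm] at h11
      exact h11

/-- The `ZJ`-theorem. -/
theorem ZE_normal [hp : Fact p.Prime] (hp2 : p ≠ 2) [Finite G] (S : Sylow p G) {D : Subgroup G}
    (hD : IsStronglyClosed D (S : Subgroup G)) (hst : ∀ (P : Subgroup G) [P.Normal], IsPGroup p P → IsPStableOn p P)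
    (hc : Subgroup.centralizer (pCore p G : Set G) ≤ pCore p G) : (ZE p D).Normal := by
  have hTn := pCore_normal' p G
  have hTp : IsPGroup p ↥(pCore p G) := CfsgH2.isPGroup_pCore p
  have hSD : (S : Subgroup G) ≤ Subgroup.normalizer (D : Set G) := by
    intro s hs
    apply mem_normalizer_of_cj_le
    rintro _ ⟨d, hd, rfl⟩
    exact hD.2 d hd s (mul_mem (mul_mem hs (hD.1 hd)) (inv_mem hs))
  have hSZ : (S : Subgroup G) ≤ Subgroup.normalizer ((ZE p D : Subgroup G) : Set G) := hSD.trans (normalizer_le_ZE hp2 D)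
  have h1 : ZE p D ≤ pCore p G := by
    intro z hz
    have hzl : Subgroup.zpowers z ≤ ZE p D := Subgroup.zpowers_le.mpr hz
    have hq : ⁅⁅pCore p G, Subgroup.zpowers z⁆, Subgroup.zpowers z⁆ = ⊥ := by
      have h2 : ⁅pCore p G, Subgroup.zpowers z⁆ ≤ ZE p D := by
        rw [Subgroup.commutator_le]
        intro t ht y hy
        rw [commutatorElement_def]
        exact mul_mem ((Subgroup.mem_normalizer_iff.mp (hSZ (pCore_le_sylow S ht)) _).mp (hzl hy)) (inv_mem (hzl hy))
      rw [eq_bot_iff]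
      refine (Subgroup.commutator_mono h2 hzl).trans ?_
      rw [Subgroup.commutator_le]
      intro y hy y' hy'
      rw [Subgroup.mem_bot, commutatorElement_eq_one_iff_mul_comm]
      exact ZE_comm y hy y' hy'
    obtain ⟨K, hK1, hK2, hK3, hK4⟩ := pStableOn_elt (hst (pCore p G) hTp) hq
    have hKp : IsPGroup p ↥K := by
      apply CfsgH3.isPGroup_of_forall_coprime
      intro k hk
      have hk' : (orderOf (k : G)).Coprime p := by rwa [Subgroup.orderOf_coe]
      have h3 := hc (hK3 k k.2 hk')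
      obtain ⟨m, hm⟩ := isPGroup_pow_mem hTp h3
      exact Subtype.ext (CfsgH3.eq_one_of_coprime_of_pow hk' hm)
    exact CfsgH2.le_pCore hK1 hKp hK4
  have hTi : ∀ i, (TE p i D).Normal := by
    intro i
    induction i with
    | zero =>
      have : TE p 0 D = ⊥ := by
        rw [eq_bot_iff]
        rintro z ⟨_, hz⟩
        rw [pow_zero, pow_one] at hz
        exact Subgroup.mem_bot.2 hz
      rw [this]; infer_instance
    | succ i ih =>
      have h0 := te_inf_normal hp2 S hD hst i ih _ (pCore p G) rfl hTn hTp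
      rwa [inf_eq_left.mpr (TE_le.trans h1)] at h0
  obtain ⟨n, hn⟩ := IsPGroup.iff_card.1 S.isPGroup'
  have h2 : TE p n D = ZE p D := by
    apply le_antisymm TE_le
    intro z hz
    refine ⟨hz, ?_⟩
    have h3 : z ∈ (S : Subgroup G) := hD.1 (ZE_le D hz)
    rw [← hn]
    exact congrArg Subtype.val (pow_card_eq_one' (x := (⟨z, h3⟩ : (S : Subgroup G))))
  rw [← h2]
  exact hTi n

/-- The functor. -/
def zjeF (p : ℕ) (Q : Type u) [Group Q] : Subgroup Q := ZE p (⊤ : Subgroup Q)

theorem isCharPFunctor_zjeF [hp : Fact p.Prime] (hp2 : p ≠ 2) : IsCharPFunctor.{u} p (zjeF p) := by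
  have h1 := isCharPFunctor_zjF (goodPred_E.{u} hp2)
  refine ⟨fun Q _ _ hQ hn h0 => ?_, fun Q R _ _ _ _ φ => ?_⟩
  · apply h1.1 Q hQ hn
    rw [eq_bot_iff, ← h0]
    exact zF_le_ZE ⊤
  · unfold zjeF
    rw [ZE_map_inj hp2 φ.toMonoidHom φ.injective]
    congr 1
    exact Subgroup.map_top_of_surjective _ φ.surjective

theorem inducedFunctor_zjeF [hp : Fact p.Prime] (hp2 : p ≠ 2) (D : Subgroup G) [Finite ↥D] :
    inducedFunctor (G := G) (zjeF p) D = ZE p D := by
  unfold inducedFunctor zjeF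
  rw [ZE_map_inj hp2 D.subtype D.subtype_injective, ← MonoidHom.range_eq_map, Subgroup.range_subtype]

theorem zje_sf [hp : Fact p.Prime] (hp2 : p ≠ 2) [Finite G]
    (hst : ∀ (K R : Subgroup G) [hR : (R.subgroupOf K).Normal], IsNormalizerPStable p (↥K ⧸ R.subgroupOf K))
    (H : Type u) [Group H] [Finite H] (hH : Involves H G) : SFc p {zjeF p} H := by
  have h𝓦 : ∀ W' ∈ ({zjeF p} : Set (∀ (Q : Type u) [Group Q], Subgroup Q)), IsCharPFunctor.{u} p W' := by
    rintro W' rfl
    exact isCharPFunctor_zjeF hp2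
  refine sf_of_sections h𝓦 (G := G) (fun K R _ hc => ?_) H hH
  obtain ⟨T⟩ : Nonempty (Sylow p (↥K ⧸ R.subgroupOf K)) := inferInstance
  refine sfc_of_normal (W := zjeF p) rfl T ?_
  rw [inducedFunctor_zjeF hp2]
  exact ZE_normal hp2 T (stronglyClosed_self _) (fun P _ hP => pStableOn_of_normalizer (hst K R) P hP) hc

theorem zje_csf [hp : Fact p.Prime] (hp2 : p ≠ 2) [Finite G]
    (hst : ∀ (K R : Subgroup G) [hR : (R.subgroupOf K).Normal], IsNormalizerPStable p (↥K ⧸ R.subgroupOf K)) (T : Sylow p G) :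
    ControlsStrongFusion p (ZE p (T : Subgroup G)) := by
  have h1 := csf_of_sfc (isCharPFunctor_zjeF hp2) (zje_sf hp2 hst G (involves_refl G)) T
  rwa [inducedFunctor_zjeF hp2] at h1

theorem zje_npc [hp : Fact p.Prime] (hp2 : p ≠ 2) [Finite G] {S : Subgroup G}
    (hS : IsSyl p S ⊤) (hN : CfsgH3.HasNPC p ↥(Subgroup.normalizer ((ZE p S : Subgroup G) : Set G))) : CfsgH3.HasNPC p G := by
  refine npc_stable hp2 (isCharPFunctor_zjeF hp2) hS (by rwa [inducedFunctor_zjeF hp2]) (fun K R _ hst T => ?_)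
  rw [inducedFunctor_zjeF hp2]
  exact zje_csf hp2 hst T

theorem zje_ctl [hp : Fact p.Prime] (hp2 : p ≠ 2) [Finite G]
    (hst : ∀ (K R : Subgroup G) [hR : (R.subgroupOf K).Normal], IsNormalizerPStable p (↥K ⧸ R.subgroupOf K)) (T : Sylow p G)
    (A : Subgroup G) (g : G) (hA : A ≤ (T : Subgroup G)) (hg : cj g A ≤ (T : Subgroup G)) :
    ∃ x ∈ Subgroup.normalizer ((ZE p (T : Subgroup G) : Subgroup G) : Set G), ∀ a ∈ A, x * a * x⁻¹ = g * a * g⁻¹ := by
  have h1 := zje_sf hp2 hst G (involves_refl G)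
  have h2 : ControlsStrongFusionIn p (inducedFunctor (G := G) (zjeF p)) ⊤ := by
    rw [controls_iff_family]
    simpa only [SFc, ind, Set.image_singleton] using h1
  obtain ⟨x, hx, hxe⟩ := controls_all (isConjugacyFunctor_induced (isCharPFunctor_zjeF hp2)) h2 (isSyl_of_sylow T) hA (Subgroup.mem_top g) hg
  rw [inducedFunctor_zjeF hp2] at hx
  exact ⟨x, hx.2, hxe⟩

theorem involves_card {H : Type*} [Group H] {G : Type*} [Group G] [Finite G] (h : Involves H G) : Nat.card H ∣ Nat.card G := by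
  obtain ⟨K, R, hR, ⟨e⟩⟩ := h
  rw [← Nat.card_congr e.toEquiv]
  exact (Subgroup.card_quotient_dvd_card _).trans K.card_subgroup_dvd_card

theorem not_involves_qd_of_odd [hp : Fact p.Prime] (hp2 : p ≠ 2) {G : Type*} [Group G] [Finite G] (h : Odd (Nat.card G)) :
    ¬ Involves ↥(qd p) G := by
  intro hi
  have h1 := involves_card hi
  have h2 : 2 ∣ Nat.card ↥(qd p) := by
    have hfin := qd_finite (p := p)
    have h3 : orderOf (-1 : Matrix.SpecialLinearGroup (Fin 2) (ZMod p)) = 2 := by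
      apply orderOf_eq_prime
      · exact neg_one_sq
      · intro h4
        have h5 := congrArg (fun M : Matrix.SpecialLinearGroup (Fin 2) (ZMod p) => (M : Matrix (Fin 2) (Fin 2) (ZMod p)) 0 0) h4
        simp only [Matrix.SpecialLinearGroup.coe_neg, Matrix.SpecialLinearGroup.coe_one, Matrix.neg_apply,
          Matrix.one_apply_eq] at h5
        have h6 : ((2 : ℕ) : ZMod p) = 0 := by
          push_cast
          linear_combination -h5
        rw [ZMod.natCast_eq_zero_iff] at h6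
        exact hp2 ((Nat.prime_dvd_prime_iff_eq hp.out Nat.prime_two).1 h6)
    have h4 : Function.Surjective (qProj (p := p)) := fun s => ⟨qA 0 s, qProj_qA 0 s⟩
    have h5 := Subgroup.card_dvd_of_surjective _ h4
    rw [← h3]
    exact (_root_.orderOf_dvd_natCard _).trans h5
  have h4 := h2.trans h1
  exact (Nat.not_even_iff_odd.2 h) (even_iff_two_dvd.2 h4)

/-- The normality in groups of odd order. -/
theorem ZE_sup_normal [hp : Fact p.Prime] (hp2 : p ≠ 2) [Finite G] (hq : ¬ Involves ↥(qd p) G) (hs : Cfsg.IsPSolvable p G) (S : Sylow p G) :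
    (ZE p (S : Subgroup G) ⊔ Cfsg.pPrimeCore p G).Normal := by
  set N := Cfsg.pPrimeCore p G with hN
  set π := QuotientGroup.mk' N with hπ
  have hinj : Function.Injective (π.comp (S : Subgroup G).subtype) := by
    rw [injective_iff_map_eq_one]
    intro s hs1
    have h1 : (s : G) ∈ N := (QuotientGroup.eq_one_iff (s : G)).1 hs1
    obtain ⟨k, hk⟩ := S.isPGroup' s
    apply Subtype.ext
    refine CfsgH3.eq_one_of_coprime_of_pow (p := p) (k := k) ?_ (congrArg Subtype.val hk)
    have h2 : orderOf (⟨(s : G), h1⟩ : ↥N) ∣ Nat.card ↥N := _root_.orderOf_dvd_natCard _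
    rw [← Subgroup.orderOf_coe] at h2
    exact (CfsgH2.coprime_card_pPrimeCore (G := G) p).coprime_dvd_left h2
  have h1 : (ZE p (S : Subgroup G)).map π = ZE p ((S : Subgroup G).map π) := by
    have e1 : ZE p (S : Subgroup G) = (ZE p (⊤ : Subgroup ↥(S : Subgroup G))).map (S : Subgroup G).subtype := by
      rw [ZE_map_inj hp2 _ (S : Subgroup G).subtype_injective, ← MonoidHom.range_eq_map, Subgroup.range_subtype]
    rw [e1, Subgroup.map_map, ZE_map_inj hp2 _ hinj, ← Subgroup.map_map, ← MonoidHom.range_eq_map, Subgroup.range_subtype]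
  obtain ⟨T, hT⟩ : ∃ T : Sylow p (G ⧸ N), (T : Subgroup (G ⧸ N)) = (S : Subgroup G).map π := by
    exact ⟨S.mapSurjective (QuotientGroup.mk'_surjective N), rfl⟩
  have h2 : (ZE p (T : Subgroup (G ⧸ N))).Normal := by
    have hst := (pstable_sections_iff hp2).1 hq
    refine ZE_normal hp2 T (stronglyClosed_self _) (fun P _ hP => pStableOn_of_normalizer ?_ P hP) ?_
    · exact section_pstable hst (involves_of_surjective π (QuotientGroup.mk'_surjective N))
    · exact CfsgH1.psolv_centralizer_pCore_le (CfsgH1.IsPSolvable.map hs π (QuotientGroup.mk'_surjective N))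
        (CfsgH2.pPrimeCore_quotient_pPrimeCore p)
  rw [hT, ← h1] at h2
  have h3 := h2.comap π
  rwa [Subgroup.comap_map_eq, QuotientGroup.ker_mk'] at h3

end CfsgH3
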