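import Cfsg.Agent.H3.CNgrp5
import Cfsg.Agent.H3.OddStab
import Cfsg.Agent.H3.ZJE
import Cfsg.Agent.H7.TransferLoc

set_option autoImplicit false

/-! Minimal simple CN-groups of odd order: the Sylow structure. -/

namespace CfsgH3

open Subgroup Cfsg CfsgH7
open scoped commutatorElement Pointwise

universe u
variable {G : Type u} [Group G] {p : ℕ}

theorem cn_local_cases [Finite G] [Group.IsSolvable G] [hp : Fact p.Prime] (hCN : IsCNGroup G) (hO : pCore p G ≠ ⊥) :
    (∀ P : Sylow p G, (P : Subgroup G).Normal) ∨ (centralizer (pCore p G : Set G) ≤ pCore p G ∧ IsThreeStepGroup p G) := by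
  by_cases hnil : Group.IsNilpotent G
  · left
    have h0 : ∀ (p : ℕ) (_ : Fact p.Prime) (P : Sylow p G), (P : Subgroup G).Normal :=
      ((Group.isNilpotent_of_finite_tfae (G := G)).out 0 3).1 hnil
    exact h0 p hp
  by_cases hne : fittingHall G = ⊥
  · right
    set F := fittingSubgroup G with hF
    have hFn : F.Normal := inferInstance
    have hFnil : Group.IsNilpotent F := CfsgH2.isNilpotent_fittingSubgroup
    have hFc : centralizer (F : Set G) ≤ F := CfsgH1.centralizer_fitting_le
    have hOF : pCore p G ≤ F := CfsgH2.le_fittingSubgroup inferInstance (CfsgH2.isPGroup_pCore (G := G) p).isNilpotent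
    have hFb : F ≠ ⊥ := by
      intro h
      rw [h] at hOF
      exact hO (le_bot_iff.1 hOF)
    have hpF : p ∣ Nat.card F := by
      obtain ⟨k, hk⟩ := IsPGroup.iff_card.1 (CfsgH2.isPGroup_pCore (G := G) p)
      have h1 : p ∣ Nat.card (pCore p G) := by
        rw [hk]
        refine dvd_pow_self p ?_
        rintro rfl
        rw [pow_zero, Subgroup.card_eq_one] at hk
        exact hO hk
      exact h1.trans (Subgroup.card_dvd_of_le hOF)
    have hFp : IsPGroup p F := by
      rw [IsPGroup.iff_card]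
      refine ⟨_, Nat.eq_prime_pow_of_unique_prime_dvd Nat.card_pos.ne' (fun {r} hr hrE => ?_)⟩
      by_contra hrp
      have h1 := cn_fitting_hall hCN hr hp.out hrp hrE hpF
      rw [hne] at h1
      exact hFb h1.symm
    have hcore : pCore p G = F := le_antisymm hOF (CfsgH2.le_pCore hFn hFp)
    have hc : centralizer (pCore p G : Set G) ≤ pCore p G := by rw [hcore]; exact hFc
    refine ⟨hc, cn_threestep_aux hCN hc ?_⟩
    rw [hcore]
    by_contra hcon
    apply hFb
    have h1 : F ≤ fittingHall G := by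
      refine le_fittingHall hFn hFnil ?_
      obtain ⟨k, hk⟩ := IsPGroup.iff_card.1 hFp
      rw [hk]
      exact Nat.Coprime.pow_left k (hp.out.coprime_iff_not_dvd.2 hcon)
    rw [hne] at h1
    exact le_bot_iff.1 h1
  · left
    set K := fittingHall G with hK
    have hKn : K.Normal := fittingHall_normal G
    have hKnil : Group.IsNilpotent K := fittingHall_nilpotent
    have hKh : (Nat.card K).Coprime K.index := fittingHall_coprime
    have hpK : p ∣ Nat.card K := by
      by_contra hpK
      obtain ⟨e, he, he1⟩ := (Subgroup.bot_or_exists_ne_one _).resolve_left hO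
      have hOp := CfsgH2.isPGroup_pCore (G := G) p
      have h1 : (Nat.card (pCore p G)).Coprime (Nat.card K) := by
        obtain ⟨k, hk⟩ := IsPGroup.iff_card.1 hOp
        rw [hk]
        exact Nat.Coprime.pow_left k (hp.out.coprime_iff_not_dvd.2 hpK)
      have h2 : orderOf e ∣ Nat.card (pCore p G) := by
        have := _root_.orderOf_dvd_natCard (⟨e, he⟩ : ↥(pCore p G))
        rwa [← Subgroup.orderOf_coe] at this
      have h3 := cn_fittingHall_fpf hCN (e := e) (h1.coprime_dvd_left h2) he1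
      have h4 := CfsgH1.inf_eq_bot_of_coprime h1
      apply hne
      rw [eq_bot_iff, ← h3]
      refine le_inf le_rfl fun k hk => ?_
      rw [mem_centralizer_singleton_iff]
      exact (Subgroup.commute_of_normal_of_disjoint _ _ hKn inferInstance (by rw [disjoint_iff, inf_comm]; exact h4) k e hk he)
    obtain ⟨S, hS⟩ := CfsgH1.exists_isSylowOf p K
    have hSn := normal_of_sylow_nilpotent hKn hKnil hS
    have hSi : ¬ p ∣ S.index := by
      have h1 := (CfsgH1.isSylowOf_iff.1 hS).2.2
      rw [← Subgroup.relIndex_mul_index (CfsgH1.isSylowOf_le hS), hp.out.dvd_mul]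
      rintro (h2 | h2)
      · exact h1 h2
      · exact hp.out.one_lt.ne' (Nat.eq_one_of_dvd_coprimes hKh hpK h2)
    intro P
    let S' : Sylow p G := (CfsgH1.isSylowOf_isPGroup hS).toSylow hSi
    have hS'n : (S' : Subgroup G).Normal := hSn
    haveI := Sylow.unique_of_normal S' hS'n
    rw [Subsingleton.elim P S']
    exact hS'n

/-! Basic facts on minimal simple groups. -/

theorem ms_normal (hG : IsMinimalSimple G) {X : Subgroup G} (hX : X.Normal) : X = ⊥ ∨ X = ⊤ :=
  hG.1.eq_bot_or_eq_top_of_normal X hX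

theorem ms_top_not_solvable (hG : IsMinimalSimple G) : ¬ Group.IsSolvable G := by
  intro hs
  haveI := hG.1
  apply hG.2.1
  have h1 : commutator G = ⊥ := by
    rcases ms_normal hG (X := commutator G) inferInstance with h | h
    · exact h
    · exfalso
      haveI : Nontrivial G := hG.1.toNontrivial
      exact (Group.IsSolvable.commutator_lt_top_of_nontrivial G).ne h
  refine ⟨⟨fun a b => ?_⟩⟩
  have h2 : ⁅a, b⁆ ∈ commutator G := Subgroup.commutator_mem_commutator (Subgroup.mem_top a) (Subgroup.mem_top b)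
  rw [h1, Subgroup.mem_bot, commutatorElement_eq_one_iff_mul_comm] at h2
  exact h2

theorem ms_commutator (hG : IsMinimalSimple G) : ⁅(⊤ : Subgroup G), (⊤ : Subgroup G)⁆ = ⊤ := by
  rcases ms_normal hG (X := ⁅(⊤ : Subgroup G), (⊤ : Subgroup G)⁆) inferInstance with h | h
  · exfalso
    apply hG.2.1
    refine ⟨⟨fun a b => ?_⟩⟩
    have h2 : ⁅a, b⁆ ∈ ⁅(⊤ : Subgroup G), (⊤ : Subgroup G)⁆ := Subgroup.commutator_mem_commutator (Subgroup.mem_top a) (Subgroup.mem_top b)
    rw [h, Subgroup.mem_bot, commutatorElement_eq_one_iff_mul_comm] at h2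
    exact h2
  · exact h

theorem ms_pgroup_ne_top [Finite G] [hp : Fact p.Prime] (hG : IsMinimalSimple G) {X : Subgroup G} (hX : IsPGroup p X) : X ≠ ⊤ := by
  rintro rfl
  apply ms_top_not_solvable hG
  haveI : Group.IsNilpotent (⊤ : Subgroup G) := hX.isNilpotent
  have h1 : Group.IsSolvable (⊤ : Subgroup G) := inferInstance
  exact Group.isSolvable_of_surjective (f := (Subgroup.topEquiv (G := G)).toMonoidHom) (Subgroup.topEquiv (G := G)).surjective

theorem ms_normalizer_ne_top (hG : IsMinimalSimple G) {X : Subgroup G} (h1 : X ≠ ⊥) (h2 : X ≠ ⊤) : normalizer (X : Set G) ≠ ⊤ := by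
  intro h
  have h3 : X.Normal := Subgroup.normalizer_eq_top_iff.1 h
  rcases ms_normal hG h3 with h | h
  · exact h1 h
  · exact h2 h

theorem ms_ne_two [Finite G] [hp : Fact p.Prime] (hG : Odd (Nat.card G)) {X : Subgroup G} (hX : IsPGroup p X) (h1 : X ≠ ⊥) : p ≠ 2 := by
  rintro rfl
  obtain ⟨k, hk⟩ := IsPGroup.iff_card.1 hX
  have h2 : 2 ∣ Nat.card X := by
    rw [hk]
    refine dvd_pow_self 2 ?_
    rintro rfl
    rw [pow_zero, Subgroup.card_eq_one] at hk
    exact h1 hk
  exact (Nat.not_even_iff_odd.2 hG) (even_iff_two_dvd.2 (h2.trans X.card_subgroup_dvd_card))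

theorem odd_subgroup [Finite G] (hG : Odd (Nat.card G)) (X : Subgroup G) : Odd (Nat.card X) := hG.of_dvd_nat X.card_subgroup_dvd_card

theorem ZE_ne_bot [Finite G] [hp : Fact p.Prime] (hp2 : p ≠ 2) {T : Subgroup G} (hT : IsPGroup p T) (h1 : T ≠ ⊥) : ZE p T ≠ ⊥ := by
  have := (charp_props (isCharPFunctor_zjeF.{u} hp2) hT h1).1
  rwa [inducedFunctor_zjeF hp2] at this

/-- M1: the Sylow subgroup lies in the derived group of `N(ZJ)`. -/
theorem ms_sylow_le_commutator [Finite G] [hp : Fact p.Prime] (hG : IsMinSimpleOddOrder G) (hp2 : p ≠ 2) {T : Subgroup G} (hT : IsSyl p T ⊤) :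
    T ≤ ⁅normalizer ((ZE p T : Subgroup G) : Set G), normalizer ((ZE p T : Subgroup G) : Set G)⁆ := by
  set N := normalizer ((ZE p T : Subgroup G) : Set G) with hN
  have hTN : T ≤ N := Subgroup.le_normalizer.trans (normalizer_le_ZE hp2 T)
  obtain ⟨S, -, hS⟩ := hT.exists_sylow
  have h1 : T ⊓ ⁅(⊤ : Subgroup G), (⊤ : Subgroup G)⁆ ≤ ⁅N, N⁆ := by
    refine focal_le hT ?_
    intro x hx u _ hux
    let T' : Sylow p G := hT.2.1.toSylow (by have := hT.2.2; rwa [Subgroup.relIndex_top_right] at this)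
    have hT' : (T' : Subgroup G) = T := rfl
    have hst := (pstable_sections_iff hp2).1 (not_involves_qd_of_odd hp2 hG.1)
    obtain ⟨n, hn, hne⟩ := zje_ctl hp2 (fun K R hR => hst K R) T' (Subgroup.zpowers x) u (by
      rw [hT', Subgroup.zpowers_le]; exact hx) (by
      rw [hT']
      intro y hy
      rw [mem_cj, Subgroup.mem_zpowers_iff] at hy
      obtain ⟨m, hm⟩ := hy
      have h2 : y = (u * x * u⁻¹) ^ m := by rw [conj_zpow, hm]; group
      rw [h2]
      exact T.zpow_mem hux m)
    rw [hT'] at hn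
    rw [← hne x (Subgroup.mem_zpowers x)]
    have h3 : x⁻¹ * (n * x * n⁻¹) = ⁅x⁻¹, n⁆ := by rw [commutatorElement_def]; group
    rw [h3]
    exact Subgroup.commutator_mem_commutator (N.inv_mem (hTN hx)) hn
  rwa [ms_commutator hG.2, inf_top_eq] at h1

theorem syl_normal_iff [Finite G] [hp : Fact p.Prime] {X S : Subgroup G} (hS : IsSyl p S X) (h : ∀ P : Sylow p X, (P : Subgroup X).Normal) :
    X ≤ normalizer (S : Set G) := by
  obtain ⟨P, hP1, hP2⟩ := hS.exists_sylow
  have h1 := h P
  rw [hP1] at h1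
  exact (Subgroup.normal_subgroupOf_iff_le_normalizer hS.1).1 h1

/-- M2 -/
theorem ms_normalizer_ZE_le [Finite G] [hp : Fact p.Prime] (hG : IsMinSimpleOddOrder G) (hCN : IsCNGroup G) (hp2 : p ≠ 2) {T : Subgroup G}
    (hT : IsSyl p T ⊤) (hTb : T ≠ ⊥) : normalizer ((ZE p T : Subgroup G) : Set G) ≤ normalizer (T : Set G) := by
  set N := normalizer ((ZE p T : Subgroup G) : Set G) with hN
  have hTN : T ≤ N := Subgroup.le_normalizer.trans (normalizer_le_ZE hp2 T)
  have hTsN : IsSyl p T N := hT.mono hTN le_top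
  have hZb : ZE p T ≠ ⊥ := ZE_ne_bot hp2 hT.2.1 hTb
  have hZp : IsPGroup p (ZE p T) := hT.2.1.to_le (ZE_le T)
  have hNt : N ≠ ⊤ := ms_normalizer_ne_top hG.2 hZb (ms_pgroup_ne_top hG.2 hZp)
  haveI : Group.IsSolvable N := hG.2.2.2 N hNt
  have hZN : ZE p T ≤ N := (ZE_le T).trans hTN
  have hO : pCore p N ≠ ⊥ := by
    intro h
    have h1 : (ZE p T).subgroupOf N ≤ pCore p N :=
      CfsgH2.le_pCore (Subgroup.normal_subgroupOf_iff_le_normalizer hZN |>.2 le_rfl) (hZp.of_equiv (Subgroup.subgroupOfEquivOfLe hZN).symm)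
    rw [h, le_bot_iff, Subgroup.subgroupOf_eq_bot] at h1
    exact hZb (disjoint_self.1 (h1.mono_right hZN))
  rcases cn_local_cases (cn_subgroup hCN N) hO with h | ⟨-, -, A, -, -, -, -, hLn, hLt, ⟨n, hn⟩, -, -⟩
  · exact syl_normal_iff hTsN h
  · exfalso
    set L := pCore p N ⊔ A with hL
    haveI := hLn
    haveI : Nontrivial (N ⧸ L) := by
      rw [← not_subsingleton_iff_nontrivial, QuotientGroup.subsingleton_iff]
      exact hLt
    have h1 := Group.IsSolvable.commutator_lt_top_of_nontrivial (N ⧸ L)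
    set M := (commutator (N ⧸ L)).comap (QuotientGroup.mk' L) with hM
    have hMt : M ≠ ⊤ := by
      intro h
      apply h1.ne
      have h2 := congrArg (Subgroup.map (QuotientGroup.mk' L)) h
      rw [hM, Subgroup.map_comap_eq_self_of_surjective (QuotientGroup.mk'_surjective L),
        Subgroup.map_top_of_surjective _ (QuotientGroup.mk'_surjective L)] at h2
      exact h2
    have hLM : L ≤ M := by
      intro x hx
      rw [hM, Subgroup.mem_comap, show QuotientGroup.mk' L x = 1 from (QuotientGroup.eq_one_iff x).2 hx]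
      exact Subgroup.one_mem _
    have hMi : M.index ∣ p ^ n := by
      rw [← hn]; exact Subgroup.index_dvd_of_le hLM
    have hpM : p ∣ M.index := by
      obtain ⟨k, -, hk⟩ := (Nat.dvd_prime_pow hp.out).1 hMi
      rcases k with _ | k
      · rw [pow_zero, Subgroup.index_eq_one] at hk
        exact absurd hk hMt
      · rw [hk]; exact dvd_pow_self p (Nat.succ_ne_zero k)
    have hTM : T.subgroupOf N ≤ M := by
      have h2 := ms_sylow_le_commutator hG hp2 hT
      rw [← hN, ← map_subtype_commutator_top] at h2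
      intro t ht
      have h3 : (t : G) ∈ (commutator ↥N).map N.subtype := h2 ht
      obtain ⟨c, hc, hct⟩ := h3
      have h4 : c = t := Subtype.ext hct
      rw [← h4]
      have h5 : (commutator ↥N).map (QuotientGroup.mk' L) ≤ commutator (N ⧸ L) := by
        rw [commutator_def, commutator_def, Subgroup.map_commutator]
        exact Subgroup.commutator_mono le_top le_top
      exact h5 ⟨c, hc, rfl⟩
    exact hTsN.2.2 (hpM.trans (Subgroup.index_dvd_of_le hTM))

/-- M4 -/
theorem ms_local_sylow_normal [Finite G] [hp : Fact p.Prime] (hG : IsMinSimpleOddOrder G) (hCN : IsCNGroup G) :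
    ∀ (n : ℕ) (X S D : Subgroup G), Nat.card G - Nat.card S = n → IsSyl p S X → D ≤ X → D ≠ ⊥ → IsPGroup p D →
      X ≤ normalizer (D : Set G) → X ≤ normalizer (S : Set G) := by
  intro n
  induction n using Nat.strong_induction_on with
  | _ n ih =>
  intro X S D hn hS hDX hDb hDp hXD
  have hp2 : p ≠ 2 := ms_ne_two hG.1 hDp hDb
  have hXt : X ≠ ⊤ := by
    intro h
    rw [h] at hXD
    exact ms_normalizer_ne_top hG.2 hDb (ms_pgroup_ne_top hG.2 hDp) (top_le_iff.1 hXD)
  haveI : Group.IsSolvable X := hG.2.2.2 X hXt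
  have hO : pCore p X ≠ ⊥ := by
    intro h
    have h1 : D.subgroupOf X ≤ pCore p X :=
      CfsgH2.le_pCore (Subgroup.normal_subgroupOf_iff_le_normalizer hDX |>.2 hXD) (hDp.of_equiv (Subgroup.subgroupOfEquivOfLe hDX).symm)
    rw [h, le_bot_iff, Subgroup.subgroupOf_eq_bot] at h1
    exact hDb (disjoint_self.1 (h1.mono_right hDX))
  rcases cn_local_cases (cn_subgroup hCN X) hO with h | ⟨hc, -⟩
  · exact syl_normal_iff hS h
  obtain ⟨P, hP1, hP2⟩ := hS.exists_sylow
  have hst : IsNormalizerPStable p X := odd_nps hp2 (odd_subgroup hG.1 X)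
  have h1 := ZE_normal hp2 P (stronglyClosed_self _) (fun P _ hP => pStableOn_of_normalizer hst P hP) hc
  have hXZ : X ≤ normalizer ((ZE p S : Subgroup G) : Set G) := by
    have h2 : (ZE p (P : Subgroup X)).map X.subtype = ZE p S := by
      rw [ZE_map_inj hp2 X.subtype X.subtype_injective, hP2]
    rw [← h2]
    exact (le_of_eq (by
      rw [← MonoidHom.range_eq_map, Subgroup.range_subtype])).trans ((Subgroup.map_mono (f := X.subtype)
        (le_of_eq (Subgroup.normalizer_eq_top_iff.2 h1).symm)).trans (Subgroup.le_normalizer_map _))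
  set Y := normalizer ((ZE p S : Subgroup G) : Set G) with hY
  obtain ⟨T, hST, hT⟩ := exists_isSyl_ge hS.2.1 (le_top : S ≤ ⊤)
  have hSb : S ≠ ⊥ := by
    intro h
    obtain ⟨g, hg, hgD⟩ := hS.exists_conj_le hDp hDX
    rw [h, le_bot_iff, Subgroup.map_eq_bot_iff_of_injective _ (MulAut.conj g).injective] at hgD
    exact hDb hgD
  by_cases hST' : S = T
  · subst hST'
    exact hXZ.trans (ms_normalizer_ZE_le hG hCN hp2 hT hSb)
  · have h3 := CfsgH1.lt_inf_normalizer_of_nilpotent hT.2.1.isNilpotent hST hST'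
    set S' := T ⊓ normalizer (S : Set G) with hS'
    have hS'Y : S' ≤ Y := inf_le_right.trans (normalizer_le_ZE hp2 S)
    have hS'p : IsPGroup p S' := hT.2.1.to_le inf_le_left
    obtain ⟨S₁, hS₁', hS₁⟩ := exists_isSyl_ge hS'p hS'Y
    have hlt : Nat.card S < Nat.card S₁ := by
      by_contra hcon
      push Not at hcon
      have h31 := Subgroup.eq_of_le_of_card_ge (h3.le.trans hS₁') hcon
      rw [← h31] at hS₁'
      exact absurd (lt_of_lt_of_le h3 hS₁') (lt_irrefl _)
    have hle : Nat.card S₁ ≤ Nat.card G := Nat.le_of_dvd Nat.card_pos S₁.card_subgroup_dvd_card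
    have h4 := ih (Nat.card G - Nat.card S₁) (by omega) Y S₁ (ZE p S) rfl hS₁ ((ZE_le S).trans (hS.1.trans hXZ)) (ZE_ne_bot hp2 hS.2.1 hSb)
      (hS.2.1.to_le (ZE_le S)) le_rfl
    have h5 : S ≤ S₁ := h3.le.trans hS₁'
    have h6 : S₁ ⊓ X = S := hS.eq_of_le (hS₁.2.1.to_le inf_le_left) (le_inf h5 hS.1) inf_le_right
    rw [← h6]
    intro x hx
    rw [mem_normalizer_iff]
    intro s
    have h7 := mem_normalizer_iff.1 (h4 (hXZ hx)) s
    have h8 := mem_normalizer_iff.1 (Subgroup.le_normalizer hx) s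
    rw [Subgroup.mem_inf, Subgroup.mem_inf, h7, h8]

end CfsgH3
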