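import Cfsg.Agent.H3.CNmin
import Cfsg.Agent.H1.FrobThm

set_option autoImplicit false

/-! Minimal simple CN-groups of odd order: maximal nilpotent subgroups and maximal subgroups. -/

namespace CfsgH3

open Subgroup Cfsg CfsgH7
open scoped commutatorElement Pointwise

universe u
variable {G : Type u} [Group G] {p : ℕ}

theorem ms_no_threestep [Finite G] (hG : IsMinSimpleOddOrder G) (hCN : IsCNGroup G) (H : Subgroup G) (p : ℕ) :
    ¬ IsThreeStepGroup p ↥H := by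
  rintro ⟨hFb, A, hAb, -, -, hAp, hLn, hLt, ⟨n, hn⟩, -, -⟩
  set F := pCore p H with hF
  have hFp : IsPGroup p F := CfsgH2.isPGroup_pCore p
  have hFn : F.Normal := inferInstance
  set L := F ⊔ A with hL
  have hHt : H ≠ ⊤ := by
    rintro rfl
    have h1 : (L.map (⊤ : Subgroup G).subtype).Normal := hLn.map _ (fun x => ⟨⟨x, trivial⟩, rfl⟩)
    rcases ms_normal hG.2 h1 with h | h
    · rw [Subgroup.map_eq_bot_iff_of_injective _ (Subgroup.subtype_injective _)] at h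
      rw [h] at hL
      exact hFb (le_bot_iff.1 (hL ▸ le_sup_left))
    · apply hLt
      rw [eq_top_iff]
      intro x _
      have h2 : (x : G) ∈ L.map (⊤ : Subgroup G).subtype := by rw [h]; trivial
      obtain ⟨y, hy, hyx⟩ := h2
      rwa [← show y = x from Subtype.ext hyx]
  haveI : Group.IsSolvable H := hG.2.2.2 H hHt
  obtain ⟨M, hMn, hMF, hMb, hmin⟩ := CfsgH1.exists_minNormal_le hFb
  obtain ⟨-, s, hs, hMs⟩ := CfsgH1.elemAb_of_minNormal hMb hmin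
  haveI : Fact s.Prime := ⟨hs⟩
  have hMsp : IsPGroup s M := CfsgH1.isPGroup_of_forall_pow_eq_one hMs
  -- `s ∣ p`
  obtain ⟨x, hx, hx1⟩ := (Subgroup.bot_or_exists_ne_one _).resolve_left hMb
  have hxo : orderOf x = s := orderOf_eq_prime (hMs x hx) hx1
  have hsp : s ∣ p := by
    obtain ⟨k, hk⟩ := hFp ⟨x, hMF hx⟩
    have h1 : x ^ (p ^ k) = 1 := congrArg Subtype.val hk
    have h2 := orderOf_dvd_of_pow_eq_one h1
    rw [hxo] at h2
    exact hs.dvd_of_dvd_pow h2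
  have hn0 : n ≠ 0 := by
    rintro rfl
    rw [pow_zero, Subgroup.index_eq_one] at hn
    exact hLt hn
  have hsL : s ∣ L.index := by
    rw [hn]; exact hsp.trans (dvd_pow_self p hn0)
  obtain ⟨S, hS⟩ := exists_isSyl s H
  have hMb' : M.map H.subtype ≠ ⊥ := by
    intro h
    rw [Subgroup.map_eq_bot_iff_of_injective _ H.subtype_injective] at h
    exact hMb h
  have h1 := ms_local_sylow_normal hG hCN _ H S (M.map H.subtype) rfl hS (Subgroup.map_subtype_le _) hMb' (hMsp.map _) (by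
    have h2 := Subgroup.le_normalizer_map (H := M) H.subtype
    rw [Subgroup.normalizer_eq_top_iff.2 hMn, ← MonoidHom.range_eq_map, Subgroup.range_subtype] at h2
    exact h2)
  have hSn : (S.subgroupOf H).Normal := Subgroup.normal_subgroupOf_iff_le_normalizer hS.1 |>.2 h1
  have hSp : IsPGroup s (S.subgroupOf H) := hS.2.1.of_equiv (Subgroup.subgroupOfEquivOfLe hS.1).symm
  have hSF : S.subgroupOf H ≤ F := by
    refine CfsgH2.le_pCore hSn ?_
    intro y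
    obtain ⟨k, hk⟩ := hSp y
    refine ⟨k, ?_⟩
    obtain ⟨m, hm⟩ := hsp
    rw [hm, mul_pow, pow_mul, hk, one_pow]
  exact hS.2.2 (hsL.trans (Subgroup.index_dvd_of_le (hSF.trans le_sup_left)))

/-- Sylow subgroups are TI. -/
theorem ms_sylow_ti [Finite G] [hp : Fact p.Prime] (hG : IsMinSimpleOddOrder G) (hCN : IsCNGroup G) :
    ∀ (n : ℕ) (P Q : Subgroup G), Nat.card G - Nat.card ↥(P ⊓ Q) = n → IsSyl p P ⊤ → IsSyl p Q ⊤ → P ⊓ Q ≠ ⊥ → P = Q := by
  intro n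
  induction n using Nat.strong_induction_on with
  | _ n ih =>
  intro P Q hn hP hQ hPQ
  by_contra hne
  set D := P ⊓ Q with hD
  have hDp : IsPGroup p D := hP.2.1.to_le inf_le_left
  have hDP : D ≠ P := by
    intro h
    apply hne
    have h1 : P ≤ Q := by rw [← h]; exact inf_le_right
    exact (hP.eq_of_le hQ.2.1 h1 le_top).symm
  have hDQ : D ≠ Q := by
    intro h
    apply hne
    have h1 : Q ≤ P := by rw [← h]; exact inf_le_left
    exact (hQ.eq_of_le hP.2.1 h1 le_top)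
  have h1 := CfsgH1.lt_inf_normalizer_of_nilpotent hP.2.1.isNilpotent (inf_le_left : D ≤ P) hDP
  have h2 := CfsgH1.lt_inf_normalizer_of_nilpotent hQ.2.1.isNilpotent (inf_le_right : D ≤ Q) hDQ
  obtain ⟨S, hPS, hS⟩ := exists_isSyl_ge (hP.2.1.to_le inf_le_left : IsPGroup p ↥(P ⊓ normalizer (D : Set G))) (inf_le_right : _ ≤ normalizer (D : Set G))
  have hSn := ms_local_sylow_normal hG hCN _ (normalizer (D : Set G)) S D rfl hS Subgroup.le_normalizer hPQ hDp le_rfl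
  have hQS : Q ⊓ normalizer (D : Set G) ≤ S := by
    obtain ⟨g, hg, hgS⟩ := hS.exists_conj_le (hQ.2.1.to_le inf_le_left : IsPGroup p ↥(Q ⊓ normalizer (D : Set G))) inf_le_right
    intro y hy
    have h3 : g * y * g⁻¹ ∈ S := hgS ⟨y, hy, rfl⟩
    exact (mem_normalizer_iff.1 (hSn hg) y).2 h3
  obtain ⟨R, hSR, hR⟩ := exists_isSyl_ge hS.2.1 (le_top : S ≤ ⊤)
  have key : ∀ X : Subgroup G, IsSyl p X ⊤ → D < X ⊓ normalizer (D : Set G) → X ⊓ normalizer (D : Set G) ≤ S → X = R := by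
    intro X hX hlt hle
    have hlt' : D < X ⊓ R := lt_of_lt_of_le hlt (le_inf inf_le_left (hle.trans hSR))
    have hc : Nat.card D < Nat.card ↥(X ⊓ R) := by
      by_contra hcon
      push Not at hcon
      exact hlt'.ne (Subgroup.eq_of_le_of_card_ge hlt'.le hcon)
    have hle2 : Nat.card ↥(X ⊓ R) ≤ Nat.card G := Nat.le_of_dvd Nat.card_pos (X ⊓ R).card_subgroup_dvd_card
    refine ih _ (by omega) X R rfl hX hR ?_
    intro h
    rw [h] at hlt'
    exact not_lt_bot hlt'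
  exact hne ((key P hP h1 hPS).trans (key Q hQ h2 hQS).symm)

theorem MaxNil.cj [Finite G] {H : Subgroup G} (h : MaxNil H) (g : G) : MaxNil (CfsgH7.cj g H) := by
  refine ⟨nilpotent_map h.1 _, fun L hL hHL => ?_⟩
  have h1 := h.2 (CfsgH7.cj g⁻¹ L) (nilpotent_map hL _) (by
    intro y hy
    rw [mem_cj]
    have h2 : g * y * g⁻¹ ∈ L := hHL (by rw [mem_cj]; have : g⁻¹ * (g * y * g⁻¹) * g = y := by group
                                         rw [this]; exact hy)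
    simpa using h2)
  rw [← h1]
  ext y
  rw [mem_cj, mem_cj]
  have : g⁻¹⁻¹ * (g⁻¹ * y * g) * g⁻¹ = y := by group
  rw [this]

theorem exists_maxNil [Finite G] {X : Subgroup G} (hX : Group.IsNilpotent X) : ∃ H, MaxNil H ∧ X ≤ H := by
  obtain ⟨H, hH⟩ := (Set.toFinite {L : Subgroup G | Group.IsNilpotent L ∧ X ≤ L}).exists_maximal ⟨X, hX, le_rfl⟩
  refine ⟨H, ⟨hH.1.1, fun L hL hHL => le_antisymm (hH.2 ⟨hL, hH.1.2.trans hHL⟩ hHL) hHL⟩, hH.1.2⟩

/-- Distinct maximal nilpotent subgroups meet trivially. -/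
theorem ms_maxNil_eq [Finite G] (hG : IsMinSimpleOddOrder G) (hCN : IsCNGroup G) {H₁ H₂ : Subgroup G} (h₁ : MaxNil H₁) (h₂ : MaxNil H₂)
    (hne : H₁ ⊓ H₂ ≠ ⊥) : H₁ = H₂ := by
  have hc1 : Nat.card ↥(H₁ ⊓ H₂) ≠ 1 := fun h => hne (Subgroup.card_eq_one.1 h)
  obtain ⟨p, hp, hpH⟩ := Nat.exists_prime_and_dvd hc1
  haveI : Fact p.Prime := ⟨hp⟩
  obtain ⟨x, hx⟩ := exists_prime_orderOf_dvd_card' (G := ↥(H₁ ⊓ H₂)) p hpH
  obtain ⟨P₁, hP₁⟩ := CfsgH1.exists_isSylowOf p H₁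
  obtain ⟨P₂, hP₂⟩ := CfsgH1.exists_isSylowOf p H₂
  have hp1 : p ∣ Nat.card H₁ := hpH.trans (Subgroup.card_dvd_of_le inf_le_left)
  have hp2 : p ∣ Nat.card H₂ := hpH.trans (Subgroup.card_dvd_of_le inf_le_right)
  have hs1 : IsSyl p P₁ ⊤ := CfsgH1.isSylowOf_iff.1 (h₁.sylow hCN hp1 hP₁)
  have hs2 : IsSyl p P₂ ⊤ := CfsgH1.isSylowOf_iff.1 (h₂.sylow hCN hp2 hP₂)
  have hmem : ∀ H P : Subgroup G, Group.IsNilpotent H → CfsgH1.IsSylowOf p P H → (x : G) ∈ H → (x : G) ∈ P := by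
    intro H P hH hP hxH
    have h0 : ∀ (p : ℕ) (_ : Fact p.Prime) (P : Sylow p ↥H), (P : Subgroup ↥H).Normal :=
      ((Group.isNilpotent_of_finite_tfae (G := ↥H)).out 0 3).1 hH
    have h1 := syl_normal_iff (X := H) (S := P) (p := p) (CfsgH1.isSylowOf_iff.1 hP) (h0 p ⟨hp⟩)
    have hxp : IsPGroup p (Subgroup.zpowers (x : G)) := by
      rw [IsPGroup.iff_card]
      exact ⟨1, by rw [Nat.card_zpowers, Subgroup.orderOf_coe, hx, pow_one]⟩
    obtain ⟨g, hg, hgP⟩ := IsSyl.exists_conj_le (p := p) (T := P) (H := H) (CfsgH1.isSylowOf_iff.1 hP) hxp ((Subgroup.zpowers_le).2 hxH)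
    have h3 : g * (x : G) * g⁻¹ ∈ P := hgP ⟨(x : G), Subgroup.mem_zpowers _, rfl⟩
    exact (mem_normalizer_iff.1 (h1 hg) _).2 h3
  have hx1 := hmem H₁ P₁ h₁.1 hP₁ x.2.1
  have hx2 := hmem H₂ P₂ h₂.1 hP₂ x.2.2
  have hxne : (x : G) ≠ 1 := by
    intro h
    rw [← Subgroup.orderOf_coe, h, orderOf_one] at hx
    exact hp.one_lt.ne hx
  have hPP : P₁ = P₂ := ms_sylow_ti hG hCN _ P₁ P₂ rfl hs1 hs2 (fun h => hxne (by
    have : (x : G) ∈ P₁ ⊓ P₂ := ⟨hx1, hx2⟩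
    rwa [h, Subgroup.mem_bot] at this))
  subst hPP
  have hPb : P₁ ≠ ⊥ := CfsgH1.isSylowOf_ne_bot hP₁ hp1
  obtain ⟨z, hz, hz1⟩ := (Subgroup.bot_or_exists_ne_one _).resolve_left
    (CfsgH1.inf_centralizer_ne_bot_of_nilpotent hs1.2.1.isNilpotent le_rfl Subgroup.le_normalizer hPb)
  obtain ⟨hzP, hzC⟩ := Subgroup.mem_inf.1 hz
  rw [← h₁.cent_eq hCN hz1 (le_centralizer_of_sylow_center h₁.1 hP₁ hzP hzC), h₂.cent_eq hCN hz1 (le_centralizer_of_sylow_center h₂.1 hP₂ hzP hzC)]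

theorem ms_nontrivial (hG : IsMinimalSimple G) : Nontrivial G := hG.1.toNontrivial

theorem ms_maxNil_ne_bot [Finite G] (hG : IsMinimalSimple G) {H : Subgroup G} (h : MaxNil H) : H ≠ ⊥ := by
  rintro rfl
  haveI := ms_nontrivial hG
  obtain ⟨x, hx⟩ := exists_ne (1 : G)
  have h1 := h.2 (Subgroup.zpowers x) (by
    letI : CommGroup (Subgroup.zpowers x) := IsCyclic.commGroup
    exact CommGroup.isNilpotent) bot_le
  exact hx (Subgroup.zpowers_eq_bot.1 h1)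

theorem ms_maxNil_ne_top [Finite G] (hG : IsMinimalSimple G) {H : Subgroup G} (h : MaxNil H) : H ≠ ⊤ := by
  rintro rfl
  apply ms_top_not_solvable hG
  haveI := h.1
  have h1 : Group.IsSolvable (⊤ : Subgroup G) := inferInstance
  exact Group.isSolvable_of_surjective (f := (Subgroup.topEquiv (G := G)).toMonoidHom) (Subgroup.topEquiv (G := G)).surjective

theorem ms_cent_le [Finite G] (hG : IsMinSimpleOddOrder G) (hCN : IsCNGroup G) {H : Subgroup G} (h : MaxNil H) {x : G} (hx : x ∈ H) (hx1 : x ≠ 1) :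
    centralizer ({x} : Set G) ≤ H := by
  obtain ⟨H', h', hle⟩ := exists_maxNil (hCN x hx1)
  have h1 : H = H' := by
    apply ms_maxNil_eq hG hCN h h'
    intro hb
    have : x ∈ H ⊓ H' := ⟨hx, hle (mem_centralizer_singleton_iff.2 rfl)⟩
    rw [hb, Subgroup.mem_bot] at this
    exact hx1 this
  rw [h1]; exact hle

/-- A maximal nilpotent subgroup is not self-normalizing. -/
theorem ms_normalizer_ne [Finite G] (hG : IsMinSimpleOddOrder G) (hCN : IsCNGroup G) {H : Subgroup G} (h : MaxNil H) :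
    normalizer (H : Set G) ≠ H := by
  intro hN
  have hTI : ∀ g : G, g ∉ H → H ⊓ (MulAut.conj g • H) = ⊥ := by
    intro g hg
    by_contra hcon
    apply hg
    have h1 : H = CfsgH7.cj g H := ms_maxNil_eq hG hCN h (h.cj g) hcon
    rw [← hN, mem_normalizer_iff]
    intro y
    have h2 : g * y * g⁻¹ ∈ CfsgH7.cj g H ↔ y ∈ H := by
      rw [mem_cj]
      have : g⁻¹ * (g * y * g⁻¹) * g = y := by group
      rw [this]
    rw [← h1] at h2
    exact h2.symm
  obtain ⟨N, -, hNn, hNc⟩ := CfsgH1.frobenius_kernel hTI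
  rcases ms_normal hG.2 hNn with hb | hb
  · subst hb
    exact ms_maxNil_ne_top hG.2 h (by simpa using hNc.sup_eq_top)
  · subst hb
    exact ms_maxNil_ne_bot hG.2 h (by simpa using hNc.disjoint.eq_bot)

theorem ms_maxNil_fittingHallOf [Finite G] (hCN : IsCNGroup G) {H : Subgroup G} (h : MaxNil H) :
    fittingHallOf (normalizer (H : Set G)) = H := by
  refine h.2 _ ?_ (le_fittingHallOf _ Subgroup.le_normalizer le_rfl h.1 ?_)
  · exact nilpotent_map fittingHall_nilpotent _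
  · exact (h.hall hCN).coprime_dvd_right (Subgroup.relIndex_dvd_index_of_le (Subgroup.le_normalizer))

theorem ms_norm_struct [Finite G] (hG : IsMinSimpleOddOrder G) (hCN : IsCNGroup G) {H : Subgroup G} (h : MaxNil H) :
    ∃ E : Subgroup G, E ≤ normalizer (H : Set G) ∧ H ⊔ E = normalizer (H : Set G) ∧ H ⊓ E = ⊥ ∧ E ≠ ⊥ ∧ Group.IsNilpotent E ∧
      IsComplIn H E (normalizer (H : Set G)) ∧ ∀ e ∈ E, e ≠ 1 → H ⊓ centralizer ({e} : Set G) = ⊥ := by
  set N := normalizer (H : Set G) with hN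
  have hHN : H ≤ N := Subgroup.le_normalizer
  have hfh := ms_maxNil_fittingHallOf hCN h
  rw [← hN] at hfh
  have hnn : ¬ Group.IsNilpotent N := fun hn => ms_normalizer_ne hG hCN h (h.2 N hn hHN)
  have hfb : fittingHall N ≠ ⊥ := by
    intro hb
    rw [fittingHallOf, hb, Subgroup.map_bot] at hfh
    exact ms_maxNil_ne_bot hG.2 h hfh.symm
  obtain ⟨E, hEc, -, hEb, hEn, -⟩ := cn_struct' (cn_subgroup hCN N) hnn hfb
  have hfh' : (fittingHall ↥N).map N.subtype = H := hfh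
  have h1 : H ⊔ E.map N.subtype = N := by
    have := congrArg (Subgroup.map N.subtype) hEc.sup_eq_top
    rw [Subgroup.map_sup, ← MonoidHom.range_eq_map, Subgroup.range_subtype, hfh'] at this
    exact this
  have h2 : H ⊓ E.map N.subtype = ⊥ := by
    have := congrArg (Subgroup.map N.subtype) hEc.disjoint.eq_bot
    rw [Subgroup.map_inf _ _ _ N.subtype_injective, Subgroup.map_bot, hfh'] at this
    exact this
  refine ⟨E.map N.subtype, Subgroup.map_subtype_le _, h1, h2, ?_, nilpotent_map hEn _, ⟨hHN, Subgroup.map_subtype_le _, h2, ?_⟩, ?_⟩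
  · rw [Ne, Subgroup.map_eq_bot_iff_of_injective _ N.subtype_injective]; exact hEb
  · intro m hm
    have hm' : m ∈ H ⊔ E.map N.subtype := by rw [h1]; exact hm
    obtain ⟨a, ha, b, hb, hab⟩ := (CfsgH1.mem_sup_of_le_normalizer' (Subgroup.map_subtype_le _ : E.map N.subtype ≤ N)).1 hm'
    exact ⟨a, ha, b, hb, hab.symm⟩
  · intro e he he1
    rw [eq_bot_iff]
    rintro x ⟨hx, hxe⟩
    rw [Subgroup.mem_bot]
    by_contra hx1
    have h3 : e ∈ H := ms_cent_le hG hCN h hx hx1 (mem_centralizer_singleton_iff.2 (mem_centralizer_singleton_iff.1 hxe).symm)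
    have h4 : e ∈ H ⊓ E.map N.subtype := ⟨h3, he⟩
    rw [h2, Subgroup.mem_bot] at h4
    exact he1 h4

theorem ms_overgroup [Finite G] (hG : IsMinSimpleOddOrder G) (hCN : IsCNGroup G) {M : Subgroup G} (hMt : M ≠ ⊤) (hMb : M ≠ ⊥) :
    ∃ H : Subgroup G, MaxNil H ∧ M ≤ normalizer (H : Set G) := by
  haveI : Group.IsSolvable M := hG.2.2.2 M hMt
  haveI : Nontrivial M := (Subgroup.nontrivial_iff_ne_bot M).2 hMb
  obtain ⟨D, hDn, hDb, -, -, p, hp, -, hDp⟩ := CfsgH1.exists_minNormal_pgroup (G := M)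
  haveI : Fact p.Prime := ⟨hp⟩
  obtain ⟨S, hS⟩ := exists_isSyl p M
  have hDb' : D.map M.subtype ≠ ⊥ := by
    intro h
    rw [Subgroup.map_eq_bot_iff_of_injective _ M.subtype_injective] at h
    exact hDb h
  have h1 := ms_local_sylow_normal hG hCN _ M S (D.map M.subtype) rfl hS (Subgroup.map_subtype_le _) hDb' (hDp.map _) (by
    have h2 := Subgroup.le_normalizer_map (H := D) M.subtype
    rw [Subgroup.normalizer_eq_top_iff.2 hDn, ← MonoidHom.range_eq_map, Subgroup.range_subtype] at h2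
    exact h2)
  have hSb : S ≠ ⊥ := by
    intro h
    obtain ⟨g, hg, hgD⟩ := hS.exists_conj_le (hDp.map M.subtype) (Subgroup.map_subtype_le _)
    rw [h, le_bot_iff, Subgroup.map_eq_bot_iff_of_injective _ (MulAut.conj g).injective] at hgD
    exact hDb' hgD
  obtain ⟨H, hH, hSH⟩ := exists_maxNil hS.2.1.isNilpotent
  refine ⟨H, hH, fun m hm => ?_⟩
  have h2 : H = CfsgH7.cj m H := by
    apply ms_maxNil_eq hG hCN hH (hH.cj m)
    obtain ⟨s, hs, hs1⟩ := (Subgroup.bot_or_exists_ne_one _).resolve_left hSb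
    intro hb
    have h3 : s ∈ H ⊓ CfsgH7.cj m H := by
      have h4 := (mem_normalizer_iff.1 (Subgroup.inv_mem _ (h1 hm)) s).1 hs
      rw [inv_inv] at h4
      exact Subgroup.mem_inf.2 ⟨hSH hs, mem_cj.2 (hSH h4)⟩
    rw [hb, Subgroup.mem_bot] at h3
    exact hs1 h3
  rw [mem_normalizer_iff]
  intro y
  have h3 : m * y * m⁻¹ ∈ CfsgH7.cj m H ↔ y ∈ H := by
    rw [mem_cj]
    have : m⁻¹ * (m * y * m⁻¹) * m = y := by group
    rw [this]
  rw [← h2] at h3
  exact h3.symm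

theorem ms_maxNil_coprime [Finite G] (hG : IsMinSimpleOddOrder G) (hCN : IsCNGroup G) {H₁ H₂ : Subgroup G} (h₁ : MaxNil H₁) (h₂ : MaxNil H₂) :
    (∃ g : G, H₂ = CfsgH7.cj g H₁) ∨ (Nat.card H₁).Coprime (Nat.card H₂) := by
  by_cases hc : (Nat.card H₁).Coprime (Nat.card H₂)
  · exact Or.inr hc
  left
  obtain ⟨p, hp, hp1, hp2⟩ := Nat.Prime.not_coprime_iff_dvd.1 hc
  haveI : Fact p.Prime := ⟨hp⟩
  obtain ⟨P₁, hP₁⟩ := CfsgH1.exists_isSylowOf p H₁
  obtain ⟨P₂, hP₂⟩ := CfsgH1.exists_isSylowOf p H₂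
  have hs1 : IsSyl p P₁ ⊤ := CfsgH1.isSylowOf_iff.1 (h₁.sylow hCN hp1 hP₁)
  have hs2 : IsSyl p P₂ ⊤ := CfsgH1.isSylowOf_iff.1 (h₂.sylow hCN hp2 hP₂)
  obtain ⟨g, -, hg⟩ := hs1.conj hs2
  refine ⟨g, (ms_maxNil_eq hG hCN (h₁.cj g) h₂ ?_).symm⟩
  intro hb
  have h1 : P₂ ≤ CfsgH7.cj g H₁ ⊓ H₂ := by
    refine le_inf ?_ (CfsgH1.isSylowOf_le hP₂)
    rw [← hg]
    exact cj_mono (CfsgH1.isSylowOf_le hP₁)
  rw [hb] at h1
  exact CfsgH1.isSylowOf_ne_bot hP₂ hp2 (le_bot_iff.1 h1)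

theorem ms_isCoatom [Finite G] (hG : IsMinSimpleOddOrder G) (hCN : IsCNGroup G) {H : Subgroup G} (h : MaxNil H) :
    IsCoatom (normalizer (H : Set G)) := by
  have hHb := ms_maxNil_ne_bot hG.2 h
  refine ⟨ms_normalizer_ne_top hG.2 hHb (ms_maxNil_ne_top hG.2 h), fun M hM => ?_⟩
  by_contra hMt
  have hHN : H ≤ normalizer (H : Set G) := Subgroup.le_normalizer
  obtain ⟨H', h', hMH'⟩ := ms_overgroup hG hCN hMt (fun hb => not_lt_bot (hb ▸ hM))
  have hne : H ≠ H' := by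
    rintro rfl
    exact absurd hM (not_lt_of_ge hMH')
  have hinf : H ⊓ H' = ⊥ := by
    by_contra hcon
    exact hne (ms_maxNil_eq hG hCN h h' hcon)
  have hHM : H ≤ normalizer (H' : Set G) := hHN.trans (hM.le.trans hMH')
  have hcop : (Nat.card H').Coprime (Nat.card H) := by
    by_contra hc
    obtain ⟨p, hp, hp2, hp1⟩ := Nat.Prime.not_coprime_iff_dvd.1 hc
    haveI : Fact p.Prime := ⟨hp⟩
    obtain ⟨P₁, hP₁⟩ := CfsgH1.exists_isSylowOf p H
    obtain ⟨P₂, hP₂⟩ := CfsgH1.exists_isSylowOf p H'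
    have hs1 : IsSyl p P₁ ⊤ := CfsgH1.isSylowOf_iff.1 (h.sylow hCN hp1 hP₁)
    have hs2 : IsSyl p P₂ ⊤ := CfsgH1.isSylowOf_iff.1 (h'.sylow hCN hp2 hP₂)
    have h1 : IsSyl p P₁ (normalizer (H' : Set G)) := hs1.mono ((CfsgH1.isSylowOf_le hP₁).trans hHM) le_top
    have h2 : IsSyl p P₂ (normalizer (H' : Set G)) := hs2.mono ((CfsgH1.isSylowOf_le hP₂).trans Subgroup.le_normalizer) le_top
    obtain ⟨g, hg, hgP⟩ := h2.conj h1
    apply CfsgH1.isSylowOf_ne_bot hP₁ hp1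
    rw [eq_bot_iff, ← hinf]
    refine le_inf (CfsgH1.isSylowOf_le hP₁) ?_
    rw [← hgP]
    rintro _ ⟨y, hy, rfl⟩
    exact (mem_normalizer_iff.1 hg y).1 (CfsgH1.isSylowOf_le hP₂ hy)
  obtain ⟨E, hEN, hHE, hHEb, -, hEn, hcomp, -⟩ := ms_norm_struct hG hCN h'
  set K := E ⊓ (H' ⊔ H) with hK
  have he : H' ⊔ H = H' ⊔ K := by
    apply le_antisymm
    · intro x hx
      obtain ⟨a, ha, e, he, hae⟩ := hcomp.2.2.2 x ((sup_le Subgroup.le_normalizer hHM : H' ⊔ H ≤ _) hx)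
      rw [hae]
      refine Subgroup.mul_mem_sup ha ⟨he, ?_⟩
      have h1 : e = a⁻¹ * x := by rw [hae]; group
      rw [h1]
      exact (H' ⊔ H).mul_mem ((H' ⊔ H).inv_mem (Subgroup.mem_sup_left ha)) hx
    · exact sup_le le_sup_left inf_le_right
  obtain ⟨g, hg, hgK⟩ := CfsgH1.sz_conj_internal (N := H') (H := H) (K := K) hHM (inf_le_left.trans hEN) hcop
    (Or.inl (by haveI := h'.1; infer_instance)) he (by rw [eq_bot_iff, ← hHEb]; exact inf_le_inf_left _ inf_le_left)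
  have hgE : E = K := by
    have h1 : MaxNil K := by rw [← hgK]; exact h.cj g
    exact h1.2 E hEn inf_le_left
  have hHH : H' ⊔ H = normalizer (H' : Set G) := by rw [he, ← hgE, hHE]
  apply ms_normalizer_ne hG hCN h
  refine le_antisymm (fun y hy => ?_) hHN
  have hy' : y ∈ H' ⊔ H := by rw [hHH]; exact hMH' (hM.le hy)
  obtain ⟨a, ha, t, ht, rfl⟩ := (CfsgH1.mem_sup_of_le_normalizer' hHM).1 hy'
  have haN : a ∈ normalizer (H : Set G) := by
    have := (normalizer (H : Set G)).mul_mem hy (Subgroup.inv_mem _ (hHN ht))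
    rwa [mul_inv_cancel_right] at this
  have ha1 : a = 1 := by
    obtain ⟨s, hs, hs1⟩ := (Subgroup.bot_or_exists_ne_one _).resolve_left hHb
    have h1 : a * s * a⁻¹ * s⁻¹ ∈ H ⊓ H' := by
      refine ⟨H.mul_mem ((mem_normalizer_iff.1 haN s).1 hs) (H.inv_mem hs), ?_⟩
      have h2 : a * s * a⁻¹ * s⁻¹ = a * (s * a⁻¹ * s⁻¹) := by group
      rw [h2]
      exact H'.mul_mem ha ((mem_normalizer_iff.1 (hHM hs) _).1 (H'.inv_mem ha))
    rw [hinf, Subgroup.mem_bot, mul_inv_eq_one, mul_inv_eq_iff_eq_mul] at h1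
    have h3 : a ∈ H := ms_cent_le hG hCN h hs hs1 (mem_centralizer_singleton_iff.2 h1)
    have h4 : a ∈ H ⊓ H' := ⟨h3, ha⟩
    rwa [hinf, Subgroup.mem_bot] at h4
  rw [ha1, one_mul]
  exact ht

theorem ms_coatom_eq [Finite G] (hG : IsMinSimpleOddOrder G) (hCN : IsCNGroup G) {M : Subgroup G} (hM : IsCoatom M) :
    ∃ H : Subgroup G, MaxNil H ∧ M = normalizer (H : Set G) := by
  have hMb : M ≠ ⊥ := by
    rintro rfl
    obtain ⟨H, hH, -⟩ := exists_maxNil (G := G) (X := ⊥) inferInstance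
    exact ms_maxNil_ne_top hG.2 hH (hM.2 H (bot_lt_iff_ne_bot.2 (ms_maxNil_ne_bot hG.2 hH)))
  obtain ⟨H, hH, hle⟩ := ms_overgroup hG hCN hM.1 hMb
  refine ⟨H, hH, ?_⟩
  by_contra hne
  exact (ms_isCoatom hG hCN hH).1 (hM.2 _ (lt_of_le_of_ne hle hne))

end CfsgH3
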