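import Mathlib

set_option autoImplicit false

/-!
Counting commuting pairs: class numbers of subgroups and quotients.
-/

namespace CfsgH3

theorem card_comm_coset_le {G : Type*} [Group G] (N : Subgroup G) [Finite N] (x b : G) :
    Nat.card {n : N // Commute x (b * n)} ≤ Nat.card {n : N // Commute x (n : G)} := by
  by_cases h : Nonempty {n : N // Commute x (b * n)}
  · obtain ⟨⟨n0, hn0⟩⟩ := h
    refine Nat.card_le_card_of_injective (fun n => ⟨n0⁻¹ * n.1, ?_⟩) ?_
    · have h1 := (hn0.inv_right).mul_right n.2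
      have h2 : (b * (n0 : G))⁻¹ * (b * (n.1 : G)) = ((n0⁻¹ * n.1 : N) : G) := by
        push_cast
        group
      rwa [h2] at h1
    · intro m n hmn
      have h1 : n0⁻¹ * m.1 = n0⁻¹ * n.1 := congrArg Subtype.val hmn
      exact Subtype.ext (mul_left_cancel h1)
  · rw [not_nonempty_iff] at h
    rw [Nat.card_of_isEmpty]
    exact Nat.zero_le _

theorem card_pairs_eq_sum' {A B : Type*} [Fintype A] [Finite B] (P : A → B → Prop) :
    Nat.card {p : A × B // P p.1 p.2} = ∑ a, Nat.card {b : B // P a b} := by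
  have e : {p : A × B // P p.1 p.2} ≃ Σ a : A, {b : B // P a b} :=
    { toFun := fun p => ⟨p.1.1, p.1.2, p.2⟩
      invFun := fun p => ⟨(p.1, p.2.1), p.2.2⟩
      left_inv := fun p => rfl
      right_inv := fun p => rfl }
  rw [Nat.card_congr e, Nat.card_sigma]

theorem card_pairs_swap {A B : Type*} (P : A → B → Prop) :
    Nat.card {p : A × B // P p.1 p.2} = Nat.card {p : B × A // P p.2 p.1} :=
  Nat.card_congr
    { toFun := fun p => ⟨(p.1.2, p.1.1), p.2⟩
      invFun := fun p => ⟨(p.1.2, p.1.1), p.2⟩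
      left_inv := fun p => rfl
      right_inv := fun p => rfl }

theorem card_comm_cosets_le {G : Type*} [Group G] (N : Subgroup G) [Finite N] (a b : G) :
    Nat.card {p : N × N // Commute (a * p.1) (b * p.2)} ≤ Nat.card {p : N × N // Commute p.1 p.2} := by
  classical
  haveI := Fintype.ofFinite N
  rw [card_pairs_eq_sum' (fun p q : N => Commute (a * (p : G)) (b * q))]
  calc _ ≤ ∑ p : N, Nat.card {q : N // Commute (a * (p : G)) (q : G)} :=
        Finset.sum_le_sum fun p _ => card_comm_coset_le N _ b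
    _ = Nat.card {p : N × N // Commute (a * (p.1 : G)) (p.2 : G)} :=
        (card_pairs_eq_sum' (fun p q : N => Commute (a * (p : G)) (q : G))).symm
    _ = Nat.card {p : N × N // Commute (p.1 : G) (a * (p.2 : G))} := by
        rw [card_pairs_swap (fun p q : N => Commute (a * (p : G)) (q : G))]
        exact Nat.card_congr (Equiv.subtypeEquivRight fun p => ⟨Commute.symm, Commute.symm⟩)
    _ = ∑ p : N, Nat.card {q : N // Commute (p : G) (a * (q : G))} :=
        card_pairs_eq_sum' (fun p q : N => Commute (p : G) (a * (q : G)))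
    _ ≤ ∑ p : N, Nat.card {q : N // Commute (p : G) (q : G)} :=
        Finset.sum_le_sum fun p _ => card_comm_coset_le N _ a
    _ = Nat.card {p : N × N // Commute (p.1 : G) (p.2 : G)} :=
        (card_pairs_eq_sum' (fun p q : N => Commute (p : G) (q : G))).symm
    _ = Nat.card {p : N × N // Commute p.1 p.2} := by
        refine Nat.card_congr (Equiv.subtypeEquivRight fun p => ?_)
        constructor
        · intro h; exact Subtype.ext h
        · intro h; exact congrArg Subtype.val h

theorem card_comm_le_quotient {G : Type*} [Group G] [Finite G] (N : Subgroup G) [N.Normal] :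
    Nat.card {p : G × G // Commute p.1 p.2} ≤
      Nat.card {p : (G ⧸ N) × (G ⧸ N) // Commute p.1 p.2} * Nat.card {p : N × N // Commute p.1 p.2} := by
  classical
  haveI := Fintype.ofFinite G
  haveI : Fintype {p : (G ⧸ N) × (G ⧸ N) // Commute p.1 p.2} := Fintype.ofFinite _
  let T := Σ q : {p : (G ⧸ N) × (G ⧸ N) // Commute p.1 p.2},
    {p : N × N // Commute (q.1.1.out * (p.1 : G)) (q.1.2.out * (p.2 : G))}
  have hmem : ∀ x : G, ((x : G ⧸ N).out)⁻¹ * x ∈ N := by
    intro x
    rw [← QuotientGroup.eq]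
    exact QuotientGroup.out_eq' _
  have hmul : ∀ x : G, (x : G ⧸ N).out * (((x : G ⧸ N).out)⁻¹ * x) = x := by intro x; group
  let f : {p : G × G // Commute p.1 p.2} → T := fun p =>
    ⟨⟨((p.1.1 : G ⧸ N), (p.1.2 : G ⧸ N)), p.2.map (QuotientGroup.mk' N)⟩,
      ⟨(⟨_, hmem p.1.1⟩, ⟨_, hmem p.1.2⟩), by
        change Commute ((p.1.1 : G ⧸ N).out * (((p.1.1 : G ⧸ N).out)⁻¹ * p.1.1)) ((p.1.2 : G ⧸ N).out * (((p.1.2 : G ⧸ N).out)⁻¹ * p.1.2))
        rw [hmul, hmul]
        exact p.2⟩⟩
  let g : T → G × G := fun t => (t.1.1.1.out * (t.2.1.1 : G), t.1.1.2.out * (t.2.1.2 : G))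
  have hfg : ∀ p, g (f p) = p.1 := by
    intro p
    exact Prod.ext (hmul _) (hmul _)
  have hf : Function.Injective f := by
    intro p q hpq
    apply Subtype.ext
    rw [← hfg p, ← hfg q, hpq]
  calc _ ≤ Nat.card T := Nat.card_le_card_of_injective f hf
    _ = ∑ q : {p : (G ⧸ N) × (G ⧸ N) // Commute p.1 p.2},
      Nat.card {p : N × N // Commute (q.1.1.out * (p.1 : G)) (q.1.2.out * (p.2 : G))} := Nat.card_sigma
    _ ≤ ∑ q : {p : (G ⧸ N) × (G ⧸ N) // Commute p.1 p.2}, Nat.card {p : N × N // Commute p.1 p.2} :=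
      Finset.sum_le_sum fun q _ => card_comm_cosets_le N _ _
    _ = _ := by
      rw [Finset.sum_const, Finset.card_univ, ← Nat.card_eq_fintype_card, smul_eq_mul]

end CfsgH3
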