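import Mathlib
import Cfsg.Prelude.Def_Solvable
import Cfsg.Agent.H3.PBasic

set_option autoImplicit false

/-!
Frobenius groups as semidirect products with a fixed-point-free action.
-/

namespace CfsgH3

open scoped Pointwise

theorem frob_semidirect {N H : Type*} [Group N] [Group H] [Nontrivial N] [Nontrivial H] (φ : H →* MulAut N)
    (hf : ∀ h : H, h ≠ 1 → ∀ n : N, φ h n = n → n = 1) :
    Cfsg.IsFrobeniusComplement (SemidirectProduct.inr : H →* N ⋊[φ] H).range := by
  refine ⟨?_, ?_, ?_⟩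
  · intro h
    obtain ⟨k, hk⟩ := exists_ne (1 : H)
    have h1 : (SemidirectProduct.inr k : N ⋊[φ] H) ∈ (SemidirectProduct.inr : H →* N ⋊[φ] H).range := ⟨k, rfl⟩
    rw [h, Subgroup.mem_bot] at h1
    apply hk
    have := congrArg SemidirectProduct.right h1
    simpa using this
  · intro h
    obtain ⟨n, hn⟩ := exists_ne (1 : N)
    have h1 : (SemidirectProduct.inl n : N ⋊[φ] H) ∈ (SemidirectProduct.inr : H →* N ⋊[φ] H).range := by rw [h]; trivial
    obtain ⟨k, hk⟩ := h1
    apply hn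
    have := congrArg SemidirectProduct.left hk
    simpa using this.symm
  · intro g hg
    rw [eq_bot_iff]
    intro x hx
    obtain ⟨k, hk⟩ := (Subgroup.mem_inf.1 hx).1
    obtain ⟨l, hl⟩ := mem_conj_smul_iff.1 (Subgroup.mem_inf.1 hx).2
    by_cases hk1 : k = 1
    · rw [Subgroup.mem_bot, ← hk, hk1, map_one]
    exfalso
    apply hg
    have h1 : g * SemidirectProduct.inr l = x * g := by rw [hl]; group
    rw [← hk] at h1
    have h2 := congrArg SemidirectProduct.left h1
    simp only [SemidirectProduct.mul_left, SemidirectProduct.left_inr, map_one, mul_one,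
      SemidirectProduct.right_inr, one_mul] at h2
    have h3 := hf k hk1 g.left h2.symm
    refine ⟨g.right, ?_⟩
    apply SemidirectProduct.ext
    · simp [h3]
    · simp

theorem exists_frob_semidirect {N H : Type} [Group N] [Group H] [Finite N] [Finite H] [Nontrivial N] [Nontrivial H] (φ : H →* MulAut N)
    (hf : ∀ h : H, h ≠ 1 → ∀ n : N, φ h n = n → n = 1) {K : Type*} [Group K] (e : H ≃* K) :
    ∃ (L : Type) (_ : Group L) (_ : Finite L) (H : Subgroup L), Cfsg.IsFrobeniusComplement H ∧ Nonempty (H ≃* K) := by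
  refine ⟨N ⋊[φ] H, inferInstance, ?_, _, frob_semidirect φ hf, ⟨?_⟩⟩
  · exact Finite.of_equiv (N × H) (SemidirectProduct.equivProd).symm
  · exact (MonoidHom.ofInjective SemidirectProduct.inr_injective).symm.trans e

/-- the action on the multiplicative version of an additive group -/
def toMulAutMult (H A : Type*) [Group H] [AddCommGroup A] [DistribMulAction H A] : H →* MulAut (Multiplicative A) :=
  (MulAutMultiplicative A).symm.toMonoidHom.comp (DistribMulAction.toAddAut H A)

theorem toMulAutMult_apply {H A : Type*} [Group H] [AddCommGroup A] [DistribMulAction H A] (h : H) (a : A) :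
    toMulAutMult H A h (Multiplicative.ofAdd a) = Multiplicative.ofAdd (h • a) := rfl

theorem exists_frob_distrib {A H : Type} [AddCommGroup A] [Group H] [Finite A] [Finite H] [Nontrivial A] [Nontrivial H]
    [DistribMulAction H A]
    (hf : ∀ h : H, h ≠ 1 → ∀ a : A, h • a = a → a = 0) {K : Type*} [Group K] (e : H ≃* K) :
    ∃ (L : Type) (_ : Group L) (_ : Finite L) (H : Subgroup L), Cfsg.IsFrobeniusComplement H ∧ Nonempty (H ≃* K) := by
  refine exists_frob_semidirect (toMulAutMult H A) ?_ e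
  intro h hh n hn
  exact hf h hh n.toAdd hn

/-- an element of `SL₂` of order prime to the characteristic fixing a nonzero vector is trivial -/
theorem sl2_fpf {F : Type*} [Field F] {p : ℕ} [hp : Fact p.Prime] [CharP F p] (h : Matrix.SpecialLinearGroup (Fin 2) F)
    (hh : (orderOf h).Coprime p) (hfin : orderOf h ≠ 0) (v : Fin 2 → F) (hv : Matrix.mulVec (h : Matrix (Fin 2) (Fin 2) F) v = v) (hv0 : v ≠ 0) :
    h = 1 := by
  have hdet := h.det_coe
  rw [Matrix.det_fin_two] at hdet
  set M : Matrix (Fin 2) (Fin 2) F := (h : Matrix (Fin 2) (Fin 2) F) with hM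
  have e0 : M 0 0 * v 0 + M 0 1 * v 1 = v 0 := by
    have := congrFun hv 0
    simpa [Matrix.mulVec, dotProduct, Fin.sum_univ_two] using this
  have e1 : M 1 0 * v 0 + M 1 1 * v 1 = v 1 := by
    have := congrFun hv 1
    simpa [Matrix.mulVec, dotProduct, Fin.sum_univ_two] using this
  -- trace is 2
  have htr : M 0 0 + M 1 1 = 2 := by
    have h1 : (M 0 0 + M 1 1 - 2) * v 0 = 0 := by linear_combination (-(M 1 1) + 1) * e0 + (M 0 1) * e1 + v 0 * hdet 
    have h2 : (M 0 0 + M 1 1 - 2) * v 1 = 0 := by linear_combination (-(M 0 0) + 1) * e1 + (M 1 0) * e0 + v 1 * hdet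
    rcases mul_eq_zero.1 h1 with h3 | h3
    · exact sub_eq_zero.1 h3
    · rcases mul_eq_zero.1 h2 with h4 | h4
      · exact sub_eq_zero.1 h4
      · exfalso
        apply hv0
        funext i
        fin_cases i
        · exact h3
        · exact h4
  -- (M - 1)^2 = 0
  have hsq : (M - 1) ^ 2 = 0 := by
    ext i j
    rw [pow_two]
    fin_cases i <;> fin_cases j <;> simp [Matrix.mul_apply, Fin.sum_univ_two, Matrix.sub_apply]
    · linear_combination M 0 0 * htr - hdet
    · linear_combination M 0 1 * htr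
    · linear_combination M 1 0 * htr
    · linear_combination M 1 1 * htr - hdet
  have hp1 : M ^ p = 1 := by
    have hc : (M - 1) ^ p = M ^ p - 1 := by
      haveI : CharP (Matrix (Fin 2) (Fin 2) F) p := Matrix.charP p
      rw [sub_pow_char_of_commute p (Commute.one_right M), one_pow]
    have h2 : (M - 1) ^ p = 0 := by
      rw [← Nat.sub_add_cancel hp.out.two_le, pow_add, hsq, mul_zero]
    rw [h2] at hc
    exact (sub_eq_zero.1 hc.symm)
  have hhp : h ^ p = 1 := by
    apply Subtype.ext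
    rw [Matrix.SpecialLinearGroup.coe_pow, Matrix.SpecialLinearGroup.coe_one]
    exact hp1
  rw [← orderOf_eq_one_iff]
  exact Nat.Coprime.eq_one_of_dvd hh (orderOf_dvd_of_pow_eq_one hhp)

end CfsgH3

namespace CfsgH3

theorem exists_unit_order {p : ℕ} [hp : Fact p.Prime] {m : ℕ} (hm : m ∣ p - 1) : ∃ u : (ZMod p)ˣ, orderOf u = m := by
  obtain ⟨g, hg⟩ := IsCyclic.exists_ofOrder_eq_natCard (α := (ZMod p)ˣ)
  rw [Nat.card_eq_fintype_card, ZMod.card_units] at hg
  obtain ⟨k, hk⟩ := hm
  refine ⟨g ^ k, ?_⟩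
  have hp1 : 0 < p - 1 := Nat.sub_pos_of_lt hp.out.one_lt
  have hk0 : k ≠ 0 := by rintro rfl; rw [mul_zero] at hk; omega
  rw [orderOf_pow_of_dvd hk0 (by rw [hg, hk]; exact Dvd.intro_left _ rfl), hg, hk]
  exact Nat.mul_div_cancel _ (Nat.pos_of_ne_zero hk0)

/-- the diagonal torus of `SL₂` -/
def sl2diag (F : Type*) [Field F] : Fˣ →* Matrix.SpecialLinearGroup (Fin 2) F :=
  { toFun := fun a => ⟨!![(a : F), 0; 0, ((a⁻¹ : Fˣ) : F)], by simp [Matrix.det_fin_two]⟩
    map_one' := by
      apply Subtype.ext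
      ext i j
      fin_cases i <;> fin_cases j <;> simp
    map_mul' := by
      intro a b
      apply Subtype.ext
      change (!![((a * b : Fˣ) : F), 0; 0, (((a * b)⁻¹ : Fˣ) : F)] : Matrix (Fin 2) (Fin 2) F) =
        !![(a : F), 0; 0, ((a⁻¹ : Fˣ) : F)] * !![(b : F), 0; 0, ((b⁻¹ : Fˣ) : F)]
      ext i j
      fin_cases i <;> fin_cases j <;> simp [Matrix.mul_apply, Fin.sum_univ_two, mul_comm] }

theorem sl2diag_injective (F : Type*) [Field F] : Function.Injective (sl2diag F) := by
  intro a b hab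
  have h1 := congrArg (fun M : Matrix.SpecialLinearGroup (Fin 2) F => (M : Matrix (Fin 2) (Fin 2) F) 0 0) hab
  exact Units.ext h1

def sl2w (F : Type*) [Field F] : Matrix.SpecialLinearGroup (Fin 2) F := ⟨!![0, -1; 1, 0], by simp [Matrix.det_fin_two]⟩

theorem sl2w_mul (F : Type*) [Field F] (b : Fˣ) (hb : (b : F) = -1) : sl2w F * sl2w F = sl2diag F b := by
  apply Subtype.ext
  have h2 : ((b⁻¹ : Fˣ) : F) = -1 := by rw [Units.val_inv_eq_inv_val, hb, inv_neg, inv_one]
  change (sl2w F).1 * (sl2w F).1 = !![(b : F), 0; 0, ((b⁻¹ : Fˣ) : F)]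
  rw [hb, h2]
  ext i j
  fin_cases i <;> fin_cases j <;> simp [sl2w, Matrix.mul_apply, Fin.sum_univ_two]

theorem sl2w_conj (F : Type*) [Field F] (b : Fˣ) : sl2w F * sl2diag F b * (sl2w F)⁻¹ = (sl2diag F b)⁻¹ := by
  rw [mul_inv_eq_iff_eq_mul, ← map_inv]
  apply Subtype.ext
  change (sl2w F).1 * !![(b : F), 0; 0, ((b⁻¹ : Fˣ) : F)] = !![((b⁻¹ : Fˣ) : F), 0; 0, ((b⁻¹⁻¹ : Fˣ) : F)] * (sl2w F).1
  rw [inv_inv]
  ext i j
  fin_cases i <;> fin_cases j <;> simp [sl2w, Matrix.mul_apply, Fin.sum_univ_two]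

theorem sl2w_notMem (F : Type*) [Field F] (b : Fˣ) : sl2w F ∉ Subgroup.zpowers (sl2diag F b) := by
  intro h
  obtain ⟨k, hk⟩ := Subgroup.mem_zpowers_iff.1 h
  rw [← map_zpow] at hk
  have h1 : (!![((b ^ k : Fˣ) : F), 0; 0, (((b ^ k)⁻¹ : Fˣ) : F)] : Matrix (Fin 2) (Fin 2) F) 1 0 =
    (!![0, -1; 1, 0] : Matrix (Fin 2) (Fin 2) F) 1 0 :=
    congrArg (fun M : Matrix.SpecialLinearGroup (Fin 2) F => (M : Matrix (Fin 2) (Fin 2) F) 1 0) hk
  simp at h1

/-- finite subgroups of `SL₂(F)` of order prime to the characteristic are Frobenius complements -/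
theorem exists_frob_sl2 {F : Type} [Field F] [Finite F] {p : ℕ} [hp : Fact p.Prime] [CharP F p]
    (H : Subgroup (Matrix.SpecialLinearGroup (Fin 2) F)) (hH : H ≠ ⊥) (hc : (Nat.card H).Coprime p) {K : Type*} [Group K] (e : H ≃* K) :
    ∃ (L : Type) (_ : Group L) (_ : Finite L) (H : Subgroup L), Cfsg.IsFrobeniusComplement H ∧ Nonempty (H ≃* K) := by
  letI : DistribMulAction H (Fin 2 → F) := DistribMulAction.compHom (Fin 2 → F)
    ((Matrix.SpecialLinearGroup.toLin'.comp H.subtype) : H →* ((Fin 2 → F) ≃ₗ[F] (Fin 2 → F)))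
  haveI : Nontrivial H := (Subgroup.nontrivial_iff_ne_bot H).2 hH
  haveI : Finite (Matrix.SpecialLinearGroup (Fin 2) F) := Finite.of_injective _ Subtype.val_injective
  apply exists_frob_distrib (A := Fin 2 → F) (H := H) ?_ e
  intro h hh a ha
  by_contra ha0
  apply hh
  apply Subtype.ext
  refine sl2_fpf (p := p) (h : Matrix.SpecialLinearGroup (Fin 2) F) ?_ (orderOf_pos _).ne' a ?_ ha0
  · rw [Subgroup.orderOf_coe]
    exact Nat.Coprime.coprime_dvd_left (orderOf_dvd_natCard h) hc
  · exact ha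

end CfsgH3
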