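import Mathlib
import Cfsg.Agent.H3.SemiFrob

set_option autoImplicit false

/-!
Finite subgroups of division rings are Frobenius complements.
-/

namespace CfsgH3

open scoped Pointwise

theorem exists_frob_any {N H : Type*} [Group N] [Group H] [Finite N] [Finite H] [Nontrivial N] [Nontrivial H] (φ : H →* MulAut N)
    (hf : ∀ h : H, h ≠ 1 → ∀ n : N, φ h n = n → n = 1) {K : Type*} [Group K] (e : H ≃* K) :
    ∃ (L : Type) (_ : Group L) (_ : Finite L) (C : Subgroup L), Cfsg.IsFrobeniusComplement C ∧ Nonempty (K ≃* C) := by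
  haveI : Small.{0} N := inferInstance
  haveI : Small.{0} H := inferInstance
  let eN : Shrink.{0} N ≃* N := Shrink.mulEquiv
  let eH : Shrink.{0} H ≃* H := Shrink.mulEquiv
  haveI : Finite (Shrink.{0} N) := Finite.of_equiv N eN.symm.toEquiv
  haveI : Finite (Shrink.{0} H) := Finite.of_equiv H eH.symm.toEquiv
  haveI : Nontrivial (Shrink.{0} N) := eN.toEquiv.nontrivial
  haveI : Nontrivial (Shrink.{0} H) := eH.toEquiv.nontrivial
  let ψ : Shrink.{0} H →* MulAut (Shrink.{0} N) := ((MulAut.congr eN.symm).toMonoidHom.comp φ).comp eH.toMonoidHom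
  obtain ⟨L, i1, i2, C, hC, ⟨f⟩⟩ := exists_frob_semidirect ψ (by
    intro h hh n hn
    have h1 : eN (ψ h n) = φ (eH h) (eN n) := by
      simp [ψ]
    rw [hn] at h1
    have h2 := hf (eH h) (fun h3 => hh (by rw [← eH.map_one] at h3; exact eH.injective h3)) (eN n) h1.symm
    rw [← eN.map_one] at h2
    exact eN.injective h2) (eH.trans e)
  exact ⟨L, i1, i2, C, hC, ⟨f.symm⟩⟩

section

variable {D : Type*} [DivisionRing D] (H : Subgroup Dˣ)

/-- the `ℤ`-span of a group of units -/
def unitSpan : Submodule ℤ D := Submodule.span ℤ (Set.range fun h : H => ((h : Dˣ) : D))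

theorem mul_mem_unitSpan (h : H) {x : D} (hx : x ∈ unitSpan H) : ((h : Dˣ) : D) * x ∈ unitSpan H := by
  unfold unitSpan at hx ⊢
  induction hx using Submodule.span_induction with
  | mem x hx =>
    obtain ⟨k, rfl⟩ := hx
    exact Submodule.subset_span ⟨h * k, by simp⟩
  | zero => rw [mul_zero]; exact Submodule.zero_mem _
  | add x y _ _ hx hy => rw [mul_add]; exact Submodule.add_mem _ hx hy
  | smul a x _ hx => rw [mul_smul_comm]; exact Submodule.smul_mem _ _ hx

/-- left multiplication by an element on the span -/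
def unitSpanMul : H →* Module.End ℤ (unitSpan H) where
  toFun h := 
    { toFun := fun x => ⟨((h : Dˣ) : D) * x, mul_mem_unitSpan H h x.2⟩
      map_add' := by intro x y; ext; simp [mul_add]
      map_smul' := by intro a x; apply Subtype.ext; exact mul_smul_comm a _ _ }
  map_one' := by ext x; simp
  map_mul' := by intro h k; ext x; simp [mul_assoc]

theorem unitSpanMul_coe (h : H) (x : unitSpan H) : ((unitSpanMul H h x : unitSpan H) : D) = ((h : Dˣ) : D) * x := rfl

/-- `p` times the span -/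
def pSpan (p : ℕ) : Submodule ℤ (unitSpan H) := LinearMap.range (LinearMap.lsmul ℤ (unitSpan H) (p : ℤ))

theorem mem_pSpan {p : ℕ} {x : unitSpan H} : x ∈ pSpan H p ↔ ∃ y : unitSpan H, (p : ℤ) • y = x := Iff.rfl

theorem pSpan_le_comap (p : ℕ) (h : H) : pSpan H p ≤ (pSpan H p).comap (unitSpanMul H h) := by
  rintro x ⟨y, rfl⟩
  exact ⟨unitSpanMul H h y, by simp⟩

/-- the action on the quotient -/
def quotMul (p : ℕ) : H →* Module.End ℤ (unitSpan H ⧸ pSpan H p) where
  toFun h := Submodule.mapQ _ _ (unitSpanMul H h) (pSpan_le_comap H p h)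
  map_one' := by
    ext x
    simp
  map_mul' := by
    intro h k
    ext x
    simp

theorem quotMul_mk (p : ℕ) (h : H) (x : unitSpan H) : 
    quotMul H p h (Submodule.Quotient.mk x) = Submodule.Quotient.mk (unitSpanMul H h x) := rfl

instance [Finite H] : Module.Finite ℤ (unitSpan H) := by
  unfold unitSpan
  rw [Module.Finite.iff_fg]
  exact Submodule.fg_span (Set.finite_range _)

theorem quot_finite [Finite H] (p : ℕ) (hp : p ≠ 0) : Finite (unitSpan H ⧸ pSpan H p) := by
  apply Module.finite_of_fg_torsion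
  intro x
  obtain ⟨x, rfl⟩ := Submodule.Quotient.mk_surjective _ x
  refine ⟨⟨(p : ℤ), ?_⟩, ?_⟩
  · exact mem_nonZeroDivisors_of_ne_zero (by exact_mod_cast hp)
  · show (p : ℤ) • (Submodule.Quotient.mk x : unitSpan H ⧸ pSpan H p) = 0
    rw [← Submodule.Quotient.mk_smul, Submodule.Quotient.mk_eq_zero]
    exact ⟨x, rfl⟩

theorem one_mem_unitSpan : (1 : D) ∈ unitSpan H := Submodule.subset_span ⟨1, by simp⟩

theorem quot_nontrivial_zero [Finite H] [CharZero D] (p : ℕ) (hp : p.Prime) : Nontrivial (unitSpan H ⧸ pSpan H p) := by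
  rw [Submodule.Quotient.nontrivial_iff]
  intro h
  have h1 : (⊤ : Submodule ℤ (unitSpan H)) ≤ Ideal.span {(p : ℤ)} • ⊤ := by
    intro x _
    have hx : x ∈ pSpan H p := by rw [h]; trivial
    obtain ⟨y, rfl⟩ := hx
    exact Submodule.smul_mem_smul (Ideal.mem_span_singleton_self _) trivial
  obtain ⟨r, hr1, hr2⟩ := Submodule.exists_sub_one_mem_and_smul_eq_zero_of_fg_of_le_smul (Ideal.span {(p : ℤ)}) ⊤ 
    (Module.Finite.fg_top) h1
  have h2 := hr2 ⟨1, one_mem_unitSpan H⟩ trivial
  have h3 : (r : D) = 0 := by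
    have := congrArg Subtype.val h2
    simpa using this
  have h4 : r = 0 := by exact_mod_cast h3
  rw [h4, zero_sub, Ideal.mem_span_singleton] at hr1
  have h5 : (p : ℤ) ∣ 1 := by simpa using hr1
  have h6 : p ∣ 1 := by exact_mod_cast h5
  exact hp.one_lt.ne' (Nat.dvd_one.1 h6)

theorem pSpan_eq_bot (p : ℕ) [CharP D p] : pSpan H p = ⊥ := by
  rw [eq_bot_iff]
  rintro x ⟨y, rfl⟩
  rw [Submodule.mem_bot]
  ext
  show (((p : ℤ) • y : unitSpan H) : D) = 0
  rw [Submodule.coe_smul, zsmul_eq_mul]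
  simp

theorem quot_nontrivial_p (p : ℕ) [CharP D p] : Nontrivial (unitSpan H ⧸ pSpan H p) := by
  rw [Submodule.Quotient.nontrivial_iff, pSpan_eq_bot]
  intro h
  have h1 : (⟨1, one_mem_unitSpan H⟩ : unitSpan H) ∈ (⊥ : Submodule ℤ (unitSpan H)) := by rw [h]; trivial
  rw [Submodule.mem_bot] at h1
  exact one_ne_zero (congrArg Subtype.val h1)

theorem quot_fpf_p (p : ℕ) [CharP D p] (h : H) (hh : h ≠ 1) (x : unitSpan H ⧸ pSpan H p) (hx : quotMul H p h x = x) : x = 0 := by
  obtain ⟨x, rfl⟩ := Submodule.Quotient.mk_surjective _ x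
  rw [quotMul_mk, Submodule.Quotient.eq, pSpan_eq_bot, Submodule.mem_bot, sub_eq_zero] at hx
  have h1 : ((h : Dˣ) : D) * x = x := congrArg Subtype.val hx
  have h2 : (((h : Dˣ) : D) - 1) * x = 0 := by rw [sub_mul, h1, one_mul, sub_self]
  rcases mul_eq_zero.1 h2 with h3 | h3
  · exfalso; apply hh
    rw [sub_eq_zero] at h3
    exact Subtype.ext (Units.ext h3)
  · have : x = 0 := Subtype.ext h3
    rw [this]; exact Submodule.Quotient.mk_zero _

/-- `n` is a multiple of `h - 1` in the ring generated by `h` when `h` is a nontrivial root of unity of order dividing `n` -/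
theorem exists_unitSpan_mul (h : H) (hh : h ≠ 1) (n : ℕ) (hn : h ^ n = 1) (x y : unitSpan H) (p : ℕ) 
    (hxy : unitSpanMul H h x - x = (p : ℤ) • y) : ∃ w : unitSpan H, (n : ℤ) • x = (p : ℤ) • w := by
  -- sum of (h^i - 1) over i < n equals -n, each divisible by (h-1)
  have key : ∀ i : ℕ, ∃ w : unitSpan H, unitSpanMul H (h ^ i) x - x = (p : ℤ) • w := by
    intro i
    induction i with
    | zero => exact ⟨0, by rw [pow_zero, map_one]; simp⟩
    | succ i ih =>
      obtain ⟨w, hw⟩ := ih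
      refine ⟨unitSpanMul H h w + y, ?_⟩
      have e1 : unitSpanMul H (h ^ (i + 1)) x = unitSpanMul H h (unitSpanMul H (h ^ i) x) := by
        rw [pow_succ', map_mul]; rfl
      have e2 : unitSpanMul H (h ^ i) x = x + (p : ℤ) • w := by rw [← hw]; abel
      rw [e1, e2, map_add, map_smul, smul_add, ← hxy]
      abel
  choose w hw using key
  refine ⟨- ∑ i ∈ Finset.range n, w i, ?_⟩
  have hsum : ∑ i ∈ Finset.range n, ((h : Dˣ) : D) ^ i = 0 := by
    have h1 : (((h : Dˣ) : D) - 1) * ∑ i ∈ Finset.range n, ((h : Dˣ) : D) ^ i = 0 := by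
      rw [mul_geom_sum]
      have : ((h : Dˣ) : D) ^ n = 1 := by
        have := congrArg (fun z : H => ((z : Dˣ) : D)) hn
        simpa using this
      rw [this, sub_self]
    rcases mul_eq_zero.1 h1 with h3 | h3
    · exfalso; apply hh
      rw [sub_eq_zero] at h3
      exact Subtype.ext (Units.ext h3)
    · exact h3
  have h2 : ∑ i ∈ Finset.range n, (unitSpanMul H (h ^ i) x - x) = (p : ℤ) • ∑ i ∈ Finset.range n, w i := by
    rw [Finset.smul_sum]
    exact Finset.sum_congr rfl (fun i _ => hw i)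
  have h3 : ∑ i ∈ Finset.range n, (unitSpanMul H (h ^ i) x) = 0 := by
    apply Subtype.ext
    rw [AddSubmonoidClass.coe_finset_sum]
    have : ∀ i ∈ Finset.range n, ((unitSpanMul H (h ^ i) x : unitSpan H) : D) = ((h : Dˣ) : D) ^ i * x := by
      intro i _
      rw [unitSpanMul_coe]; simp
    rw [Finset.sum_congr rfl this, ← Finset.sum_mul, hsum, zero_mul]; rfl
  rw [Finset.sum_sub_distrib, h3, Finset.sum_const, Finset.card_range, zero_sub] at h2
  rw [smul_neg, ← h2, neg_neg, natCast_zsmul]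

theorem quot_fpf_zero [Finite H] (p : ℕ) (hp : p.Prime) (hcard : Nat.card H < p) (h : H) (hh : h ≠ 1) (x : unitSpan H ⧸ pSpan H p) 
    (hx : quotMul H p h x = x) : x = 0 := by
  obtain ⟨x, rfl⟩ := Submodule.Quotient.mk_surjective _ x
  rw [quotMul_mk, Submodule.Quotient.eq] at hx
  obtain ⟨y, hy⟩ := hx
  obtain ⟨w, hw⟩ := exists_unitSpan_mul H h hh (Nat.card H) pow_card_eq_one' x y p hy.symm
  rw [Submodule.Quotient.mk_eq_zero]
  have hco : Nat.Coprime (Nat.card H) p := by
    rw [Nat.coprime_comm, Nat.Prime.coprime_iff_not_dvd hp]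
    intro h1
    have := Nat.le_of_dvd Nat.card_pos h1
    omega
  obtain ⟨a, b, hab⟩ : IsCoprime (Nat.card H : ℤ) (p : ℤ) := Nat.isCoprime_iff_coprime.2 hco
  refine ⟨a • w + b • x, ?_⟩
  show (p : ℤ) • (a • w + b • x) = x
  calc (p : ℤ) • (a • w + b • x) = a • ((p : ℤ) • w) + (b * p) • x := by
        rw [smul_add, smul_comm (p : ℤ) a w, smul_smul (p : ℤ) b x, mul_comm b]
    _ = (a * (Nat.card H : ℤ) + b * p) • x := by rw [← hw, smul_smul, add_smul]
    _ = x := by rw [hab, one_smul]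

theorem division_ring_frob [Finite H] (hH : H ≠ ⊥) :
    ∃ (L : Type) (_ : Group L) (_ : Finite L) (C : Subgroup L), Cfsg.IsFrobeniusComplement C ∧ Nonempty (H ≃* C) := by
  haveI : Nontrivial H := (Subgroup.nontrivial_iff_ne_bot H).2 hH
  -- choose the prime
  obtain ⟨p, hp, hnt, hfpf⟩ : ∃ p : ℕ, p ≠ 0 ∧ Nontrivial (unitSpan H ⧸ pSpan H p) ∧ 
      ∀ h : H, h ≠ 1 → ∀ x : unitSpan H ⧸ pSpan H p, quotMul H p h x = x → x = 0 := by
    obtain ⟨q, hq⟩ := CharP.exists D
    rcases Nat.eq_zero_or_pos q with rfl | hq0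
    · haveI := CharP.charP_to_charZero D
      obtain ⟨p, hp1, hp2⟩ := Nat.exists_infinite_primes (Nat.card H + 1)
      exact ⟨p, hp2.ne_zero, quot_nontrivial_zero H p hp2, fun h hh x hx => quot_fpf_zero H p hp2 (by omega) h hh x hx⟩
    · exact ⟨q, hq0.ne', quot_nontrivial_p H q, fun h hh x hx => quot_fpf_p H q h hh x hx⟩
  haveI := quot_finite H p hp
  letI act : DistribMulAction H (unitSpan H ⧸ pSpan H p) := DistribMulAction.compHom _ (quotMul H p)
  refine exists_frob_any (N := Multiplicative (unitSpan H ⧸ pSpan H p)) (toMulAutMult H (unitSpan H ⧸ pSpan H p)) ?_ (MulEquiv.refl H)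
  intro h hh n hn
  exact hfpf h hh n.toAdd hn

end

end CfsgH3
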