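import Mathlib
import Cfsg.Agent.H3.StrEmb
import Cfsg.Agent.H3.SmallAct
import Cfsg.Agent.H3.AlpFus
import Cfsg.Agent.H3.Extra

/-! # Groups in which the centralizer of every involution is an elementary abelian 2-group -/

namespace CfsgH3
open Subgroup
open CfsgH1 (mem_conj_smul conj_smul_eq_self_iff card_conj_smul)
open scoped Pointwise

universe u
variable {G : Type u} [Group G] [Finite G]

theorem mem_centralizer_single {x c : G} : c ∈ centralizer ({x} : Set G) ↔ x * c = c * x := by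
  rw [mem_centralizer_iff]
  constructor
  · intro h; exact h x rfl
  · rintro h _ rfl; exact h

structure EC (T : Sylow 2 G) : Prop where
  hnc : ¬ IsCyclic (T : Subgroup G)
  hnn : ¬ (T : Subgroup G).Normal
  hC : ∀ t : G, orderOf t = 2 → IsMulCommutative (centralizer ({t} : Set G)) ∧ ∀ c ∈ centralizer ({t} : Set G), c ^ 2 = 1

namespace EC
variable {T : Sylow 2 G} (h : EC T)
include h

theorem ne_bot : (T : Subgroup G) ≠ ⊥ := by
  intro h0
  apply h.hnc
  rw [h0]; infer_instance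

theorem elem : (∀ s ∈ (T : Subgroup G), s * s = 1) ∧ (∀ s ∈ (T : Subgroup G), ∀ t ∈ (T : Subgroup G), s * t = t * s) := by
  haveI : Fact (Nat.Prime 2) := ⟨Nat.prime_two⟩
  haveI : Nontrivial (T : Subgroup G) := (Subgroup.nontrivial_iff_ne_bot _).2 h.ne_bot
  haveI := T.2.center_nontrivial
  have h1 : IsPGroup 2 (center (T : Subgroup G)) := T.2.to_subgroup _
  obtain ⟨z, hz⟩ := exists_prime_orderOf_dvd_card' (G := center (T : Subgroup G)) 2 (by
    obtain ⟨n, hn⟩ := IsPGroup.iff_card.1 h1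
    rw [hn]
    apply dvd_pow_self
    rintro rfl
    rw [pow_zero, Nat.card_eq_one_iff_unique] at hn
    exact not_subsingleton _ hn.1)
  have hzo : orderOf (((z : (T : Subgroup G))) : G) = 2 := by rw [Subgroup.orderOf_coe, Subgroup.orderOf_coe]; exact hz
  have hle : ∀ s ∈ (T : Subgroup G), s ∈ centralizer ({((z : (T : Subgroup G)) : G)} : Set G) := by
    intro s hs
    rw [mem_centralizer_single]
    exact congrArg Subtype.val ((mem_center_iff.1 z.2) ⟨s, hs⟩).symm
  obtain ⟨hc, hsq⟩ := h.hC _ hzo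
  refine ⟨fun s hs => ?_, fun s hs t ht => ?_⟩
  · rw [← pow_two]; exact hsq s (hle s hs)
  · exact congrArg Subtype.val (hc.is_comm.comm (⟨s, hle s hs⟩ : centralizer ({((z : (T : Subgroup G)) : G)} : Set G)) ⟨t, hle t ht⟩)

theorem order_two {s : G} (hs : s ∈ (T : Subgroup G)) (hs1 : s ≠ 1) : orderOf s = 2 := orderOf_two_of_mul_self hs1 (h.elem.1 s hs)

theorem cent_eq {s : G} (hs : s ∈ (T : Subgroup G)) (hs1 : s ≠ 1) : centralizer ({s} : Set G) = (T : Subgroup G) := by
  have ho := h.order_two hs hs1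
  have h1 : IsPGroup 2 (centralizer ({s} : Set G)) := by
    rintro ⟨c, hc⟩
    exact ⟨1, Subtype.ext (by rw [pow_one]; exact (h.hC s ho).2 c hc)⟩
  refine T.3 h1 ?_
  intro t ht
  rw [mem_centralizer_single]
  exact h.elem.2 s hs t ht

theorem TI {s g : G} (hs : s ∈ (T : Subgroup G)) (hs1 : s ≠ 1) (hg : g * s * g⁻¹ ∈ (T : Subgroup G)) : g ∈ normalizer ((T : Subgroup G) : Set G) := by
  rw [← conj_smul_eq_self_iff]
  have h1 : g * s * g⁻¹ ≠ 1 := fun h0 => hs1 (conj_eq_one_iff.1 h0)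
  rw [← h.cent_eq hs hs1]
  have h2 : (T : Subgroup G) = centralizer ({g * s * g⁻¹} : Set G) := (h.cent_eq hg h1).symm
  rw [h.cent_eq hs hs1]
  nth_rewrite 2 [h2]
  rw [← h.cent_eq hs hs1]
  ext x
  rw [mem_conj_smul, mem_centralizer_single, mem_centralizer_single]
  constructor
  · intro h3
    calc g * s * g⁻¹ * x = g * (s * (g⁻¹ * x * g)) * g⁻¹ := by group
      _ = g * ((g⁻¹ * x * g) * s) * g⁻¹ := by rw [h3]
      _ = _ := by group
  · intro h3
    calc s * (g⁻¹ * x * g) = g⁻¹ * (g * s * g⁻¹ * x) * g := by group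
      _ = g⁻¹ * (x * (g * s * g⁻¹)) * g := by rw [h3]
      _ = _ := by group

omit h in
theorem mem_T {s : G} (hs : orderOf s = 2) (hsN : s ∈ normalizer ((T : Subgroup G) : Set G)) : s ∈ (T : Subgroup G) := by
  haveI : Fact (Nat.Prime 2) := ⟨Nat.prime_two⟩
  have h1 : IsPGroup 2 (zpowers s ⊔ (T : Subgroup G) : Subgroup G) := 
    IsPGroup.to_sup_of_normal_right' (isPGroup_zpowers_of_orderOf_two hs) T.2 (zpowers_le.2 hsN)
  have h2 := T.3 h1 le_sup_right
  rw [← h2]
  exact mem_sup_left (mem_zpowers s)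

theorem str_emb : Cfsg.IsStronglyEmbedded (normalizer ((T : Subgroup G) : Set G)) := by
  haveI : Fact (Nat.Prime 2) := ⟨Nat.prime_two⟩
  refine ⟨fun h0 => h.hnn (Subgroup.normalizer_eq_top_iff.1 h0), ?_, ?_⟩
  · have h1 : ∃ s ∈ (T : Subgroup G), s ≠ 1 := by
      by_contra hcon
      push Not at hcon
      exact h.ne_bot ((Subgroup.eq_bot_iff_forall _).2 hcon)
    obtain ⟨s, hs, hs1⟩ := h1
    have := orderOf_dvd_natCard (⟨s, le_normalizer hs⟩ : normalizer ((T : Subgroup G) : Set G))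
    rw [Subgroup.orderOf_mk, h.order_two hs hs1] at this
    exact even_iff_two_dvd.2 this
  · intro g hg
    rw [← Nat.not_even_iff_odd, even_iff_two_dvd]
    intro h2
    obtain ⟨s, hs⟩ := exists_prime_orderOf_dvd_card' (G := (normalizer ((T : Subgroup G) : Set G) ⊓ (normalizer ((T : Subgroup G) : Set G)).map (MulAut.conj g).toMonoidHom : Subgroup G)) 2 h2
    have ho : orderOf (s : G) = 2 := by rw [Subgroup.orderOf_coe]; exact hs
    obtain ⟨h3, r, hr, hrs⟩ := mem_inf.1 s.2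
    have hrs' : g * r * g⁻¹ = (s : G) := hrs
    have hsT := mem_T ho h3
    have hro : orderOf r = 2 := by
      have := orderOf_conj g r
      rw [← this, hrs', ho]
    have hrT := mem_T hro hr
    apply hg
    exact h.TI hrT (ne_one_of_orderOf_two hro) (by rw [hrs']; exact hsT)

/-- centralizers of elements of odd order have odd order -/
theorem odd_cent {d : G} (hd : Odd (orderOf d)) (hd1 : d ≠ 1) : ∀ s : G, orderOf s = 2 → s * d ≠ d * s := by
  intro s hs hsd
  have h1 := (h.hC s hs).2 d (mem_centralizer_single.2 hsd)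
  have h2 : orderOf d ∣ 2 := orderOf_dvd_of_pow_eq_one h1
  rcases (Nat.dvd_prime Nat.prime_two).1 h2 with h3 | h3
  · exact hd1 (orderOf_eq_one_iff.1 h3)
  · rw [h3] at hd; exact absurd hd (by decide)

/-- an involution normalizing a subgroup of odd order inverts it -/
theorem inverts {K : Subgroup G} (hK : Odd (Nat.card K)) {u : G} (hu : orderOf u = 2) (huK : u ∈ normalizer (K : Set G)) : ∀ d ∈ K, u * d * u⁻¹ = d⁻¹ := by
  have huu := mul_self_of_orderOf_two hu
  have hui := inv_of_orderOf_two hu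
  have hmem : ∀ d ∈ K, d⁻¹ * (u * d * u⁻¹) ∈ K := fun d hd => mul_mem (inv_mem hd) ((Subgroup.mem_normalizer_iff.1 huK d).1 hd)
  have hodd : ∀ d ∈ K, Odd (orderOf d) := by
    intro d hd
    have := orderOf_dvd_natCard (⟨d, hd⟩ : K)
    rw [Subgroup.orderOf_mk] at this
    exact Odd.of_dvd_nat hK this
  let f : K → K := fun d => ⟨(d : G)⁻¹ * (u * d * u⁻¹), hmem d d.2⟩
  have hinj : Function.Injective f := by
    intro y y' hyy
    have h1 : (y : G)⁻¹ * (u * y * u⁻¹) = (y' : G)⁻¹ * (u * y' * u⁻¹) := congrArg Subtype.val hyy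
    have h2 : u * ((y' : G) * (y : G)⁻¹) = ((y' : G) * (y : G)⁻¹) * u := by
      have e1 : u * (y' : G) * u⁻¹ = y' * ((y : G)⁻¹ * (u * y * u⁻¹)) := by rw [h1]; group
      calc u * ((y' : G) * (y : G)⁻¹) = (u * y' * u⁻¹) * (u * y * u⁻¹)⁻¹ * u := by group
        _ = (y' * ((y : G)⁻¹ * (u * y * u⁻¹))) * (u * y * u⁻¹)⁻¹ * u := by rw [e1]
        _ = _ := by group
    by_contra hne
    apply h.odd_cent (hodd _ (mul_mem y'.2 (inv_mem y.2))) _ u hu h2
    intro h0
    exact hne (Subtype.ext (mul_inv_eq_one.1 h0).symm)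
  intro d hd
  obtain ⟨y, hy⟩ := Finite.injective_iff_surjective.1 hinj ⟨d, hd⟩
  have hy' : (y : G)⁻¹ * (u * y * u⁻¹) = d := congrArg Subtype.val hy
  rw [← hy']
  calc u * ((y : G)⁻¹ * (u * y * u⁻¹)) * u⁻¹ = (u * (y : G) * u⁻¹)⁻¹ * ((u * u) * y * (u * u)⁻¹) := by group
    _ = (u * (y : G) * u⁻¹)⁻¹ * y := by rw [huu]; group
    _ = _ := by group

/-- the two point stabilizer -/
theorem stab_odd {g : G} (hg : g ∉ normalizer ((T : Subgroup G) : Set G)) : 
    Odd (Nat.card (normalizer ((T : Subgroup G) : Set G) ⊓ (normalizer ((T : Subgroup G) : Set G)).map (MulAut.conj g).toMonoidHom : Subgroup G)) := h.str_emb.2.2 g hg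

theorem card_invol : Nat.card {t : G // orderOf t = 2 ∧ t ∈ normalizer ((T : Subgroup G) : Set G)} = Nat.card T - 1 := by
  rw [← card_ne_one (T : Subgroup G)]
  apply Nat.card_congr
  refine ⟨fun t => ⟨⟨t, mem_T t.2.1 t.2.2⟩, ?_⟩, fun t => ⟨(t : (T : Subgroup G)), ?_, le_normalizer t.1.2⟩, fun t => rfl, fun t => rfl⟩
  · intro h0
    exact ne_one_of_orderOf_two t.2.1 (congrArg Subtype.val h0)
  · exact h.order_two t.1.2 (fun h0 => t.2 (Subtype.ext h0))

/-- the two point stabilizer `N ⊓ N^g` -/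
def D (_ : EC T) (g : G) : Subgroup G := normalizer ((T : Subgroup G) : Set G) ⊓ (normalizer ((T : Subgroup G) : Set G)).map (MulAut.conj g).toMonoidHom

theorem mem_D {g d : G} : d ∈ h.D g ↔ d ∈ normalizer ((T : Subgroup G) : Set G) ∧ g⁻¹ * d * g ∈ normalizer ((T : Subgroup G) : Set G) := by
  unfold D
  rw [mem_inf]
  refine and_congr_right fun _ => ?_
  constructor
  · rintro ⟨y, hy, rfl⟩
    have : g⁻¹ * (g * y * g⁻¹) * g = y := by group
    exact this.symm ▸ hy
  · intro h1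
    exact ⟨_, h1, by show g * (g⁻¹ * d * g) * g⁻¹ = d; group⟩

theorem D_odd {g : G} (hg : g ∉ normalizer ((T : Subgroup G) : Set G)) : Odd (Nat.card (h.D g)) := h.stab_odd hg

theorem odd_of_mem {g d : G} (hg : g ∉ normalizer ((T : Subgroup G) : Set G)) (hd : d ∈ h.D g) : Odd (orderOf d) := by
  have := orderOf_dvd_natCard (⟨d, hd⟩ : h.D g)
  rw [Subgroup.orderOf_mk] at this
  exact Odd.of_dvd_nat (h.D_odd hg) this

theorem eq_one_of_mem {g d : G} (hg : g ∉ normalizer ((T : Subgroup G) : Set G)) (hd : d ∈ h.D g) (hdT : d ∈ (T : Subgroup G)) : d = 1 := by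
  by_contra hne
  have h1 := h.odd_of_mem hg hd
  rw [h.order_two hdT hne] at h1
  exact absurd h1 (by decide)

theorem exists_T : ∃ s ∈ (T : Subgroup G), s ≠ 1 := by
  by_contra hcon
  push Not at hcon
  exact h.ne_bot ((Subgroup.eq_bot_iff_forall _).2 hcon)

theorem card_D {u : G} (hu : orderOf u = 2) (huN : u ∉ normalizer ((T : Subgroup G) : Set G)) : Nat.card (h.D u) = Nat.card T - 1 := by
  rw [← card_ne_one (T : Subgroup G)]
  obtain ⟨s, hs, hs1⟩ := h.exists_T
  have hmem : ∀ d ∈ h.D u, d * s * d⁻¹ ∈ (T : Subgroup G) := fun d hd => (Subgroup.mem_normalizer_iff.1 (h.mem_D.1 hd).1 s).1 hs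
  apply Nat.card_congr
  refine Equiv.ofBijective (fun d : h.D u => (⟨⟨(d : G) * s * (d : G)⁻¹, hmem d d.2⟩, ?_⟩ : {x : (T : Subgroup G) // x ≠ 1})) ⟨?_, ?_⟩
  · intro h0
    have h1 : (d : G) * s * (d : G)⁻¹ = 1 := congrArg Subtype.val h0
    exact hs1 (conj_eq_one_iff.1 h1)
  · intro d d' hdd
    have h1 : (d : G) * s * (d : G)⁻¹ = (d' : G) * s * (d' : G)⁻¹ := congrArg (fun z => ((z : (T : Subgroup G)) : G)) (congrArg Subtype.val hdd)
    have h2 : (d' : G)⁻¹ * d ∈ centralizer ({s} : Set G) := by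
      rw [mem_centralizer_single]
      calc s * ((d' : G)⁻¹ * d) = (d' : G)⁻¹ * (d' * s * (d' : G)⁻¹) * d := by group
        _ = (d' : G)⁻¹ * ((d : G) * s * (d : G)⁻¹) * d := by rw [h1]
        _ = _ := by group
    rw [h.cent_eq hs hs1] at h2
    have h3 := h.eq_one_of_mem huN (mul_mem (inv_mem d'.2) d.2) h2
    exact Subtype.ext (inv_mul_eq_one.1 h3).symm
  · rintro ⟨⟨t, ht⟩, ht1⟩
    obtain ⟨d, hd, hdt⟩ := SE.trans h.str_emb hu huN (h.order_two hs hs1) (le_normalizer hs) (h.order_two ht (fun h0 => ht1 (Subtype.ext h0))) (le_normalizer ht)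
    exact ⟨⟨d, hd⟩, Subtype.ext (Subtype.ext hdt)⟩

theorem u_norm {u : G} (hu : orderOf u = 2) : u ∈ normalizer ((h.D u : Subgroup G) : Set G) := by
  have huu := mul_self_of_orderOf_two hu
  have hui := inv_of_orderOf_two hu
  apply Subgroup.mem_normalizer_fintype
  intro d hd
  obtain ⟨h1, h2⟩ := h.mem_D.1 hd
  show u * d * u⁻¹ ∈ h.D u
  rw [h.mem_D]
  refine ⟨?_, ?_⟩
  · rw [hui] at h2 ⊢; exact h2
  · have : u⁻¹ * (u * d * u⁻¹) * u = d := by group
    rw [this]; exact h1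

theorem D_inv {u : G} (hu : orderOf u = 2) (huN : u ∉ normalizer ((T : Subgroup G) : Set G)) : ∀ d ∈ h.D u, u * d * u⁻¹ = d⁻¹ := 
  h.inverts (h.D_odd huN) hu (h.u_norm hu)

theorem exists_dt {u n : G} (hu : orderOf u = 2) (huN : u ∉ normalizer ((T : Subgroup G) : Set G)) (hn : n ∈ normalizer ((T : Subgroup G) : Set G)) :
    ∃ d ∈ h.D u, ∃ t ∈ (T : Subgroup G), n = d * t := by
  obtain ⟨s, hs, hs1⟩ := h.exists_T
  have h1 : n * s * n⁻¹ ∈ (T : Subgroup G) := (Subgroup.mem_normalizer_iff.1 hn s).1 hs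
  obtain ⟨d, hd, hdt⟩ := SE.trans h.str_emb hu huN (h.order_two hs hs1) (le_normalizer hs) (h.order_two h1 (fun h0 => hs1 (conj_eq_one_iff.1 h0))) (le_normalizer h1)
  refine ⟨d, hd, d⁻¹ * n, ?_, by group⟩
  rw [← h.cent_eq hs hs1, mem_centralizer_single]
  calc s * (d⁻¹ * n) = d⁻¹ * (d * s * d⁻¹) * n := by group
    _ = d⁻¹ * (n * s * n⁻¹) * n := by rw [hdt]
    _ = _ := by group

theorem four_le : 4 ≤ Nat.card T := by
  haveI : Fact (Nat.Prime 2) := ⟨Nat.prime_two⟩
  obtain ⟨n, hn⟩ := IsPGroup.iff_card.1 T.2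
  have h1 : 2 ≤ n := by
    by_contra hlt
    have h2 : n = 0 ∨ n = 1 := by omega
    rcases h2 with rfl | rfl
    · apply h.ne_bot
      rw [pow_zero] at hn
      exact Subgroup.card_eq_one.1 hn
    · apply h.hnc
      rw [pow_one] at hn
      exact isCyclic_of_prime_card hn
  have h2 : Nat.card T = 2 ^ n := hn
  rw [h2]
  calc 4 = 2 ^ 2 := by norm_num
    _ ≤ 2 ^ n := Nat.pow_le_pow_right (by norm_num) h1

theorem exists_d {u : G} (hu : orderOf u = 2) (huN : u ∉ normalizer ((T : Subgroup G) : Set G)) : ∃ d ∈ h.D u, d ≠ 1 := by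
  by_contra hcon
  push Not at hcon
  have h1 : h.D u = ⊥ := (Subgroup.eq_bot_iff_forall _).2 hcon
  have h2 := h.card_D hu huN
  rw [h1, Subgroup.card_bot] at h2
  have := h.four_le
  omega

/-- `N(D) ∩ N = D` -/
theorem mem_D_of_norm {u n : G} (hu : orderOf u = 2) (huN : u ∉ normalizer ((T : Subgroup G) : Set G)) (hn : n ∈ normalizer ((T : Subgroup G) : Set G))
    (hnD : n ∈ normalizer ((h.D u : Subgroup G) : Set G)) : n ∈ h.D u := by
  obtain ⟨d, hd, t, ht, rfl⟩ := h.exists_dt hu huN hn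
  obtain ⟨e, he, he1⟩ := h.exists_d hu huN
  have htD : t ∈ normalizer ((h.D u : Subgroup G) : Set G) := by
    have := mul_mem (inv_mem (le_normalizer hd)) hnD
    rwa [inv_mul_cancel_left] at this
  have h1 : t * e * t⁻¹ * e⁻¹ ∈ h.D u := mul_mem ((Subgroup.mem_normalizer_iff.1 htD e).1 he) (inv_mem he)
  have h2 : t * e * t⁻¹ * e⁻¹ ∈ (T : Subgroup G) := by
    have := mul_mem ht ((Subgroup.mem_normalizer_iff.1 (h.mem_D.1 he).1 t⁻¹).1 (inv_mem ht))
    have e1 : t * (e * t⁻¹ * e⁻¹) = t * e * t⁻¹ * e⁻¹ := by group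
    rwa [e1] at this
  have h3 := h.eq_one_of_mem huN h1 h2
  have ht1 : t = 1 := by
    by_contra hne
    apply h.odd_cent (h.odd_of_mem huN he) he1 t (h.order_two ht hne)
    calc t * e = (t * e * t⁻¹ * e⁻¹) * (e * t) := by group
      _ = e * t := by rw [h3, one_mul]
  rw [ht1, mul_one]; exact hd

/-- membership in stabilizers of cosets -/
theorem smul_mk_iff {g x : G} : g • (QuotientGroup.mk x : G ⧸ normalizer ((T : Subgroup G) : Set G)) = QuotientGroup.mk x ↔ 
    x⁻¹ * g * x ∈ normalizer ((T : Subgroup G) : Set G) := by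
  show (QuotientGroup.mk (g * x) : G ⧸ normalizer ((T : Subgroup G) : Set G)) = QuotientGroup.mk x ↔ _
  rw [eq_comm, QuotientGroup.eq, mul_assoc]

/-- every coset different from `N` contains an involution -/
theorem exists_inv (x : G ⧸ normalizer ((T : Subgroup G) : Set G)) : ∃ v : G, orderOf v = 2 ∧ (QuotientGroup.mk v : G ⧸ normalizer ((T : Subgroup G) : Set G)) = x := by
  have h1 := SE.card_coset h.str_emb x
  rw [h.card_invol] at h1
  have h2 := h.four_le
  haveI : Nonempty {i : G // orderOf i = 2 ∧ (QuotientGroup.mk i : G ⧸ normalizer ((T : Subgroup G) : Set G)) = x} := by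
    apply Nat.card_pos_iff.1 (by rw [h1]; omega) |>.1
  obtain ⟨v, hv⟩ := this
  exact ⟨v, hv⟩

end EC
end CfsgH3
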