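import Mathlib
import Cfsg.Agent.H3.ElemCent

/-! # Groups in which the centralizer of every involution is an elementary abelian 2-group: the action -/

namespace CfsgH3
open Subgroup
open CfsgH1 (mem_conj_smul conj_smul_eq_self_iff card_conj_smul)
open scoped Pointwise

universe u
variable {G : Type u} [Group G] [Finite G]

namespace EC
variable {T : Sylow 2 G} (h : EC T)
include h

local notation "X" => G ⧸ normalizer ((T : Subgroup G) : Set G)

theorem mk_one_iff {v : G} : (QuotientGroup.mk v : X) = QuotientGroup.mk 1 ↔ v ∈ normalizer ((T : Subgroup G) : Set G) := by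
  rw [eq_comm, QuotientGroup.eq, inv_one, one_mul]

theorem mem_D_iff {v d : G} : d ∈ h.D v ↔ d • (QuotientGroup.mk 1 : X) = QuotientGroup.mk 1 ∧ d • (QuotientGroup.mk v : X) = QuotientGroup.mk v := by
  rw [h.mem_D, h.smul_mk_iff, h.smul_mk_iff]
  simp

theorem exists_swap_pt (x y : X) : ∃ i : G, orderOf i = 2 ∧ i • x = y := by
  obtain ⟨g, rfl⟩ := QuotientGroup.mk_surjective x
  obtain ⟨v, hv, hvy⟩ := h.exists_inv (g⁻¹ • y)
  refine ⟨g * v * g⁻¹, by rw [orderOf_conj, hv], ?_⟩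
  have h2 : (g * v * g⁻¹) • (QuotientGroup.mk g : X) = g • (QuotientGroup.mk v : X) := by
    show (QuotientGroup.mk (g * v * g⁻¹ * g) : X) = QuotientGroup.mk (g * v)
    rw [inv_mul_cancel_right]
  rw [h2, hvy, smul_inv_smul]

theorem card_stab {x y : X} (hxy : x ≠ y) : Nat.card (MulAction.stabilizer G x ⊓ MulAction.stabilizer G y : Subgroup G) = Nat.card T - 1 := by
  obtain ⟨g, rfl⟩ := QuotientGroup.mk_surjective x
  obtain ⟨v, hv, hvy⟩ := h.exists_inv (g⁻¹ • y)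
  have hvN : v ∉ normalizer ((T : Subgroup G) : Set G) := by
    intro h0
    rw [← h.mk_one_iff, hvy] at h0
    apply hxy
    rw [← smul_inv_smul g y, h0]
    show (QuotientGroup.mk g : X) = QuotientGroup.mk (g * 1)
    rw [mul_one]
  rw [← h.card_D hv hvN, ← card_conj_smul g (h.D v)]
  congr 2
  ext z
  rw [mem_conj_smul, h.mem_D_iff, mem_inf, MulAction.mem_stabilizer_iff, MulAction.mem_stabilizer_iff, hvy]
  have e1 : (QuotientGroup.mk g : X) = g • (QuotientGroup.mk 1 : X) := by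
    show (QuotientGroup.mk g : X) = QuotientGroup.mk (g * 1)
    rw [mul_one]
  rw [e1, mul_smul, mul_smul, mul_smul, mul_smul, smul_inv_smul, inv_smul_eq_iff, smul_left_cancel_iff]

theorem D_comm {u : G} (hu : orderOf u = 2) (huN : u ∉ normalizer ((T : Subgroup G) : Set G)) : ∀ d ∈ h.D u, ∀ e ∈ h.D u, d * e = e * d := by
  intro d hd e he
  have h1 := h.D_inv hu huN _ (mul_mem hd he)
  have h2 : u * (d * e) * u⁻¹ = d⁻¹ * e⁻¹ := by
    rw [← h.D_inv hu huN d hd, ← h.D_inv hu huN e he]; group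
  rw [h2, mul_inv_rev] at h1
  have h3 := congrArg (fun z => z⁻¹) h1
  simp only [mul_inv_rev, inv_inv] at h3
  exact h3.symm

/-- a swapping involution normalizes (and inverts) the two point stabilizer -/
theorem swap_norm {u i : G} (hu : orderOf u = 2) (huN : u ∉ normalizer ((T : Subgroup G) : Set G)) (hi : orderOf i = 2) {x y : X} (hxy : x ≠ y)
    (hix : i • x = y) (hD : ∀ d ∈ h.D u, d • x = x ∧ d • y = y) : i ∈ normalizer ((h.D u : Subgroup G) : Set G) := by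
  have h1 : h.D u = MulAction.stabilizer G x ⊓ MulAction.stabilizer G y := by
    apply Subgroup.eq_of_le_of_card_ge
    · intro d hd
      exact mem_inf.2 ⟨(hD d hd).1, (hD d hd).2⟩
    · rw [h.card_stab hxy, h.card_D hu huN]
  have hii := mul_self_of_orderOf_two hi
  have hiy : i • y = x := by rw [← hix, ← mul_smul, hii, one_smul]
  have hiv := inv_of_orderOf_two hi
  rw [h1]
  apply Subgroup.mem_normalizer_fintype
  intro d hd
  obtain ⟨h2, h3⟩ := mem_inf.1 hd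
  rw [MulAction.mem_stabilizer_iff] at h2 h3
  refine mem_inf.2 ⟨?_, ?_⟩
  · rw [MulAction.mem_stabilizer_iff, mul_smul, mul_smul, hiv, hix, h3, hiy]
  · rw [MulAction.mem_stabilizer_iff, mul_smul, mul_smul, hiv, hiy, h2, hix]

theorem fix_D {u : G} (hu : orderOf u = 2) (huN : u ∉ normalizer ((T : Subgroup G) : Set G)) {y : X} (hy : ∀ d ∈ h.D u, d • y = y) :
    y = QuotientGroup.mk 1 ∨ y = QuotientGroup.mk u := by
  by_contra hcon
  push Not at hcon
  obtain ⟨hy0, hy1⟩ := hcon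
  obtain ⟨i, hi, hix⟩ := h.exists_swap_pt (QuotientGroup.mk 1) y
  obtain ⟨j, hj, hjy⟩ := h.exists_swap_pt y (QuotientGroup.mk u)
  have hiD := h.swap_norm hu huN hi hy0.symm hix (fun d hd => ⟨(h.mem_D_iff.1 hd).1, hy d hd⟩)
  have hjD := h.swap_norm hu huN hj hy1 hjy (fun d hd => ⟨hy d hd, (h.mem_D_iff.1 hd).2⟩)
  have hiinv := h.inverts (h.D_odd huN) hi hiD
  have hjinv := h.inverts (h.D_odd huN) hj hjD
  -- c = j i centralizes D and u⁻¹ c fixes the base point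
  have hcD : u⁻¹ * (j * i) ∈ h.D u := by
    apply h.mem_D_of_norm hu huN
    · rw [← h.mk_one_iff]
      have h1 : (j * i) • (QuotientGroup.mk 1 : X) = u • (QuotientGroup.mk 1 : X) := by
        rw [mul_smul, hix, hjy]
        show (QuotientGroup.mk u : X) = QuotientGroup.mk (u * 1)
        rw [mul_one]
      have h2 : (QuotientGroup.mk (u⁻¹ * (j * i)) : X) = (u⁻¹ * (j * i)) • (QuotientGroup.mk 1 : X) := by
        show (QuotientGroup.mk (u⁻¹ * (j * i)) : X) = QuotientGroup.mk (u⁻¹ * (j * i) * 1)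
        rw [mul_one]
      rw [h2, mul_smul, h1, inv_smul_smul]
    · exact mul_mem (inv_mem (h.u_norm hu)) (mul_mem hjD hiD)
  obtain ⟨e, he, he1⟩ := h.exists_d hu huN
  have h3 := h.D_comm hu huN _ hcD e he
  have hui := inv_of_orderOf_two hu
  have h4 : (u⁻¹ * (j * i)) * e * (u⁻¹ * (j * i))⁻¹ = e⁻¹ := by
    have e1 : (u⁻¹ * (j * i)) * e * (u⁻¹ * (j * i))⁻¹ = u⁻¹ * (j * (i * e * i⁻¹) * j⁻¹) * u⁻¹⁻¹ := by group
    rw [e1, hiinv e he, hjinv _ (inv_mem he), inv_inv, hui]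
    exact h.D_inv hu huN e he
  rw [h3, mul_inv_cancel_right] at h4
  have h5 : e * e = 1 := by nth_rewrite 2 [h4]; exact mul_inv_cancel e
  have h6 := h.odd_of_mem huN he
  rw [orderOf_two_of_mul_self he1 h5] at h6
  exact absurd h6 (by decide)

theorem fix_three_base {u g : G} (hu : orderOf u = 2) (huN : u ∉ normalizer ((T : Subgroup G) : Set G)) {y : X} (hg : g ∈ h.D u) (hy0 : y ≠ QuotientGroup.mk 1)
    (hy1 : y ≠ QuotientGroup.mk u) (hgy : g • y = y) : g = 1 := by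
  by_contra hg1
  obtain ⟨v, hv, hvy⟩ := h.exists_inv y
  have hvN : v ∉ normalizer ((T : Subgroup G) : Set G) := by
    intro h0
    rw [← h.mk_one_iff, hvy] at h0
    exact hy0 h0
  have hgv : g ∈ h.D v := h.mem_D_iff.2 ⟨(h.mem_D_iff.1 hg).1, by rw [hvy]; exact hgy⟩
  set C := centralizer ({g} : Set G) with hC
  have hgo := h.odd_of_mem huN hg
  have hCodd : Odd (Nat.card C) := by
    haveI : Fact (Nat.Prime 2) := ⟨Nat.prime_two⟩
    rw [← Nat.not_even_iff_odd, even_iff_two_dvd]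
    intro h2
    obtain ⟨s, hs⟩ := exists_prime_orderOf_dvd_card' (G := C) 2 h2
    exact h.odd_cent hgo hg1 (s : G) (by rw [Subgroup.orderOf_coe]; exact hs) (mem_centralizer_single.1 s.2).symm
  have hugu := h.D_inv hu huN g hg
  have huC : u ∈ normalizer (C : Set G) := by
    apply Subgroup.mem_normalizer_fintype
    intro c hc
    show u * c * u⁻¹ ∈ C
    rw [hC] at hc ⊢
    replace hc := mem_centralizer_single.1 hc
    rw [mem_centralizer_single]
    have e1 : g = (u * g * u⁻¹)⁻¹ := by rw [hugu, inv_inv]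
    have hc' : g⁻¹ * c = c * g⁻¹ := by
      calc g⁻¹ * c = g⁻¹ * (c * g) * g⁻¹ := by group
        _ = g⁻¹ * (g * c) * g⁻¹ := by rw [hc]
        _ = _ := by group
    rw [e1]
    calc (u * g * u⁻¹)⁻¹ * (u * c * u⁻¹) = u * (g⁻¹ * c) * u⁻¹ := by group
      _ = u * (c * g⁻¹) * u⁻¹ := by rw [hc']
      _ = _ := by group
  have hinvC := h.inverts hCodd hu huC
  have hCcomm : ∀ d ∈ C, ∀ e ∈ C, d * e = e * d := by
    intro d hd e he
    have h1 := hinvC _ (mul_mem hd he)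
    have h2 : u * (d * e) * u⁻¹ = d⁻¹ * e⁻¹ := by
      rw [← hinvC d hd, ← hinvC e he]; group
    rw [h2, mul_inv_rev] at h1
    have h3 := congrArg (fun z => z⁻¹) h1
    simp only [mul_inv_rev, inv_inv] at h3
    exact h3.symm
  have hDuC : h.D u ≤ C := fun d hd => mem_centralizer_single.2 (h.D_comm hu huN g hg d hd)
  have hDvC : h.D v ≤ C := fun d hd => mem_centralizer_single.2 (h.D_comm hv hvN g hgv d hd)
  have hle : h.D v ≤ h.D u := by
    intro e he
    apply h.mem_D_of_norm hu huN (h.mem_D.1 he).1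
    apply Subgroup.mem_normalizer_fintype
    intro d hd
    show e * d * e⁻¹ ∈ h.D u
    rw [hCcomm e (hDvC he) d (hDuC hd), mul_inv_cancel_right]
    exact hd
  have heq : h.D v = h.D u := Subgroup.eq_of_le_of_card_ge hle (by rw [h.card_D hu huN, h.card_D hv hvN])
  rcases h.fix_D hu huN (y := y) (by
    intro d hd
    rw [← heq] at hd
    rw [← hvy]
    exact (h.mem_D_iff.1 hd).2) with h1 | h1
  · exact hy0 h1
  · exact hy1 h1

theorem fix_three {g : G} {x₁ x₂ x₃ : X} (h12 : x₁ ≠ x₂) (h13 : x₁ ≠ x₃) (h23 : x₂ ≠ x₃) (h1 : g • x₁ = x₁) (h2 : g • x₂ = x₂) (h3 : g • x₃ = x₃) : g = 1 := by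
  obtain ⟨k, hk⟩ := QuotientGroup.mk_surjective x₁
  have hk' : x₁ = k • (QuotientGroup.mk 1 : X) := by
    rw [← hk]
    show (QuotientGroup.mk k : X) = QuotientGroup.mk (k * 1)
    rw [mul_one]
  obtain ⟨v, hv, hvy⟩ := h.exists_inv (k⁻¹ • x₂)
  have hvN : v ∉ normalizer ((T : Subgroup G) : Set G) := by
    intro h0
    rw [← h.mk_one_iff, hvy, inv_smul_eq_iff] at h0
    exact h12 (hk'.trans h0.symm)
  have hconj : ∀ x : X, g • x = x → (k⁻¹ * g * k) • (k⁻¹ • x) = k⁻¹ • x := by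
    intro x hx
    rw [← mul_smul]
    have : k⁻¹ * g * k * k⁻¹ = k⁻¹ * g := by group
    rw [this, mul_smul, hx]
  have h4 := hconj x₁ h1
  rw [hk', inv_smul_smul] at h4
  have h5 := hconj x₂ h2
  rw [← hvy] at h5
  have h6 := h.fix_three_base hv hvN (g := k⁻¹ * g * k) (y := k⁻¹ • x₃) (h.mem_D_iff.2 ⟨h4, h5⟩) (by
    intro h0
    rw [inv_smul_eq_iff, ← hk'] at h0
    exact h13 h0.symm) (by
    intro h0
    rw [hvy] at h0
    exact h23 (smul_left_cancel _ h0).symm) (hconj x₃ h3)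
  have h7 : g = k * (k⁻¹ * g * k) * k⁻¹ := by group
  rw [h7, h6]; group

/-- `T` is transitive on the points different from the base point -/
theorem T_trans {x y : X} (hx : x ≠ QuotientGroup.mk 1) (hy : y ≠ QuotientGroup.mk 1) : ∃ t ∈ (T : Subgroup G), t • x = y := by
  obtain ⟨v, hv, hvx⟩ := h.exists_inv x
  obtain ⟨w, hw, hwy⟩ := h.exists_inv y
  have hvN : v ∉ normalizer ((T : Subgroup G) : Set G) := by
    intro h0
    rw [← h.mk_one_iff, hvx] at h0
    exact hx h0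
  have hwN : w ∉ normalizer ((T : Subgroup G) : Set G) := by
    intro h0
    rw [← h.mk_one_iff, hwy] at h0
    exact hy h0
  obtain ⟨d, hd, hd1⟩ := h.exists_d hv hvN
  -- d = d' t₀ with d' in D w
  obtain ⟨d', hd', t₀, ht₀, hdt⟩ := h.exists_dt hw hwN (h.mem_D.1 hd).1
  have hd'1 : d' ≠ 1 := by
    rintro rfl
    rw [one_mul] at hdt
    apply hd1
    apply h.eq_one_of_mem hvN hd
    rw [hdt]; exact ht₀
  have hd'o := h.odd_of_mem hwN hd'
  have hd'N := (h.mem_D.1 hd').1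
  -- t ↦ d'⁻¹ t d' t⁻¹ is a bijection of T
  have hmem : ∀ t ∈ (T : Subgroup G), d'⁻¹ * t * d' * t⁻¹ ∈ (T : Subgroup G) := by
    intro t ht
    apply mul_mem _ (inv_mem ht)
    have := (Subgroup.mem_normalizer_iff.1 (inv_mem hd'N) t).1 ht
    rwa [inv_inv] at this
  let f : ↥(T : Subgroup G) → ↥(T : Subgroup G) := fun t => ⟨d'⁻¹ * t * d' * (t : G)⁻¹, hmem t t.2⟩
  have hinj : Function.Injective f := by
    intro r s hrs
    have h1 : d'⁻¹ * r * d' * (r : G)⁻¹ = d'⁻¹ * s * d' * (s : G)⁻¹ := congrArg Subtype.val hrs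
    by_contra hne
    have h2 : ((s : G)⁻¹ * r) * d' = d' * ((s : G)⁻¹ * r) := by
      calc ((s : G)⁻¹ * r) * d' = (s : G)⁻¹ * d' * (d'⁻¹ * r * d' * (r : G)⁻¹) * r := by group
        _ = (s : G)⁻¹ * d' * (d'⁻¹ * s * d' * (s : G)⁻¹) * r := by rw [h1]
        _ = _ := by group
    have h3 : (s : G)⁻¹ * r ≠ 1 := by
      intro h0
      exact hne (Subtype.ext (inv_mul_eq_one.1 h0).symm)
    exact h.odd_cent hd'o hd'1 _ (h.order_two (mul_mem (inv_mem s.2) r.2) h3) h2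
  obtain ⟨t, ht⟩ := Finite.injective_iff_surjective.1 hinj ⟨t₀, ht₀⟩
  have ht' : d'⁻¹ * t * d' * (t : G)⁻¹ = t₀ := congrArg Subtype.val ht
  have h4 : d = (t : G) * d' * (t : G)⁻¹ := by rw [hdt, ← ht']; group
  refine ⟨(t : G)⁻¹, inv_mem t.2, ?_⟩
  by_contra hne
  -- d fixes 1, x, t y
  apply hd1
  have htN : (t : G) ∈ normalizer ((T : Subgroup G) : Set G) := le_normalizer t.2
  have ht1 : (t : G) • (QuotientGroup.mk 1 : X) = QuotientGroup.mk 1 := by
    rw [h.smul_mk_iff]; simpa using htN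
  refine h.fix_three (x₁ := QuotientGroup.mk 1) (x₂ := x) (x₃ := (t : G) • y) hx.symm ?_ ?_ (h.mem_D_iff.1 hd).1 (by rw [← hvx]; exact (h.mem_D_iff.1 hd).2) ?_
  · intro h0
    rw [← ht1] at h0
    exact hy (smul_left_cancel _ h0).symm
  · intro h0
    apply hne
    rw [h0, inv_smul_smul]
  · have h5 := (h.mem_D_iff.1 hd').2
    rw [hwy] at h5
    rw [h4, mul_smul, mul_smul, inv_smul_smul, h5]

theorem T_uniq {x : X} (hx : x ≠ QuotientGroup.mk 1) {s t : G} (hs : s ∈ (T : Subgroup G)) (ht : t ∈ (T : Subgroup G)) (hst : s • x = t • x) : s = t := by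
  obtain ⟨v, hv, hvx⟩ := h.exists_inv x
  have hvN : v ∉ normalizer ((T : Subgroup G) : Set G) := by
    intro h0
    rw [← h.mk_one_iff, hvx] at h0
    exact hx h0
  have h1 : t⁻¹ * s ∈ h.D v := by
    rw [h.mem_D_iff]
    refine ⟨?_, ?_⟩
    · rw [h.smul_mk_iff]
      have := le_normalizer (mul_mem (inv_mem ht) hs : t⁻¹ * s ∈ (T : Subgroup G))
      simpa using this
    · rw [hvx, mul_smul, hst, inv_smul_smul]
  have h2 := h.eq_one_of_mem hvN h1 (mul_mem (inv_mem ht) hs)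
  exact (inv_mul_eq_one.1 h2).symm

theorem trip_trans (x₁ x₂ x₃ y₁ y₂ y₃ : X) (hx12 : x₁ ≠ x₂) (hx13 : x₁ ≠ x₃) (hx23 : x₂ ≠ x₃) (hy12 : y₁ ≠ y₂) (hy13 : y₁ ≠ y₃) (hy23 : y₂ ≠ y₃) : 
    ∃ g : G, g • x₁ = y₁ ∧ g • x₂ = y₂ ∧ g • x₃ = y₃ := by
  obtain ⟨u, huN, hu⟩ := SE.exists_notMem h.str_emb
  have hu1 : (QuotientGroup.mk u : X) ≠ QuotientGroup.mk 1 := fun h0 => huN (h.mk_one_iff.1 h0)
  -- normal form
  have key : ∀ a₁ a₂ a₃ : X, a₁ ≠ a₂ → a₁ ≠ a₃ → a₂ ≠ a₃ → ∃ g : G, ∃ t ∈ (T : Subgroup G), t ≠ 1 ∧ g • (QuotientGroup.mk 1 : X) = a₁ ∧ g • (QuotientGroup.mk u : X) = a₂ ∧ 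
      g • (t • (QuotientGroup.mk u : X)) = a₃ := by
    intro a₁ a₂ a₃ h12 h13 h23
    obtain ⟨k, hk⟩ := QuotientGroup.mk_surjective a₁
    have hk' : a₁ = k • (QuotientGroup.mk 1 : X) := by
      rw [← hk]
      show (QuotientGroup.mk k : X) = QuotientGroup.mk (k * 1)
      rw [mul_one]
    have h2 : k⁻¹ • a₂ ≠ QuotientGroup.mk 1 := by
      intro h0; rw [inv_smul_eq_iff, ← hk'] at h0; exact h12 h0.symm
    have h3 : k⁻¹ • a₃ ≠ QuotientGroup.mk 1 := by
      intro h0; rw [inv_smul_eq_iff, ← hk'] at h0; exact h13 h0.symm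
    obtain ⟨r, hr, hr2⟩ := h.T_trans hu1 h2
    obtain ⟨s, hs, hs2⟩ := h.T_trans hu1 h3
    have hr1 : r • (QuotientGroup.mk 1 : X) = QuotientGroup.mk 1 := by
      rw [h.smul_mk_iff]; simpa using le_normalizer hr
    refine ⟨k * r, r⁻¹ * s, mul_mem (inv_mem hr) hs, ?_, ?_, ?_, ?_⟩
    · intro h0
      apply h23
      rw [inv_mul_eq_one] at h0
      rw [h0, hs2] at hr2
      exact (smul_left_cancel _ hr2).symm
    · rw [mul_smul, hr1, ← hk']
    · rw [mul_smul, hr2, smul_inv_smul]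
    · rw [← mul_smul]
      have : k * r * (r⁻¹ * s) = k * s := by group
      rw [this, mul_smul, hs2, smul_inv_smul]
  obtain ⟨g, t, ht, ht1, hg1, hg2, hg3⟩ := key x₁ x₂ x₃ hx12 hx13 hx23
  obtain ⟨g', t', ht', ht'1, hg'1, hg'2, hg'3⟩ := key y₁ y₂ y₃ hy12 hy13 hy23
  obtain ⟨d, hd, hdt⟩ := SE.trans h.str_emb hu huN (h.order_two ht ht1) (le_normalizer ht) (h.order_two ht' ht'1) (le_normalizer ht')
  obtain ⟨hd1, hd2⟩ := h.mem_D_iff.1 hd
  refine ⟨g' * d * g⁻¹, ?_, ?_, ?_⟩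
  · rw [← hg1, mul_smul, inv_smul_smul, mul_smul, hd1, hg'1]
  · rw [← hg2, mul_smul, inv_smul_smul, mul_smul, hd2, hg'2]
  · rw [← hg3, mul_smul, inv_smul_smul, mul_smul]
    have h5 : d • (t • (QuotientGroup.mk u : X)) = t' • (QuotientGroup.mk u : X) := by
      rw [← mul_smul]
      have : d * t = t' * d := by rw [← hdt]; group
      rw [this, mul_smul, hd2]
    rw [h5, hg'3]

end EC
end CfsgH3
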