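import Mathlib

set_option autoImplicit false

/-! The numerical part of the partition argument. -/

namespace CfsgH3

theorem fht_final {e w h : ℕ} {κ : ℝ} (he : 3 ≤ e) (hh : w * e + 1 ≤ h)
    (hodd : Odd e) (h7 : e = 3 → w = 2 → h = 7)
    (hcase : (w = 2 ∧ κ = 2 * e + 5) ∨ (4 ≤ w ∧ κ = 2 * e + 1))
    (hmain : 1 ≤ (1 - 1 / (h : ℝ)) / e + (e - 1) / (κ - 1) + (κ / (κ - 1)) * (e / (w * e + 1))) : False := by
  have heR : (3 : ℝ) ≤ e := by exact_mod_cast he
  have hhpos : (0 : ℝ) < h := by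
    have : 0 < h := by omega
    exact_mod_cast this
  rcases hcase with ⟨rfl, rfl⟩ | ⟨hw, rfl⟩
  · by_cases h3 : e = 3
    · subst h3
      have := h7 rfl rfl
      subst this
      norm_num at hmain
    · have he5 : 5 ≤ e := by
        obtain ⟨k, hk⟩ := hodd
        omega
      have heR5 : (5 : ℝ) ≤ e := by exact_mod_cast he5
      have h1 : (1 - 1 / (h : ℝ)) / e ≤ 1 / e := by
        apply div_le_div_of_nonneg_right _ (by linarith)
        have : (0 : ℝ) ≤ 1 / h := by positivity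
        linarith
      have h2 : (1 : ℝ) ≤ 1 / e + (e - 1) / (2 * e + 5 - 1) + ((2 * e + 5) / (2 * e + 5 - 1)) * (e / (2 * e + 1)) := by
        push_cast at hmain
        linarith
      have h3 : (1 : ℝ) / e + (e - 1) / (2 * e + 5 - 1) + ((2 * e + 5) / (2 * e + 5 - 1)) * (e / (2 * e + 1)) =
          ((2 * e + 4) * (2 * e + 1) + (e - 1) * e * (2 * e + 1) + (2 * e + 5) * e ^ 2) / (e * (2 * e + 4) * (2 * e + 1)) := by
        have a1 : (e : ℝ) ≠ 0 := by positivity
        have a2 : (2 * (e : ℝ) + 5 - 1) ≠ 0 := by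
          have : (0 : ℝ) < 2 * (e : ℝ) + 5 - 1 := by linarith
          positivity
        have a3 : (2 * (e : ℝ) + 1) ≠ 0 := by positivity
        have a4 : (2 * (e : ℝ) + 4) ≠ 0 := by positivity
        have a5 : (2 * (e : ℝ) + 5 - 1) = 2 * e + 4 := by ring
        rw [a5]
        field_simp
      rw [h3, le_div_iff₀ (by positivity)] at h2
      nlinarith [heR5, mul_self_nonneg ((e : ℝ) - 5)]
  · have hwR : (4 : ℝ) ≤ w := by exact_mod_cast hw
    have h1 : (1 - 1 / (h : ℝ)) / e ≤ 1 / e := by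
      apply div_le_div_of_nonneg_right _ (by linarith)
      have : (0 : ℝ) ≤ 1 / h := by positivity
      linarith
    have h2 : (e : ℝ) / (w * e + 1) ≤ e / (4 * e + 1) := by
      apply div_le_div_of_nonneg_left (by linarith) (by positivity)
      nlinarith
    have h3 : (0 : ℝ) ≤ (2 * e + 1) / (2 * e + 1 - 1) := by
      apply div_nonneg <;> linarith
    have h4 : (1 : ℝ) ≤ 1 / e + (e - 1) / (2 * e + 1 - 1) + ((2 * e + 1) / (2 * e + 1 - 1)) * (e / (4 * e + 1)) := by
      have := mul_le_mul_of_nonneg_left h2 h3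
      linarith
    have h5 : (1 : ℝ) / e + (e - 1) / (2 * e + 1 - 1) + ((2 * e + 1) / (2 * e + 1 - 1)) * (e / (4 * e + 1)) =
        (2 * (4 * e + 1) + (e - 1) * (4 * e + 1) + (2 * e + 1) * e) / (2 * e * (4 * e + 1)) := by
      have a1 : (e : ℝ) ≠ 0 := by positivity
      have a5 : (2 * (e : ℝ) + 1 - 1) = 2 * e := by ring
      rw [a5]
      field_simp
    rw [h5, le_div_iff₀ (by positivity)] at h4
    nlinarith

theorem fht_numeric {ι : Type*} [Fintype ι] [DecidableEq ι] (m : ι) (e w h : ι → ℕ) (g : ℝ) (hg : 0 < g)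
    (he : ∀ i, 3 ≤ e i) (heo : ∀ i, Odd (e i)) (hw : ∀ i, 2 ≤ w i) (hwe : ∀ i, Even (w i)) (hmin : ∀ i, e m ≤ e i)
    (hk : ∀ i, i ≠ m → w i * e i + 1 ≠ w m * e m + 1) (hh : ∀ i, w i * e i + 1 ≤ h i)
    (h7 : e m = 3 → w m = 2 → h m = 7) (A C : ι → ℤ) (hpar : ∀ i, i ≠ m → Odd (A i + C i))
    (h1 : 1 / g + ∑ i ∈ Finset.univ.erase m, (w i : ℝ) * (A i : ℝ) ^ 2 / (w i * e i + 1) ≤ e m / (w m * e m + 1))
    (h2 : ∑ i, (1 - 1 / (h i : ℝ)) / e i = 1 - 1 / g)
    (h3 : ∑ i ∈ Finset.univ.erase m, (w i : ℝ) * (C i : ℝ) ^ 2 ≤ e m - 1) : False := by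
  obtain ⟨κ, hκ, hcase⟩ : ∃ κ : ℝ, (∀ i, i ≠ m → κ ≤ w i * e i + 1) ∧
      ((w m = 2 ∧ κ = 2 * e m + 5) ∨ (4 ≤ w m ∧ κ = 2 * e m + 1)) := by
    by_cases hw2 : w m = 2
    · refine ⟨2 * e m + 5, fun i hi => ?_, Or.inl ⟨hw2, rfl⟩⟩
      have : 2 * e m + 5 ≤ w i * e i + 1 := by
        have a1 := hw i
        have a2 := hmin i
        have a3 := hk i hi
        rw [hw2] at a3
        obtain ⟨c, hc⟩ := hwe i
        obtain ⟨d, hd⟩ := heo i
        obtain ⟨f, hf⟩ := heo m
        have a4 := he m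
        rcases Nat.lt_or_ge c 2 with h | h
        · have hc1 : c = 1 := by omega
          have hw1 : w i = 2 := by omega
          rw [hw1] at a3 ⊢
          omega
        · have : 4 ≤ w i := by omega
          nlinarith
      exact_mod_cast this
    · have h4 : 4 ≤ w m := by
        have := hw m
        obtain ⟨c, hc⟩ := hwe m
        omega
      refine ⟨2 * e m + 1, fun i hi => ?_, Or.inr ⟨h4, rfl⟩⟩
      have : 2 * e m + 1 ≤ w i * e i + 1 := by
        have a1 := hw i
        have a2 := hmin i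
        nlinarith
      exact_mod_cast this
  have heR : (3 : ℝ) ≤ e m := by exact_mod_cast he m
  have hκ1 : 1 < κ := by
    rcases hcase with ⟨-, rfl⟩ | ⟨-, rfl⟩ <;> linarith
  have hκ0 : 0 < κ - 1 := by linarith
  -- the pointwise bound
  have hpt : ∀ i ∈ Finset.univ.erase m, (1 - 1 / (h i : ℝ)) / e i ≤
      (w i : ℝ) * (C i : ℝ) ^ 2 / (κ - 1) + (κ / (κ - 1)) * ((w i : ℝ) * (A i : ℝ) ^ 2 / (w i * e i + 1)) := by
    intro i hi
    have hi' : i ≠ m := Finset.ne_of_mem_erase hi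
    have b1 := hκ i hi'
    have b2 : (3 : ℝ) ≤ e i := by exact_mod_cast he i
    have b3 : (2 : ℝ) ≤ w i := by exact_mod_cast hw i
    have b4 : (0 : ℝ) < h i := by
      have := hh i
      have : 0 < h i := by omega
      exact_mod_cast this
    have b5 : (1 - 1 / (h i : ℝ)) / e i ≤ 1 / e i := by
      apply div_le_div_of_nonneg_right _ (by linarith)
      have : (0 : ℝ) ≤ 1 / h i := by positivity
      linarith
    have b6 : (0 : ℝ) < w i * e i := by positivity
    have b7 : (1 : ℝ) / e i = w i / (w i * e i) := by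
      field_simp
    refine b5.trans ?_
    have c1 : (0 : ℝ) ≤ (w i : ℝ) * (C i : ℝ) ^ 2 / (κ - 1) := by positivity
    have c2 : (0 : ℝ) ≤ (κ / (κ - 1)) * ((w i : ℝ) * (A i : ℝ) ^ 2 / (w i * e i + 1)) := by
      have : (0 : ℝ) ≤ κ / (κ - 1) := div_nonneg (by linarith) hκ0.le
      positivity
    by_cases hA : A i = 0
    · have hC : (1 : ℝ) ≤ (C i : ℝ) ^ 2 := by
        have hodd := hpar i hi'
        rw [hA, zero_add] at hodd
        have h0 : C i ≠ 0 := by
          intro h0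
          rw [h0] at hodd
          exact absurd hodd (by decide)
        have : 1 ≤ (C i) ^ 2 := by
          have : 0 < (C i) ^ 2 := by positivity
          omega
        exact_mod_cast this
      have : (1 : ℝ) / e i ≤ (w i : ℝ) * (C i : ℝ) ^ 2 / (κ - 1) := by
        rw [b7]
        have d1 : (w i : ℝ) / (w i * e i) ≤ w i / (κ - 1) :=
          div_le_div_of_nonneg_left (by linarith) hκ0 (by linarith)
        have d2 : (w i : ℝ) / (κ - 1) ≤ (w i : ℝ) * (C i : ℝ) ^ 2 / (κ - 1) := by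
          apply div_le_div_of_nonneg_right _ hκ0.le
          nlinarith
        exact d1.trans d2
      linarith
    · have hA1 : (1 : ℝ) ≤ (A i : ℝ) ^ 2 := by
        have : 1 ≤ (A i) ^ 2 := by
          have : 0 < (A i) ^ 2 := by positivity
          omega
        exact_mod_cast this
      have : (1 : ℝ) / e i ≤ (κ / (κ - 1)) * ((w i : ℝ) * (A i : ℝ) ^ 2 / (w i * e i + 1)) := by
        have d1 : (κ / (κ - 1)) * ((w i : ℝ) / (w i * e i + 1)) ≤
            (κ / (κ - 1)) * ((w i : ℝ) * (A i : ℝ) ^ 2 / (w i * e i + 1)) := by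
          apply mul_le_mul_of_nonneg_left _ (div_nonneg (by linarith) hκ0.le)
          apply div_le_div_of_nonneg_right _ (by positivity)
          nlinarith
        refine le_trans ?_ d1
        rw [b7, div_mul_div_comm, div_le_div_iff₀ b6 (by positivity)]
        have d2 : (κ - 1) * (w i * e i + 1 : ℝ) ≤ κ * (w i * e i) := by nlinarith
        nlinarith
      linarith
  have hsum := Finset.sum_le_sum hpt
  rw [Finset.sum_add_distrib, ← Finset.mul_sum, ← Finset.sum_div] at hsum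
  rw [← Finset.add_sum_erase Finset.univ _ (Finset.mem_univ m)] at h2
  have k1 : (∑ i ∈ Finset.univ.erase m, (w i : ℝ) * (C i : ℝ) ^ 2) / (κ - 1) ≤ (e m - 1) / (κ - 1) :=
    div_le_div_of_nonneg_right h3 hκ0.le
  have k2 : (κ / (κ - 1)) * (∑ i ∈ Finset.univ.erase m, (w i : ℝ) * (A i : ℝ) ^ 2 / (w i * e i + 1)) ≤
      (κ / (κ - 1)) * (e m / (w m * e m + 1) - 1 / g) := by
    apply mul_le_mul_of_nonneg_left _ (div_nonneg (by linarith) hκ0.le)
    linarith
  have k3 : 1 / g ≤ (κ / (κ - 1)) * (1 / g) := by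
    have : 1 ≤ κ / (κ - 1) := by rw [le_div_iff₀ hκ0]; linarith
    have h5 : 0 < 1 / g := by positivity
    nlinarith
  refine fht_final (κ := κ) (he m) (hh m) (heo m) h7 hcase ?_
  have k4 : (κ / (κ - 1)) * ((e m : ℝ) / (w m * e m + 1) - 1 / g) =
      (κ / (κ - 1)) * ((e m : ℝ) / (w m * e m + 1)) - (κ / (κ - 1)) * (1 / g) := by ring
  linarith

end CfsgH3
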