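import Cfsg.Agent.H4.Sib2
import Cfsg.Agent.H4.Isom
import Cfsg.Agent.H4.Odd
import Cfsg.Agent.H4.TIcount
import Cfsg.Agent.H4.Coh2
import Cfsg.Agent.H4.Tools
import Cfsg.Agent.H3.FHTnum

set_option autoImplicit false

/-! Families of exceptional characters attached to TI-subgroups, and the partition argument. -/

namespace CfsgH3

open Cfsg CfsgH4 ComplexConjugate

universe u

structure Fam (G : Type u) [Group G] [Fintype G] where
  e : ℕ
  w : ℕ
  h : ℕ
  S : Set G
  ε : ℂ
  B : Fin w → (G → ℂ)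
  μ : Fin w → (G → ℂ)
  bar : Fin w → Fin w
  he : 3 ≤ e
  heodd : Odd e
  hw : 2 ≤ w
  hweven : Even w
  hh : w * e + 1 ≤ h
  h7 : e = 3 → w = 2 → h = 7
  hε : ε = 1 ∨ ε = -1
  hμ : ∀ j, IsIrrCharacter G (μ j)
  hμi : Function.Injective μ
  hB : ∀ j, IsGeneralizedCharacter G (B j)
  hBS : ∀ j x, x ∉ S → B j x = 0
  hBB : ∀ i j, classInner (B i) (B j) = (e : ℂ) + if i = j then 1 else 0
  hB1 : ∀ j, classInner (B j) (fun _ => 1) = 1
  hd : ∀ i j, B i - B j = ε • (μ j - μ i)
  hbar : ∀ j, (fun x => conj (B j x)) = B (bar j)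
  hμbar : ∀ j, (fun x => conj (μ j x)) = μ (bar j)
  h1S : (1 : G) ∉ S
  hS : (Nat.card S : ℝ) * (h * e) = Nat.card G * (h - 1)

variable {G : Type u} [Group G] [Fintype G]

theorem inner_disj {f g : G → ℂ} (h : ∀ x, f x = 0 ∨ g x = 0) : classInner f g = 0 := by
  rw [classInner_def, Finset.sum_eq_zero, mul_zero]
  intro x _
  rcases h x with h | h <;> simp [h]

theorem Fam.exists_ne (F : Fam G) (a : Fin F.w) : ∃ a', a' ≠ a := by
  haveI : Nontrivial (Fin F.w) := Fin.nontrivial_iff_two_le.2 F.hw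
  exact _root_.exists_ne a

theorem Fam.B_disj (F₁ F₂ : Fam G) (hdisj : ∀ x, x ∈ F₁.S → x ∉ F₂.S) (a b : Fin F₁.w) (c : Fin F₂.w) :
    classInner (F₁.B a) (F₂.B c) = 0 := by
  apply inner_disj
  intro x
  by_cases hx : x ∈ F₁.S
  · exact Or.inr (F₂.hBS _ x (hdisj x hx))
  · exact Or.inl (F₁.hBS _ x hx)

theorem Fam.ε_conj (F : Fam G) : conj F.ε = F.ε := by
  rcases F.hε with h | h <;> simp [h]

theorem Fam.ε_sq (F : Fam G) : F.ε * F.ε = 1 := by
  rcases F.hε with h | h <;> simp [h]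

theorem Fam.μ_ne (F₁ F₂ : Fam G) (hdisj : ∀ x, x ∈ F₁.S → x ∉ F₂.S) (a : Fin F₁.w) (b : Fin F₂.w) :
    F₁.μ a ≠ F₂.μ b := by
  intro hab
  obtain ⟨a', ha'⟩ := F₁.exists_ne a
  obtain ⟨b', hb'⟩ := F₂.exists_ne b
  have h0 : classInner (F₁.B a' - F₁.B a) (F₂.B b' - F₂.B b) = 0 := by
    rw [classInner_sub_left, classInner_sub_right, classInner_sub_right, F₁.B_disj F₂ hdisj a' a, F₁.B_disj F₂ hdisj a' a,
      F₁.B_disj F₂ hdisj a a, F₁.B_disj F₂ hdisj a a]
    ring
  have h1 : F₁.μ a ≠ F₂.μ b' := by rw [hab]; exact fun h => hb' (F₂.hμi h.symm)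
  have h2 : F₁.μ a' ≠ F₂.μ b := by rw [← hab]; exact fun h => ha' (F₁.hμi h)
  classical
  rw [F₁.hd, F₂.hd, classInner_smul_left, classInner_smul_right,
    classInner_diff (F₁.hμ _) (F₁.hμ _) (F₂.hμ _) (F₂.hμ _), if_pos hab, if_neg h1, if_neg h2] at h0
  rcases F₁.hε with e1 | e1 <;> rcases F₂.hε with e2 | e2 <;> rw [e1, e2] at h0 <;> split_ifs at h0 <;> norm_num at h0

theorem Fam.μ_ne_one (F : Fam G) (a : Fin F.w) : F.μ a ≠ fun _ => 1 := by
  intro h
  obtain ⟨a', ha'⟩ := F.exists_ne a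
  have h1 : classInner (F.B a' - F.B a) (fun _ : G => (1 : ℂ)) = 0 := by
    rw [classInner_sub_left, F.hB1, F.hB1, sub_self]
  have h2 : F.μ a' ≠ fun _ => 1 := by rw [← h]; exact fun h => ha' (F.hμi h)
  rw [F.hd, classInner_smul_left, classInner_sub_left, classInner_irr_ne (F.hμ a') isIrrCharacter_one h2, h,
    classInner_irr_self isIrrCharacter_one] at h1
  rcases F.hε with e1 | e1 <;> rw [e1] at h1 <;> norm_num at h1

theorem Fam.coef (F₁ F₂ : Fam G) (hdisj : ∀ x, x ∈ F₁.S → x ∉ F₂.S) :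
    ∃ n : ℤ, ∀ j l, classInner (F₁.B j) (F₂.μ l) = n := by
  have j0 : Fin F₁.w := ⟨0, by have := F₁.hw; omega⟩
  have l0 : Fin F₂.w := ⟨0, by have := F₂.hw; omega⟩
  obtain ⟨n, hn⟩ := IsGen.inner_int (F₁.hB j0) (IsCharacter.isGen (IsIrr.isCharacter (F₂.hμ l0)))
  refine ⟨n, fun j l => ?_⟩
  have h1 : classInner (F₁.B j - F₁.B j0) (F₂.μ l0) = 0 := by
    rw [F₁.hd, classInner_smul_left, classInner_sub_left, classInner_irr_ne (F₁.hμ _) (F₂.hμ _) (F₁.μ_ne F₂ hdisj _ _),
      classInner_irr_ne (F₁.hμ _) (F₂.hμ _) (F₁.μ_ne F₂ hdisj _ _), sub_zero, mul_zero]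
  have h2 : F₂.μ l - F₂.μ l0 = F₂.ε • (F₂.B l0 - F₂.B l) := by
    rw [F₂.hd, smul_smul, F₂.ε_sq, one_smul]
  have h3 : classInner (F₁.B j) (F₂.μ l - F₂.μ l0) = 0 := by
    rw [h2, classInner_smul_right, classInner_sub_right, F₁.B_disj F₂ hdisj j j, F₁.B_disj F₂ hdisj j j, sub_zero, mul_zero]
  rw [classInner_sub_left, sub_eq_zero] at h1
  rw [classInner_sub_right, sub_eq_zero] at h3
  rw [h3, h1, hn]

/-- Parity of inner products of real generalized characters in groups of odd order. -/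
theorem real_parity (hodd : Odd (Nat.card G)) {R S : G → ℂ} (hR : IsGeneralizedCharacter G R) (hS : IsGeneralizedCharacter G S)
    (hRr : (fun x => conj (R x)) = R) (hSr : (fun x => conj (S x)) = S) {a b c : ℤ} (ha : classInner R S = a)
    (hb : classInner R (fun _ => 1) = b) (hc : classInner S (fun _ => 1) = c) : ((a : ℤ) : ZMod 2) = b * c := by
  classical
  have h1 : ∀ φ : IrrCharacter G, ∃ n : ℤ, classInner R (φ : G → ℂ) = n :=
    fun φ => IsGen.inner_int hR (IsCharacter.isGen (IsIrr.isCharacter φ.2))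
  have h2 : ∀ φ : IrrCharacter G, ∃ n : ℤ, classInner S (φ : G → ℂ) = n :=
    fun φ => IsGen.inner_int hS (IsCharacter.isGen (IsIrr.isCharacter φ.2))
  choose r hr using h1
  choose s hs using h2
  have hconj : ∀ (T : G → ℂ) (hT : (fun x => conj (T x)) = T) (φ : IrrCharacter G),
      classInner T (irrConj φ : G → ℂ) = conj (classInner T (φ : G → ℂ)) := by
    intro T hT φ
    have h3 := classInner_conj_conj T (φ : G → ℂ)
    rw [hT] at h3
    exact h3
  have hrc : ∀ φ, r (irrConj φ) = r φ := by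
    intro φ
    have := hconj R hRr φ
    rw [hr, hr, conj_int] at this
    exact_mod_cast this
  have hsc : ∀ φ, s (irrConj φ) = s φ := by
    intro φ
    have := hconj S hSr φ
    rw [hs, hs, conj_int] at this
    exact_mod_cast this
  have h3 : a = ∑ φ : IrrCharacter G, r φ * s φ := by
    have h4 := parseval (IsGen.isClassFunction hR) (IsGen.isClassFunction hS)
    rw [ha] at h4
    have h5 : ((a : ℤ) : ℂ) = ((∑ φ : IrrCharacter G, r φ * s φ : ℤ) : ℂ) := by
      rw [h4]; push_cast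
      exact Finset.sum_congr rfl fun φ _ => by rw [hr, hs, conj_int]
    exact_mod_cast h5
  set o : IrrCharacter G := ⟨fun _ => 1, isIrrCharacter_one⟩ with ho
  have hro : r o = b := by
    have := hr o
    have h4 : classInner R (o : G → ℂ) = b := hb
    rw [h4] at this
    exact_mod_cast this.symm
  have hso : s o = c := by
    have := hs o
    have h4 : classInner S (o : G → ℂ) = c := hc
    rw [h4] at this
    exact_mod_cast this.symm
  rw [h3, ← Finset.add_sum_erase Finset.univ _ (Finset.mem_univ o), hro, hso]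
  push_cast
  have h6 : ∑ φ ∈ Finset.univ.erase o, ((r φ : ZMod 2) * (s φ : ZMod 2)) = 0 := by
    have hfix : ∀ φ : IrrCharacter G, irrConj φ = φ → φ = o := by
      intro φ hφ
      apply Subtype.ext
      exact real_irr_trivial hodd φ.2 ((irrConj_eq_iff φ).1 hφ)
    have hoo : irrConj o = o := by
      apply Subtype.ext
      ext g
      simp [irrConj, ho]
    refine Finset.sum_involution (fun φ _ => irrConj φ) ?_ ?_ ?_ ?_
    · intro φ _
      rw [hrc, hsc]
      exact CharTwo.add_self_eq_zero _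
    · intro φ hφ _ h
      exact (Finset.ne_of_mem_erase hφ) (hfix φ h)
    · intro φ hφ
      refine Finset.mem_erase.2 ⟨fun h => (Finset.ne_of_mem_erase hφ) ?_, Finset.mem_univ _⟩
      rw [← irrConj_irrConj φ, h, hoo]
    · intro φ _
      exact irrConj_irrConj φ
  rw [h6, add_zero]

noncomputable def Fam.R (F : Fam G) (j : Fin F.w) : G → ℂ := F.B j + F.ε • F.μ j

theorem Fam.R_gen (F : Fam G) (j : Fin F.w) : IsGeneralizedCharacter G (F.R j) := by
  have h1 := IsCharacter.isGen (IsIrr.isCharacter (F.hμ j))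
  have h2 : IsGeneralizedCharacter G (F.ε • F.μ j) := by
    rcases F.hε with h | h
    · rw [h, one_smul]; exact h1
    · rw [h, neg_smul, one_smul]; exact isGen_neg h1
  exact isGen_add (F.hB j) h2

theorem Fam.R_real (F : Fam G) (j : Fin F.w) : (fun x => conj (F.R j x)) = F.R j := by
  have h1 : (fun x => conj (F.R j x)) = F.B (F.bar j) + F.ε • F.μ (F.bar j) := by
    ext x
    rw [Fam.R, Pi.add_apply, Pi.smul_apply, smul_eq_mul, map_add, map_mul, F.ε_conj, Pi.add_apply, Pi.smul_apply, smul_eq_mul,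
      ← F.hbar, ← F.hμbar]
  rw [h1, Fam.R]
  have h2 := F.hd (F.bar j) j
  have h3 : F.B (F.bar j) = F.B j + F.ε • (F.μ j - F.μ (F.bar j)) := by rw [← h2]; abel
  rw [h3, smul_sub]; abel

theorem Fam.parity (hodd : Odd (Nat.card G)) (F₁ F₂ : Fam G) (hdisj : ∀ x, x ∈ F₁.S → x ∉ F₂.S) {n m : ℤ}
    (hn : ∀ j l, classInner (F₁.B j) (F₂.μ l) = n) (hm : ∀ j l, classInner (F₂.B j) (F₁.μ l) = m) : Odd (n + m) := by
  have j : Fin F₁.w := ⟨0, by have := F₁.hw; omega⟩
  have l : Fin F₂.w := ⟨0, by have := F₂.hw; omega⟩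
  have h1 : classInner (F₁.R j) (F₂.R l) = F₂.ε * n + F₁.ε * m := by
    rw [Fam.R, Fam.R, classInner_add_left, classInner_add_right, classInner_add_right, classInner_smul_left, classInner_smul_left,
      classInner_smul_right, classInner_smul_right, F₁.B_disj F₂ hdisj j j, hn,
      classInner_irr_ne (F₁.hμ _) (F₂.hμ _) (F₁.μ_ne F₂ hdisj _ _), ← classInner_conj_symm, hm, F₂.ε_conj, conj_int]
    ring
  have h2 : ∀ (F : Fam G) (j : Fin F.w), classInner (F.R j) (fun _ => 1) = ((1 : ℤ) : ℂ) := by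
    intro F j
    rw [Fam.R, classInner_add_left, classInner_smul_left, F.hB1, classInner_irr_ne (F.hμ _) isIrrCharacter_one (F.μ_ne_one _)]
    simp
  have key : ∀ a : ℤ, classInner (F₁.R j) (F₂.R l) = a → ((a : ℤ) : ZMod 2) = 1 := by
    intro a ha
    have := real_parity hodd (F₁.R_gen j) (F₂.R_gen l) (F₁.R_real j) (F₂.R_real l) ha (h2 F₁ j) (h2 F₂ l)
    simpa using this
  have hneg : ∀ x : ZMod 2, -x = x := by decide
  have h3 : ((n + m : ℤ) : ZMod 2) = 1 := by
    rcases F₁.hε with e1 | e1 <;> rcases F₂.hε with e2 | e2 <;> rw [e1, e2] at h1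
    · rw [key (n + m) (by rw [h1]; push_cast; ring)]
    · have := key (-n + m) (by rw [h1]; push_cast; ring)
      push_cast at this ⊢
      rwa [hneg] at this
    · have := key (n + -m) (by rw [h1]; push_cast; ring)
      push_cast at this ⊢
      rwa [hneg] at this
    · have := key (-n + -m) (by rw [h1]; push_cast; ring)
      push_cast at this ⊢
      rwa [hneg, hneg] at this
  rw [← Int.not_even_iff_odd]
  intro he
  have : ((n + m : ℤ) : ZMod 2) = 0 := by
    rw [ZMod.intCast_zmod_eq_zero_iff_dvd]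
    exact even_iff_two_dvd.1 he
  rw [this] at h3
  exact absurd h3 (by decide)

end CfsgH3
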