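import Cfsg.Agent.H3.Fam

set_option autoImplicit false

/-! The partition argument. -/

namespace CfsgH3

open Cfsg CfsgH4 ComplexConjugate

universe u
variable {G : Type u} [Group G] [Fintype G]

theorem Fam.bessel_bound {ι : Type*} [Fintype ι] [DecidableEq ι] (F : ι → Fam G)
    (hdisj : ∀ i j, i ≠ j → ∀ x, x ∈ (F i).S → x ∉ (F j).S) (m : ι) (C : ι → ℤ)
    (hC : ∀ i, i ≠ m → ∀ j l, classInner ((F m).B j) ((F i).μ l) = C i) :
    ∑ i ∈ Finset.univ.erase m, ((F i).w : ℝ) * (C i : ℝ) ^ 2 ≤ (F m).e - 1 := by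
  classical
  have j0 : Fin (F m).w := ⟨0, by have := (F m).hw; omega⟩
  let φ : (Σ i : ι, Fin (F i).w) ⊕ Unit → (G → ℂ) := fun z => match z with
    | Sum.inl p => (F p.1).μ p.2
    | Sum.inr _ => fun _ => 1
  have hφirr : ∀ z, IsIrrCharacter G (φ z) := by
    rintro (⟨i, l⟩ | _)
    · exact (F i).hμ l
    · exact isIrrCharacter_one
  have hφinj : ∀ z z', z ≠ z' → φ z ≠ φ z' := by
    rintro (⟨i, l⟩ | ⟨⟩) (⟨i', l'⟩ | ⟨⟩) hne h
    · by_cases hi : i = i'
      · subst hi
        have hl : l = l' := (F i).hμi h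
        exact hne (by rw [hl])
      · exact (F i).μ_ne (F i') (hdisj i i' hi) l l' h
    · exact (F i).μ_ne_one l h
    · exact (F i').μ_ne_one l' h.symm
    · exact hne rfl
  have hb := (bessel Finset.univ φ (fun i _ j _ hij => classInner_irr_ne (hφirr i) (hφirr j) (hφinj i j hij))
    (fun i _ h => IsIrr.one_ne_zero (hφirr i) (by rw [h]; rfl)) ((F m).B j0)).2
  have h1 : (classInner ((F m).B j0) ((F m).B j0)).re = (F m).e + 1 := by
    rw [(F m).hBB, if_pos rfl]; simp
  rw [h1] at hb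
  have h2 := self_re_nonneg ((F m).B j0 - ∑ j, (classInner ((F m).B j0) (φ j) / classInner (φ j) (φ j)) • φ j)
  have h3 : ∑ z, ‖classInner ((F m).B j0) (φ z)‖ ^ 2 / (classInner (φ z) (φ z)).re ≤ (F m).e + 1 := by linarith
  have h4 : ∀ z, ‖classInner ((F m).B j0) (φ z)‖ ^ 2 / (classInner (φ z) (φ z)).re = ‖classInner ((F m).B j0) (φ z)‖ ^ 2 := by
    intro z
    rw [classInner_irr_self (hφirr z), Complex.one_re, div_one]
  rw [Finset.sum_congr rfl (fun z _ => h4 z), Fintype.sum_sum_type, Fintype.sum_sigma] at h3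
  have h5 : ∑ _x : Unit, ‖classInner ((F m).B j0) (φ (Sum.inr _x))‖ ^ 2 = 1 := by
    rw [Fintype.sum_unique]
    show ‖classInner ((F m).B j0) (fun _ => 1)‖ ^ 2 = 1
    rw [(F m).hB1]; simp
  rw [h5, ← Finset.add_sum_erase Finset.univ _ (Finset.mem_univ m)] at h3
  have h6 : ∀ i ∈ Finset.univ.erase m, ∑ l : Fin (F i).w, ‖classInner ((F m).B j0) (φ (Sum.inl ⟨i, l⟩))‖ ^ 2 = ((F i).w : ℝ) * (C i : ℝ) ^ 2 := by
    intro i hi
    have h7 : ∀ l : Fin (F i).w, ‖classInner ((F m).B j0) (φ (Sum.inl ⟨i, l⟩))‖ ^ 2 = (C i : ℝ) ^ 2 := by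
      intro l
      show ‖classInner ((F m).B j0) ((F i).μ l)‖ ^ 2 = (C i : ℝ) ^ 2
      rw [hC i (Finset.ne_of_mem_erase hi), Complex.norm_intCast, sq_abs]
    rw [Finset.sum_congr rfl (fun l _ => h7 l), Finset.sum_const, Finset.card_univ, Fintype.card_fin, nsmul_eq_mul]
  rw [Finset.sum_congr rfl h6] at h3
  have h7 : 1 ≤ ∑ l : Fin (F m).w, ‖classInner ((F m).B j0) (φ (Sum.inl ⟨m, l⟩))‖ ^ 2 := by
    obtain ⟨j1, hj1⟩ := (F m).exists_ne j0
    have h8 : (F m).μ j0 - (F m).μ j1 = (F m).ε • ((F m).B j1 - (F m).B j0) := by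
      rw [(F m).hd, smul_smul, (F m).ε_sq, one_smul]
    have h9 : classInner ((F m).B j0) ((F m).μ j0 - (F m).μ j1) = - (F m).ε := by
      rw [h8, classInner_smul_right, classInner_sub_right, (F m).hBB, (F m).hBB, if_neg (Ne.symm hj1), if_pos rfl, (F m).ε_conj]
      ring
    obtain ⟨l, hl⟩ : ∃ l, classInner ((F m).B j0) ((F m).μ l) ≠ 0 := by
      by_contra hcon
      push Not at hcon
      rw [classInner_sub_right, hcon, hcon, sub_zero] at h9
      rcases (F m).hε with h | h <;> rw [h] at h9 <;> norm_num at h9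
    obtain ⟨n, hn⟩ := IsGen.inner_int ((F m).hB j0) (IsCharacter.isGen (IsIrr.isCharacter ((F m).hμ l)))
    have h10 : 1 ≤ ‖classInner ((F m).B j0) (φ (Sum.inl ⟨m, l⟩))‖ ^ 2 := by
      show 1 ≤ ‖classInner ((F m).B j0) ((F m).μ l)‖ ^ 2
      rw [hn] at hl ⊢
      rw [Complex.norm_intCast, sq_abs]
      have h11 : n ≠ 0 := fun h => hl (by rw [h]; simp)
      have h12 : 1 ≤ n ^ 2 := by
        have : 0 < n ^ 2 := by positivity
        omega
      exact_mod_cast h12
    exact h10.trans (Finset.single_le_sum (f := fun l => ‖classInner ((F m).B j0) (φ (Sum.inl ⟨m, l⟩))‖ ^ 2)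
      (fun l _ => by positivity) (Finset.mem_univ l))
  linarith

open Classical in
noncomputable def NS (S : Set G) (f : G → ℂ) : ℝ := (Nat.card G : ℝ)⁻¹ * ∑ x : G, if x ∈ S then ‖f x‖ ^ 2 else 0

theorem Fam.NS_ge (F : Fam G) (f : G → ℂ) (c x : Fin F.w → ℝ) (hc : ∀ j, classInner f (F.B j) = (c j : ℂ)) :
    2 * ∑ j, x j * c j - F.e * (∑ j, x j) ^ 2 - ∑ j, x j ^ 2 ≤ NS F.S f := by
  classical
  set fo : G → ℂ := fun y => if y ∈ F.S then f y else 0 with hfo
  set v : G → ℂ := ∑ j, (x j : ℂ) • F.B j with hv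
  have h0 := self_re_nonneg (fo - v)
  have h1 : (classInner fo fo).re = NS F.S f := by
    rw [classInner_self_eq, Complex.ofReal_re, NS]
    congr 1
    refine Finset.sum_congr rfl fun y _ => ?_
    rw [hfo]
    by_cases h : y ∈ F.S
    · simp [h]
    · simp [h]
  have h2 : ∀ j, classInner fo (F.B j) = (c j : ℂ) := by
    intro j
    rw [← hc j, classInner_def, classInner_def]
    congr 1
    refine Finset.sum_congr rfl fun y _ => ?_
    by_cases h : y ∈ F.S
    · simp [hfo, h]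
    · simp [hfo, h, F.hBS j y h]
  have h3 : classInner fo v = ((∑ j, x j * c j : ℝ) : ℂ) := by
    rw [hv, classInner_sum_right]
    push_cast
    refine Finset.sum_congr rfl fun j _ => ?_
    rw [classInner_smul_right, h2, Complex.conj_ofReal]
  have h4 : classInner v fo = ((∑ j, x j * c j : ℝ) : ℂ) := by
    rw [← classInner_conj_symm, h3, Complex.conj_ofReal]
  have h5 : classInner v v = ((F.e * (∑ j, x j) ^ 2 + ∑ j, x j ^ 2 : ℝ) : ℂ) := by
    rw [hv, classInner_sum_left]
    have h6 : ∀ j, classInner ((x j : ℂ) • F.B j) (∑ l, (x l : ℂ) • F.B l) = ((x j * (F.e * ∑ l, x l + x j) : ℝ) : ℂ) := by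
      intro j
      rw [classInner_smul_left, classInner_sum_right]
      have h7 : ∀ l, classInner (F.B j) ((x l : ℂ) • F.B l) = ((x l * F.e + if j = l then x l else 0 : ℝ) : ℂ) := by
        intro l
        rw [classInner_smul_right, Complex.conj_ofReal, F.hBB]
        by_cases h : j = l
        · simp [h]; ring
        · simp [h]
      rw [Finset.sum_congr rfl (fun l _ => h7 l), ← Complex.ofReal_sum, Finset.sum_add_distrib, Finset.sum_ite_eq, if_pos (Finset.mem_univ _),
        ← Finset.sum_mul]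
      push_cast; ring
    rw [Finset.sum_congr rfl (fun j _ => h6 j), ← Complex.ofReal_sum]
    congr 1
    simp only [mul_add]
    rw [Finset.sum_add_distrib]
    congr 1
    · rw [← Finset.sum_mul]; ring
    · exact Finset.sum_congr rfl fun j _ => by ring
  have h6 : classInner (fo - v) (fo - v) = classInner fo fo - classInner fo v - classInner v fo + classInner v v := by
    rw [classInner_sub_left, classInner_sub_right, classInner_sub_right]; ring
  rw [h6, h3, h4, h5] at h0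
  simp only [Complex.add_re, Complex.sub_re, Complex.ofReal_re] at h0
  rw [h1] at h0
  linarith

theorem Fam.NS_const (F : Fam G) (f : G → ℂ) (a : ℤ) (hc : ∀ j, classInner f (F.B j) = (a : ℂ)) :
    (F.w : ℝ) * (a : ℝ) ^ 2 / (F.w * F.e + 1) ≤ NS F.S f := by
  have hk : (0 : ℝ) < F.w * F.e + 1 := by positivity
  have h := F.NS_ge f (fun _ => (a : ℝ)) (fun _ => (a : ℝ) / (F.w * F.e + 1)) (fun j => by rw [hc j]; simp)
  refine le_trans (le_of_eq ?_) h
  rw [Finset.sum_const, Finset.sum_const, Finset.sum_const, Finset.card_univ, Fintype.card_fin]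
  simp only [nsmul_eq_mul]
  field_simp
  ring

theorem Fam.NS_self (F : Fam G) (j0 : Fin F.w) : 1 - (F.e : ℝ) / (F.w * F.e + 1) ≤ NS F.S (F.μ j0) := by
  classical
  obtain ⟨j1, hj1⟩ := F.exists_ne j0
  obtain ⟨a, ha⟩ := IsGen.inner_int (IsCharacter.isGen (IsIrr.isCharacter (F.hμ j0))) (F.hB j1)
  obtain ⟨ε, hε, hεs⟩ : ∃ ε : ℝ, (ε : ℂ) = F.ε ∧ ε ^ 2 = 1 := by
    rcases F.hε with h | h
    · exact ⟨1, by rw [h]; simp, by norm_num⟩
    · exact ⟨-1, by rw [h]; simp, by norm_num⟩
  have hc : ∀ j, classInner (F.μ j0) (F.B j) = ((if j = j0 then (a : ℝ) - ε else (a : ℝ) : ℝ) : ℂ) := by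
    intro j
    have h1 : F.B j = F.B j1 + F.ε • (F.μ j1 - F.μ j) := by rw [← F.hd]; abel
    rw [h1, classInner_add_right, ha, classInner_smul_right, classInner_sub_right, F.ε_conj,
      classInner_irr_ne (F.hμ j0) (F.hμ j1) (fun h => hj1 (F.hμi h).symm)]
    by_cases h : j = j0
    · rw [h, if_pos rfl, classInner_irr_self (F.hμ j0), ← hε]; push_cast; ring
    · rw [if_neg h, classInner_irr_ne (F.hμ j0) (F.hμ j) (fun h' => h (F.hμi h').symm)]; push_cast; ring
  have hwR : (2 : ℝ) ≤ F.w := by exact_mod_cast F.hw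
  have heR : (3 : ℝ) ≤ F.e := by exact_mod_cast F.he
  set k : ℝ := F.w * F.e + 1 with hk
  have hk0 : 0 < k := by positivity
  set s : ℝ := (F.w * a - ε) / k with hs
  have h := F.NS_ge (F.μ j0) _ (fun j => if j = j0 then (a : ℝ) - F.e * s - ε else (a : ℝ) - F.e * s) hc
  refine le_trans ?_ h
  have s1 : ∀ (u v : ℝ), ∑ j : Fin F.w, (if j = j0 then u else v) = u + (F.w - 1) * v := by
    intro u v
    rw [Finset.sum_ite, Finset.sum_const, Finset.sum_const, Finset.filter_eq', if_pos (Finset.mem_univ _), Finset.card_singleton,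
      one_smul, Finset.filter_ne', Finset.card_erase_of_mem (Finset.mem_univ _), Finset.card_univ, Fintype.card_fin, nsmul_eq_mul,
      Nat.cast_sub (by have := F.hw; omega)]
    push_cast; ring
  have e1 : ∑ j : Fin F.w, (if j = j0 then (a : ℝ) - F.e * s - ε else (a : ℝ) - F.e * s) * (if j = j0 then (a : ℝ) - ε else (a : ℝ)) =
      ((a : ℝ) - F.e * s - ε) * ((a : ℝ) - ε) + (F.w - 1) * (((a : ℝ) - F.e * s) * a) := by
    rw [← s1]
    refine Finset.sum_congr rfl fun j _ => ?_
    split_ifs <;> rfl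
  have e2 : ∑ j : Fin F.w, (if j = j0 then (a : ℝ) - F.e * s - ε else (a : ℝ) - F.e * s) ^ 2 =
      ((a : ℝ) - F.e * s - ε) ^ 2 + (F.w - 1) * ((a : ℝ) - F.e * s) ^ 2 := by
    rw [← s1]
    refine Finset.sum_congr rfl fun j _ => ?_
    split_ifs <;> rfl
  rw [e1, e2, s1]
  have hsk : s * k = F.w * a - ε := by rw [hs]; field_simp
  have e3 : ((a : ℝ) - F.e * s - ε) + (F.w - 1) * ((a : ℝ) - F.e * s) = s := by
    have : (F.w : ℝ) * a - ε = s * (F.w * F.e + 1) := by rw [← hsk, hk]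
    linarith
  rw [e3]
  have hP : 2 * (((a : ℝ) - F.e * s - ε) * ((a : ℝ) - ε) + (F.w - 1) * (((a : ℝ) - F.e * s) * a)) - F.e * s ^ 2 -
      (((a : ℝ) - F.e * s - ε) ^ 2 + (F.w - 1) * ((a : ℝ) - F.e * s) ^ 2) = 1 - F.e / k + (F.w * a ^ 2 - 2 * ε * a) / k := by
    have h1 : 2 * (((a : ℝ) - F.e * s - ε) * ((a : ℝ) - ε) + (F.w - 1) * (((a : ℝ) - F.e * s) * a)) - F.e * s ^ 2 -
      (((a : ℝ) - F.e * s - ε) ^ 2 + (F.w - 1) * ((a : ℝ) - F.e * s) ^ 2) = s * (a + ε * F.e) + 1 - ε * a + (ε ^ 2 - 1) +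
        (F.w * a - ε - s * (F.w * F.e + 1)) * (a + F.e * s) := by ring
    have h2 : (F.w : ℝ) * a - ε - s * (F.w * F.e + 1) = 0 := by rw [← hsk, hk]; ring
    rw [h1, h2, hεs, hs]
    field_simp
    rw [hk]
    linear_combination (-(F.e : ℝ)) * hεs
  rw [hP]
  have hnn : 0 ≤ (F.w * (a : ℝ) ^ 2 - 2 * ε * a) / k := by
    apply div_nonneg _ hk0.le
    have h1 : |ε| = 1 := by
      have := sq_abs ε
      rw [hεs] at this
      nlinarith [abs_nonneg ε]
    have h2 : 2 * ε * a ≤ 2 * |(a : ℝ)| := by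
      have := le_abs_self (ε * a)
      rw [abs_mul, h1, one_mul] at this
      linarith
    have h3 : |(a : ℝ)| ≤ (a : ℝ) ^ 2 := by
      by_cases h0 : a = 0
      · simp [h0]
      · have : (1 : ℝ) ≤ |(a : ℝ)| := by
          have := Int.one_le_abs h0
          exact_mod_cast this
        rw [← sq_abs]
        nlinarith
    nlinarith [sq_nonneg (a : ℝ)]
  linarith

theorem NS_total {ι : Type*} [Fintype ι] (S : ι → Set G) (hdisj : ∀ i j, i ≠ j → ∀ x, x ∈ S i → x ∉ S j) (h1 : ∀ i, (1 : G) ∉ S i)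
    (f : G → ℂ) : ‖f 1‖ ^ 2 / Nat.card G + ∑ i, NS (S i) f ≤ (classInner f f).re := by
  classical
  rw [classInner_self_eq, Complex.ofReal_re]
  simp only [NS]
  rw [← Finset.mul_sum, Finset.sum_comm, div_eq_inv_mul, ← mul_add]
  apply mul_le_mul_of_nonneg_left _ (by positivity)
  have h2 : ‖f 1‖ ^ 2 = ∑ x : G, if x = 1 then ‖f x‖ ^ 2 else 0 := by
    rw [Finset.sum_ite_eq' Finset.univ (1 : G) (fun x => ‖f x‖ ^ 2), if_pos (Finset.mem_univ _)]
  rw [h2, ← Finset.sum_add_distrib]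
  apply Finset.sum_le_sum
  intro x _
  by_cases hx : x = 1
  · rw [if_pos hx, Finset.sum_eq_zero, add_zero]
    intro i _
    rw [if_neg]
    rw [hx]; exact h1 i
  · rw [if_neg hx, zero_add]
    by_cases hex : ∃ i, x ∈ S i
    · obtain ⟨i, hi⟩ := hex
      rw [Finset.sum_eq_single i]
      · rw [if_pos hi]
      · intro j _ hj
        rw [if_neg (hdisj i j (Ne.symm hj) x hi)]
      · intro h; exact absurd (Finset.mem_univ i) h
    · push Not at hex
      rw [Finset.sum_eq_zero]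
      · positivity
      · intro i _
        rw [if_neg (hex i)]

theorem fam_contradiction (hodd : Odd (Nat.card G)) {ι : Type*} [Fintype ι] (hι : 0 < Fintype.card ι) (F : ι → Fam G)
    (hdisj : ∀ i j, i ≠ j → ∀ x, x ∈ (F i).S → x ∉ (F j).S) (hcov : ∀ x : G, x ≠ 1 → ∃ i, x ∈ (F i).S)
    (hk : ∀ i j, i ≠ j → (F i).w * (F i).e + 1 ≠ (F j).w * (F j).e + 1) : False := by
  classical
  haveI : Nonempty ι := Fintype.card_pos_iff.1 hι
  obtain ⟨m, -, hm⟩ := Finset.exists_min_image Finset.univ (fun i => (F i).e) Finset.univ_nonempty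
  have j0 : Fin (F m).w := ⟨0, by have := (F m).hw; omega⟩
  have hcA : ∀ i, ∃ n : ℤ, i ≠ m → ∀ j l, classInner ((F i).B j) ((F m).μ l) = n := by
    intro i
    by_cases hi : i = m
    · exact ⟨0, fun h => absurd hi h⟩
    · obtain ⟨n, hn⟩ := (F i).coef (F m) (hdisj i m hi)
      exact ⟨n, fun _ => hn⟩
  have hcC : ∀ i, ∃ n : ℤ, i ≠ m → ∀ j l, classInner ((F m).B j) ((F i).μ l) = n := by
    intro i
    by_cases hi : i = m
    · exact ⟨0, fun h => absurd hi h⟩
    · obtain ⟨n, hn⟩ := (F m).coef (F i) (hdisj m i (Ne.symm hi))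
      exact ⟨n, fun _ => hn⟩
  choose A hA using hcA
  choose C hC using hcC
  have hg : (0 : ℝ) < Nat.card G := by
    have : 0 < Nat.card G := Nat.card_pos
    exact_mod_cast this
  refine fht_numeric m (fun i => (F i).e) (fun i => (F i).w) (fun i => (F i).h) (Nat.card G) hg (fun i => (F i).he)
    (fun i => (F i).heodd) (fun i => (F i).hw) (fun i => (F i).hweven) (fun i => hm i (Finset.mem_univ i)) (fun i hi => hk i m hi)
    (fun i => (F i).hh) (F m).h7 A C (fun i hi => (F i).parity hodd (F m) (hdisj i m hi) (hA i hi) (hC i hi)) ?_ ?_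
    (Fam.bessel_bound F hdisj m C hC)
  · have h1 := NS_total (fun i => (F i).S) hdisj (fun i => (F i).h1S) ((F m).μ j0)
    rw [classInner_irr_self ((F m).hμ j0), Complex.one_re, ← Finset.add_sum_erase Finset.univ _ (Finset.mem_univ m)] at h1
    have h2 := (F m).NS_self j0
    have h3 : ∑ i ∈ Finset.univ.erase m, ((F i).w : ℝ) * (A i : ℝ) ^ 2 / ((F i).w * (F i).e + 1) ≤
        ∑ i ∈ Finset.univ.erase m, NS (F i).S ((F m).μ j0) := by
      apply Finset.sum_le_sum
      intro i hi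
      apply (F i).NS_const
      intro j
      rw [← classInner_conj_symm, hA i (Finset.ne_of_mem_erase hi), conj_int]
    have h4 : 1 / (Nat.card G : ℝ) ≤ ‖(F m).μ j0 1‖ ^ 2 / Nat.card G := by
      apply div_le_div_of_nonneg_right _ hg.le
      obtain ⟨d, hd0, hd⟩ := irr_deg' ((F m).hμ j0)
      rw [hd, Complex.norm_natCast]
      have : (1 : ℝ) ≤ d := by exact_mod_cast hd0
      nlinarith
    linarith
  · -- density
    have h1 : ∀ i, (1 - 1 / ((F i).h : ℝ)) / (F i).e = (Nat.card (F i).S : ℝ) / Nat.card G := by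
      intro i
      have hh : (0 : ℝ) < (F i).h := by
        have := (F i).hh
        have : 0 < (F i).h := by omega
        exact_mod_cast this
      have he : (0 : ℝ) < (F i).e := by
        have := (F i).he
        have : 0 < (F i).e := by omega
        exact_mod_cast this
      have := (F i).hS
      rw [div_eq_div_iff he.ne' hg.ne']
      field_simp
      linarith
    rw [Finset.sum_congr rfl (fun i _ => h1 i), ← Finset.sum_div]
    have h2 : ∑ i, (Nat.card (F i).S : ℝ) = Nat.card G - 1 := by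
      have h3 : ∀ i, (Nat.card (F i).S : ℝ) = ∑ x : G, if x ∈ (F i).S then (1 : ℝ) else 0 := by
        intro i
        rw [Finset.sum_boole, Nat.card_eq_fintype_card, Fintype.card_subtype]
      rw [Finset.sum_congr rfl (fun i _ => h3 i), Finset.sum_comm]
      have h4 : ∀ x : G, ∑ i, (if x ∈ (F i).S then (1 : ℝ) else 0) = 1 - if x = 1 then 1 else 0 := by
        intro x
        by_cases hx : x = 1
        · rw [if_pos hx, sub_self, Finset.sum_eq_zero]
          intro i _
          rw [if_neg]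
          rw [hx]; exact (F i).h1S
        · obtain ⟨i, hi⟩ := hcov x hx
          rw [if_neg hx, sub_zero, Finset.sum_eq_single i]
          · rw [if_pos hi]
          · intro j _ hj
            rw [if_neg (hdisj i j (Ne.symm hj) x hi)]
          · intro h; exact absurd (Finset.mem_univ i) h
      rw [Finset.sum_congr rfl (fun x _ => h4 x), Finset.sum_sub_distrib, Finset.sum_const, Finset.card_univ,
        Finset.sum_ite_eq' Finset.univ (1 : G) (fun _ => (1 : ℝ)), if_pos (Finset.mem_univ _), Nat.card_eq_fintype_card]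
      simp
    rw [h2, sub_div, div_self hg.ne']

end CfsgH3
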