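import Cfsg.Agent.H3.Fam2
import Cfsg.Agent.H7.TransferLoc

set_option autoImplicit false

/-! Construction of the exceptional families. -/

namespace CfsgH3

open Cfsg CfsgH4 ComplexConjugate
open scoped commutatorElement

universe u

theorem comm_le_self' {G : Type*} [Group G] (K : Subgroup G) : ⁅K, K⁆ ≤ K := by
  rw [Subgroup.commutator_le]
  intro a ha b hb
  exact K.mul_mem (K.mul_mem (K.mul_mem ha hb) (K.inv_mem ha)) (K.inv_mem hb)

section
variable {N : Type u} [Group N] [Fintype N] (K : Subgroup N) [hKn : K.Normal]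

theorem lin_deg (hC : ∀ n ∈ K, n ≠ 1 → Subgroup.centralizer ({n} : Set N) ≤ K) {χ : N → ℂ} (hχ : IsIrrCharacter N χ)
    (hD : ∀ n ∈ ⁅K, K⁆, χ n = χ 1) (hker : ∃ n ∈ K, χ n ≠ χ 1) : χ 1 = K.index := by
  haveI : Fintype K := Fintype.ofFinite _
  obtain ⟨θ, hθ, hθ1, rfl⟩ := sk_induced K hC hχ hker
  rw [indFun_one]
  have h1 : classInner (fun h : K => indFun K θ h) θ ≠ 0 := by
    have h2 := classInner_irr_self hχ
    rw [frobenius K θ (IsIrr.isClassFunction hχ)] at h2
    intro h3
    rw [← classInner_conj_symm, h3, map_zero] at h2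
    exact zero_ne_one h2
  have h3 : ∀ n ∈ commutator K, θ n = θ 1 := by
    intro n hn
    refine ker_of_inner_ne_zero (isCharacter_restrict K (IsIrr.isCharacter hχ)) hθ h1 ?_
    have h4 : (n : N) ∈ ⁅K, K⁆ := by
      rw [← CfsgH7.map_subtype_commutator_top]
      exact ⟨n, hn, rfl⟩
    exact hD n h4
  obtain ⟨ψ, hψ, hψe⟩ := exists_irr_of_ker (commutator K) hθ h3
  obtain ⟨f, hf⟩ := IsIrr.linear_of_comm (G := K ⧸ commutator K) (fun a b => @mul_comm (Abelianization K) _ a b) hψ
  have h5 : θ 1 = 1 := by rw [hψe, hf]; simp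
  rw [h5, mul_one]

open Classical in
/-- The linear part of the family. -/
noncomputable def Ylin : Finset (IrrCharacter N) :=
  Finset.univ.filter (fun χ : IrrCharacter N => (∀ n ∈ ⁅K, K⁆, (χ : N → ℂ) n = (χ : N → ℂ) 1) ∧ ¬ ∀ n ∈ K, (χ : N → ℂ) n = (χ : N → ℂ) 1)

theorem mem_Ylin {χ : IrrCharacter N} : χ ∈ Ylin K ↔
    (∀ n ∈ ⁅K, K⁆, (χ : N → ℂ) n = (χ : N → ℂ) 1) ∧ ¬ ∀ n ∈ K, (χ : N → ℂ) n = (χ : N → ℂ) 1 := by
  classical
  simp [Ylin]

theorem Ylin_ker {χ : IrrCharacter N} (h : χ ∈ Ylin K) : ∃ n ∈ K, (χ : N → ℂ) n ≠ (χ : N → ℂ) 1 := by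
  have := ((mem_Ylin K).1 h).2
  push Not at this
  exact this

theorem lin_count (hC : ∀ n ∈ K, n ≠ 1 → Subgroup.centralizer ({n} : Set N) ≤ K) :
    (Ylin K).card * K.index + 1 = (⁅K, K⁆).relIndex K := by
  classical
  have hDK : ⁅K, K⁆ ≤ K := Subgroup.commutator_le_right K K
  have h1 := ker_sum K K.one_mem
  have h2 := ker_sum ⁅K, K⁆ (Subgroup.one_mem _)
  have h3 : ∑ χ : IrrCharacter N, (if (∀ n ∈ ⁅K, K⁆, (χ : N → ℂ) n = (χ : N → ℂ) 1) then (χ : N → ℂ) 1 * (χ : N → ℂ) 1 else 0) =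
      ∑ χ : IrrCharacter N, (if (∀ n ∈ K, (χ : N → ℂ) n = (χ : N → ℂ) 1) then (χ : N → ℂ) 1 * (χ : N → ℂ) 1 else 0) +
      ∑ χ ∈ Ylin K, (K.index : ℂ) * K.index := by
    rw [Ylin, Finset.sum_filter, ← Finset.sum_add_distrib]
    refine Finset.sum_congr rfl fun χ _ => ?_
    by_cases hK : ∀ n ∈ K, (χ : N → ℂ) n = (χ : N → ℂ) 1
    · have hD : ∀ n ∈ ⁅K, K⁆, (χ : N → ℂ) n = (χ : N → ℂ) 1 := fun n hn => hK n (hDK hn)
      rw [if_pos hD, if_pos hK, if_neg (fun h => h.2 hK), add_zero]
    · by_cases hD : ∀ n ∈ ⁅K, K⁆, (χ : N → ℂ) n = (χ : N → ℂ) 1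
      · have hk : ∃ n ∈ K, (χ : N → ℂ) n ≠ (χ : N → ℂ) 1 := by push Not at hK; exact hK
        rw [if_pos hD, if_neg hK, if_pos ⟨hD, hK⟩, zero_add, lin_deg K hC χ.2 hD hk]
      · rw [if_neg hD, if_neg hK, if_neg (fun h => hD h.1), zero_add]
  rw [h1, h2, Finset.sum_const, nsmul_eq_mul] at h3
  have h4 : (⁅K, K⁆).index = K.index + (Ylin K).card * (K.index * K.index) := by exact_mod_cast h3
  rw [← Subgroup.relIndex_mul_index hDK] at h4
  have h5 : 0 < K.index := Nat.pos_of_ne_zero Subgroup.index_ne_zero_of_finite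
  apply Nat.eq_of_mul_eq_mul_right h5
  rw [h4]; ring

theorem rho_mem [Fintype K] {x : N} (hx : x ∈ K) : indFun K (fun _ => (1 : ℂ)) x = K.index := by
  have h1 := indFun_normal_mem K (fun _ => (1 : ℂ)) ⟨x, hx⟩
  have h2 : indFun K (fun _ => (1 : ℂ)) x = (Nat.card K : ℂ)⁻¹ * ∑ _x : N, (1 : ℂ) := h1
  rw [h2, Finset.sum_const, Finset.card_univ, nsmul_eq_mul, mul_one, ← Nat.card_eq_fintype_card, ← Subgroup.card_mul_index K]
  push_cast
  rw [← mul_assoc, inv_mul_cancel₀ (CfsgH4.card_ne_zero K), one_mul]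

theorem rho_norm : classInner (indFun K (fun _ => (1 : ℂ))) (indFun K (fun _ => (1 : ℂ))) = K.index := by
  haveI : Fintype K := Fintype.ofFinite _
  rw [frobenius K _ (indFun_isClassFunction K _)]
  have h1 : (fun h : K => indFun K (fun _ => (1 : ℂ)) h) = (K.index : ℂ) • (fun _ : K => (1 : ℂ)) := by
    ext h
    rw [rho_mem K h.2]
    simp
  rw [h1, classInner_smul_right, classInner_irr_self isIrrCharacter_one]
  simp

theorem rho_real (x : N) : conj (indFun K (fun _ => (1 : ℂ)) x) = indFun K (fun _ => (1 : ℂ)) x := by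
  haveI : Fintype K := Fintype.ofFinite _
  by_cases hx : x ∈ K
  · rw [rho_mem K hx]; simp
  · rw [indFun_normal_not_mem K _ hx, map_zero]

end

theorem indFun_star {G : Type u} [Group G] [Fintype G] (H : Subgroup G) (θ : H → ℂ) (g : G) :
    conj (indFun H θ g) = indFun H (fun h => conj (θ h)) g := by
  classical
  rw [indFun_apply, indFun_apply, map_mul, map_sum, map_inv₀, Complex.conj_natCast]
  congr 1
  refine Finset.sum_congr rfl fun x _ => ?_
  by_cases hx : x⁻¹ * g * x ∈ H
  · rw [extendByZero_of_mem H θ hx, extendByZero_of_mem H _ hx]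
  · rw [extendByZero_of_not_mem H θ hx, extendByZero_of_not_mem H _ hx, map_zero]

variable {G : Type u} [Group G] [Fintype G]

theorem exists_fam (hodd : Odd (Nat.card G)) {K : Subgroup G} (h : TIData K)
    (hK : ⁅K, K⁆ ≠ K) (h7 : (⁅K, K⁆).relIndex K = 7 → Nat.card K = 7) :
    ∃ F : Fam G, F.w * F.e + 1 = (⁅K, K⁆).relIndex K ∧ F.S = {x : G | x ≠ 1 ∧ ∃ g : G, g * x * g⁻¹ ∈ K} := by
  classical
  set N := Subgroup.normalizer (K : Set G) with hN
  haveI : Fintype N := Fintype.ofFinite _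
  haveI : Fintype (KN K) := Fintype.ofFinite _
  have hKN : K ≤ N := Subgroup.le_normalizer
  have hC := KN_cent h
  -- the derived group
  have hmapK : (KN K).map N.subtype = K := by
    rw [Subgroup.subgroupOf_map_subtype]; exact inf_eq_left.2 hKN
  have hmapD : (⁅KN K, KN K⁆).map N.subtype = ⁅K, K⁆ := by
    rw [Subgroup.map_commutator, hmapK]
  have hrel : (⁅KN K, KN K⁆).relIndex (KN K) = (⁅K, K⁆).relIndex K := by
    have h1 := Subgroup.relIndex_map_map_of_injective ⁅KN K, KN K⁆ (KN K) N.subtype_injective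
    rw [hmapD, hmapK] at h1
    exact h1.symm
  set e := (KN K).index with he
  set w := (Ylin (KN K)).card with hw
  have hcount : w * e + 1 = (⁅K, K⁆).relIndex K := by rw [← hrel]; exact lin_count (KN K) hC
  have hNodd : Odd (Nat.card N) := hodd.of_dvd_nat N.card_subgroup_dvd_card
  have heodd : Odd e := hNodd.of_dvd_nat (Subgroup.index_dvd_card _)
  have he1 : e ≠ 1 := by
    intro h1
    have h2 := Subgroup.index_eq_one.1 h1
    have h3 : N ≤ K := by
      rw [← Subgroup.subgroupOf_eq_top]; exact h2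
    exact absurd h.lt (not_lt_of_ge h3)
  have he3 : 3 ≤ e := by
    obtain ⟨c, hc⟩ := heodd
    omega
  have hkdvd : (⁅K, K⁆).relIndex K ∣ Nat.card K := Subgroup.relIndex_dvd_card _ _
  have hkodd : Odd ((⁅K, K⁆).relIndex K) := (hodd.of_dvd_nat K.card_subgroup_dvd_card).of_dvd_nat hkdvd
  have hk1 : (⁅K, K⁆).relIndex K ≠ 1 := by
    intro h1
    rw [Subgroup.relIndex_eq_one] at h1
    exact hK (le_antisymm (comm_le_self' K) h1)
  have hweven : Even w := by
    rw [← hcount] at hkodd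
    by_contra hcon
    rw [Nat.not_even_iff_odd] at hcon
    exact (Nat.not_even_iff_odd.2 hkodd) ((hcon.mul heodd).add_one)
  have hw2 : 2 ≤ w := by
    rcases Nat.eq_zero_or_pos w with h0 | h0
    · rw [h0, zero_mul, zero_add] at hcount
      exact absurd hcount.symm hk1
    · obtain ⟨c, hc⟩ := hweven
      omega
  -- indexing
  let eq : Fin w ≃ {χ // χ ∈ Ylin (KN K)} := (Finset.equivFin (Ylin (KN K))).symm
  let χ : Fin w → (N → ℂ) := fun j => ((eq j).1 : N → ℂ)
  have hχ : ∀ j, IsIrrCharacter N (χ j) := fun j => (eq j).1.2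
  have hχi : Function.Injective χ := fun a b hab => eq.injective (Subtype.ext (Subtype.ext hab))
  have hχmem : ∀ j, (eq j).1 ∈ Ylin (KN K) := fun j => (eq j).2
  have hχe : ∀ j, χ j 1 = e := fun j =>
    lin_deg (KN K) hC (hχ j) ((mem_Ylin _).1 (hχmem j)).1 (Ylin_ker _ (hχmem j))
  have hχ0 : ∀ j (x : N), (x : G) ∉ K → χ j x = 0 := fun j x hx =>
    sk_zero (KN K) hC (hχ j) (Ylin_ker _ (hχmem j)) (fun h' => hx (Subgroup.mem_subgroupOf.1 h'))
  set ρ : N → ℂ := indFun (KN K) (fun _ => (1 : ℂ)) with hρ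
  have hρ0 : ∀ x : N, (x : G) ∉ K → ρ x = 0 := fun x hx =>
    indFun_normal_not_mem (KN K) _ (fun h' => hx (Subgroup.mem_subgroupOf.1 h'))
  have hρ1 : ρ 1 = e := rho_mem (KN K) (Subgroup.one_mem _)
  have hρc : IsCharacter N ρ := isCharacter_indFun (KN K) isCharacter_one
  have hρχ : ∀ j, classInner ρ (χ j) = 0 := by
    intro j
    rw [hρ, ind_one_inner (KN K) (eq j).1, if_neg ((mem_Ylin _).1 (hχmem j)).2]
  let β : Fin w → (N → ℂ) := fun j => ρ - χ j
  have hβ0 : ∀ j (x : N), (x : G) ∉ K → β j x = 0 := fun j x hx => by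
    show ρ x - χ j x = 0
    rw [hρ0 x hx, hχ0 j x hx, sub_zero]
  have hβ1 : ∀ j, β j 1 = 0 := fun j => by
    show ρ 1 - χ j 1 = 0
    rw [hρ1, hχe, sub_self]
  have hβg : ∀ j, IsGeneralizedCharacter N (β j) := fun j =>
    isGen_sub (IsCharacter.isGen hρc) (IsCharacter.isGen (IsIrr.isCharacter (hχ j)))
  have hββ : ∀ i j, classInner (β i) (β j) = (e : ℂ) + if i = j then 1 else 0 := by
    intro i j
    show classInner (ρ - χ i) (ρ - χ j) = _
    rw [classInner_sub_left, classInner_sub_right, classInner_sub_right, hρχ, ← classInner_conj_symm ρ (χ i), hρχ, map_zero,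
      hρ, rho_norm, classInner_irr (hχ i) (hχ j)]
    by_cases hij : i = j
    · rw [if_pos hij, if_pos (by rw [hij])]; ring
    · rw [if_neg hij, if_neg (fun h => hij (hχi h))]; ring
  let B : Fin w → (G → ℂ) := fun j => indFun N (β j)
  have hBB : ∀ i j, classInner (B i) (B j) = (e : ℂ) + if i = j then 1 else 0 := by
    intro i j
    rw [← hββ]
    exact TI_inner h (hβ0 i) (hβ0 j) (IsGen.isClassFunction (hβg j)) (hβ1 i)
  have hBg : ∀ j, IsGeneralizedCharacter G (B j) := fun j => isGen_indFun N (hβg j)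
  have hB1 : ∀ j, B j 1 = 0 := fun j => by
    show indFun N (β j) 1 = 0
    rw [indFun_one, hβ1, mul_zero]
  obtain ⟨i0⟩ : Nonempty (Fin w) := ⟨⟨0, by omega⟩⟩
  obtain ⟨ε, hε, μ, hμ, hμi, hτ⟩ := isometry_lemma i0 (fun j => B i0 - B j) (sub_self _)
    (fun j => isGen_sub (hBg _) (hBg _)) (fun j => by rw [Pi.sub_apply, hB1, hB1, sub_self])
    (fun j hj => by
      rw [classInner_sub_left, classInner_sub_right, classInner_sub_right, hBB, hBB, hBB, hBB, if_pos rfl, if_neg (Ne.symm hj),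
        if_neg hj, if_pos rfl]; ring)
    (fun i j hi hj hij => by
      rw [classInner_sub_left, classInner_sub_right, classInner_sub_right, hBB, hBB, hBB, hBB, if_pos rfl, if_neg (Ne.symm hj),
        if_neg hi, if_neg hij]; ring)
  have hd : ∀ i j, B i - B j = ε • (μ j - μ i) := by
    intro i j
    have h1 := hτ i
    have h2 := hτ j
    have h3 : B i - B j = (B i0 - B j) - (B i0 - B i) := by abel
    rw [h3]
    rw [h1, h2, ← smul_sub]
    congr 1; abel
  -- complex conjugation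
  have hconjY : ∀ φ : IrrCharacter N, φ ∈ Ylin (KN K) → irrConj φ ∈ Ylin (KN K) := by
    intro φ hφ
    rw [mem_Ylin] at hφ ⊢
    refine ⟨fun n hn => congrArg conj (hφ.1 n hn), fun hcon => hφ.2 fun n hn => ?_⟩
    have := congrArg conj (hcon n hn)
    simpa [irrConj] using this
  let bar : Fin w → Fin w := fun j => eq.symm ⟨irrConj (eq j).1, hconjY _ (eq j).2⟩
  have hχbar : ∀ j, χ (bar j) = fun x => conj (χ j x) := by
    intro j
    show (((eq (eq.symm ⟨irrConj (eq j).1, hconjY _ (eq j).2⟩)).1 : IrrCharacter N) : N → ℂ) = _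
    rw [Equiv.apply_symm_apply]
    rfl
  have hBbar : ∀ j, (fun x => conj (B j x)) = B (bar j) := by
    intro j
    ext g
    show conj (indFun N (β j) g) = indFun N (β (bar j)) g
    rw [indFun_star]
    congr 1
    ext x
    show conj (ρ x - χ j x) = ρ x - χ (bar j) x
    rw [map_sub, hχbar, hρ, rho_real]
  have hbarne : ∀ j, bar j ≠ j := by
    intro j hj
    have h1 : χ j = fun x => conj (χ j x) := by rw [← hχbar, hj]
    have h2 : ∀ x, (χ j x).im = 0 := fun x => Complex.conj_eq_iff_im.1 (congrFun h1 x).symm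
    have h3 := real_irr_trivial hNodd (hχ j) h2
    apply ((mem_Ylin _).1 (hχmem j)).2
    intro n _
    show χ j n = χ j 1
    rw [h3]
  have hbb : ∀ j, bar (bar j) = j := by
    intro j
    apply hχi
    rw [hχbar, hχbar]
    ext x; simp
  have hεc : conj ε = ε := by rcases hε with h | h <;> simp [h]
  have hε0 : ε ≠ 0 := by rcases hε with h | h <;> simp [h]
  have hμbar : ∀ j, (fun x => conj (μ j x)) = μ (bar j) := by
    have key : ∀ j, (fun x => conj (μ (bar j) x)) = μ j := by
      intro j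
      have h1 := hd (bar j) j
      have h2 : B j - B (bar j) = ε • ((fun x => conj (μ j x)) - (fun x => conj (μ (bar j) x))) := by
        have h3 : B j - B (bar j) = fun x => conj ((B (bar j) - B j) x) := by
          ext x
          rw [Pi.sub_apply, Pi.sub_apply, map_sub]
          have e1 := congrFun (hBbar (bar j)) x
          have e2 := congrFun (hBbar j) x
          rw [hbb] at e1
          rw [← e1, ← e2]
          simp
        rw [h3, h1]
        ext x
        simp [hεc]
      have h3 : (fun x => conj (μ j x)) - (fun x => conj (μ (bar j) x)) = μ (bar j) - μ j := by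
        have h4 : ε • ((fun x => conj (μ j x)) - (fun x => conj (μ (bar j) x))) = ε • (μ (bar j) - μ j) := by
          rw [← h2, hd]
        exact smul_right_injective _ hε0 h4
      by_contra hcon
      have h4 := congrArg (fun f => classInner f (μ j)) h3
      simp only [classInner_sub_left] at h4
      rw [classInner_irr_self (hμ j), classInner_irr_ne (hμ (bar j)) (hμ j) (fun h => hbarne j (hμi h)),
        classInner_irr_ne (isIrrCharacter_conj (hμ (bar j))) (hμ j) hcon, classInner_irr (isIrrCharacter_conj (hμ j)) (hμ j)] at h4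
      split_ifs at h4 <;> norm_num at h4
    intro j
    have := key (bar j)
    rwa [hbb] at this
  have hcardN : Nat.card N = Nat.card K * e := by
    rw [he, ← Nat.card_congr (Subgroup.subgroupOfEquivOfLe hKN).toEquiv, Subgroup.card_mul_index]
  have hKpos : 0 < Nat.card K := Nat.card_pos
  refine ⟨⟨e, w, Nat.card K, {x : G | x ≠ 1 ∧ ∃ g : G, g * x * g⁻¹ ∈ K}, ε, B, μ, bar, he3, heodd, hw2, hweven, ?_, ?_, hε, hμ, hμi, hBg,
    ?_, hBB, ?_, hd, hBbar, hμbar, fun h => h.1 rfl, ?_⟩, hcount, rfl⟩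
  · rw [hcount]; exact Nat.le_of_dvd hKpos hkdvd
  · intro h3 h2
    apply h7
    rw [← hcount, h3, h2]
  · intro j x hx
    show indFun N (β j) x = 0
    by_cases hx1 : x = 1
    · rw [hx1]; exact hB1 j
    · rw [indFun_apply, Finset.sum_eq_zero, mul_zero]
      intro y _
      by_cases hy : y⁻¹ * x * y ∈ N
      · rw [extendByZero_of_mem N _ hy]
        apply hβ0
        intro hyK
        apply hx
        exact ⟨hx1, y⁻¹, by rw [inv_inv]; exact hyK⟩
      · exact extendByZero_of_not_mem N _ hy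
  · intro j
    show classInner (indFun N (β j)) (fun _ => 1) = 1
    rw [frobenius N _ (IsIrr.isClassFunction isIrrCharacter_one)]
    show classInner (ρ - χ j) (fun _ => 1) = 1
    have h1 : χ j ≠ fun _ => 1 := by
      intro h1
      apply ((mem_Ylin _).1 (hχmem j)).2
      intro n _
      show χ j n = χ j 1
      rw [h1]
    have h2 : classInner ρ (fun _ => 1) = 1 := by
      have h3 := ind_one_inner (KN K) (⟨fun _ => 1, isIrrCharacter_one⟩ : IrrCharacter N)
      rw [if_pos (fun _ _ => rfl)] at h3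
      exact h3
    rw [classInner_sub_left, h2, classInner_irr_ne (hχ j) isIrrCharacter_one h1, sub_zero]
  · have h1 := ti_count K (fun g hg x hx hgx => h.ti g hg x hx hgx)
    rw [← hN] at h1
    have h2 : Nat.card {x : G | x ≠ 1 ∧ ∃ g : G, g * x * g⁻¹ ∈ K} = N.index * (Nat.card K - 1) := h1
    rw [h2, Nat.cast_mul, Nat.cast_sub hKpos, ← Subgroup.card_mul_index N, hcardN]
    push_cast; ring

end CfsgH3
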