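import Cfsg.Agent.H3.FamMk
import Cfsg.Agent.H1.FpfAut
import Cfsg.Agent.H1.Frat
import Cfsg.Agent.H1.PGrp2
import Cfsg.Agent.H1.CoprimeSylow
import Cfsg.Agent.H1.KW
import Cfsg.Agent.H1.OO

set_option autoImplicit false

/-! The contradiction for partitions by TI subgroups. -/

namespace CfsgH3

open Cfsg CfsgH4 Subgroup
open scoped commutatorElement

universe u
variable {G : Type u} [Group G]

theorem tidata_coprime [Finite G] {K : Subgroup G} (h : TIData K) :
    (Nat.card K).Coprime (K.relIndex (normalizer (K : Set G))) := by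
  by_contra hcon
  obtain ⟨p, hp, h1, h2⟩ := Nat.Prime.not_coprime_iff_dvd.1 hcon
  haveI : Fact p.Prime := ⟨hp⟩
  obtain ⟨P₀, hP₀⟩ := CfsgH1.exists_isSylowOf p K
  have hP₀b := CfsgH1.isSylowOf_ne_bot hP₀ h1
  have hP₀K := CfsgH1.isSylowOf_le hP₀
  obtain ⟨P, hP, hP₀P⟩ := CfsgH1.exists_isSylowOf_ge (CfsgH1.isSylowOf_isPGroup hP₀) (hP₀K.trans h.lt.le)
  have hPN := CfsgH1.isSylowOf_le hP
  have hPp := CfsgH1.isSylowOf_isPGroup hP
  have hn : P ≤ normalizer ((K ⊓ P : Subgroup G) : Set G) := by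
    intro x hx
    rw [mem_normalizer_iff]
    intro y
    rw [mem_inf, mem_inf, ← mem_normalizer_iff.1 (hPN hx) y, ← mem_normalizer_iff.1 (Subgroup.le_normalizer hx) y]
  have hb : K ⊓ P ≠ ⊥ := by
    intro hb
    exact hP₀b (le_bot_iff.1 (hb ▸ le_inf hP₀K hP₀P))
  obtain ⟨z, hz, hz1⟩ := (Subgroup.bot_or_exists_ne_one _).resolve_left
    (CfsgH1.inf_centralizer_ne_bot_of_nilpotent hPp.isNilpotent inf_le_right hn hb)
  obtain ⟨hzKP, hzC⟩ := mem_inf.1 hz
  have hPK : P ≤ K := by
    refine le_trans ?_ (h.cent z (mem_inf.1 hzKP).1 hz1)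
    intro x hx
    rw [mem_centralizer_singleton_iff]
    exact mem_centralizer_iff.1 hzC x hx
  apply (CfsgH1.isSylowOf_iff.1 hP).2.2
  rw [← Subgroup.relIndex_mul_relIndex P K _ hPK h.lt.le]
  exact dvd_mul_of_dvd_right h2 _

theorem tidata_nilpotent [Finite G] {K : Subgroup G} (h : TIData K) : Group.IsNilpotent K := by
  set N := normalizer (K : Set G) with hN
  have hcop := tidata_coprime h
  have h1 : K.relIndex N ≠ 1 := by
    rw [Ne, Subgroup.relIndex_eq_one]
    exact not_le_of_gt h.lt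
  obtain ⟨q, hq, hqd⟩ := Nat.exists_prime_and_dvd h1
  haveI : Fact q.Prime := ⟨hq⟩
  have hqN : q ∣ Nat.card N := hqd.trans (Subgroup.index_dvd_card _)
  obtain ⟨x, hx⟩ := exists_prime_orderOf_dvd_card' (G := N) q hqN
  have hx' : orderOf (x : G) = q := by rw [Subgroup.orderOf_coe]; exact hx
  have hxK : (x : G) ∉ K := by
    intro hxK
    have h2 : orderOf (x : G) ∣ Nat.card K := by
      have := _root_.orderOf_dvd_natCard (⟨(x : G), hxK⟩ : ↥K)
      rwa [← Subgroup.orderOf_coe] at this
    rw [hx'] at h2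
    exact hq.one_lt.ne' (Nat.eq_one_of_dvd_coprimes hcop h2 hqd)
  refine CfsgH1.nilpotent_of_fpf_conj (h := (x : G)) x.2 hq ?_ ?_
  · rw [← hx', pow_orderOf_eq_one]; exact Subgroup.one_mem _
  · intro y hy hc
    by_contra hy1
    exact hxK (h.cent y hy hy1 (mem_centralizer_singleton_iff.2 hc))

theorem nilp_cyclic_of_prime_index [Finite G] (hG : Group.IsNilpotent G) (h : (commutator G).index.Prime) :
    Nat.card G = (commutator G).index := by
  have h1 : ∃ x : G, x ∉ commutator G := by
    by_contra hcon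
    push Not at hcon
    have : commutator G = ⊤ := eq_top_iff.2 fun x _ => hcon x
    rw [this, Subgroup.index_top] at h
    exact Nat.not_prime_one h
  obtain ⟨x, hx⟩ := h1
  have h2 : Subgroup.zpowers x ⊔ commutator G = ⊤ := by
    have h3 : (Subgroup.zpowers x ⊔ commutator G).index ∣ (commutator G).index := Subgroup.index_dvd_of_le le_sup_right
    rcases (Nat.dvd_prime h).1 h3 with h4 | h4
    · exact Subgroup.index_eq_one.1 h4
    · exfalso
      apply hx
      have h5 : commutator G = Subgroup.zpowers x ⊔ commutator G := by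
        apply Subgroup.eq_of_le_of_card_ge le_sup_right
        have e1 := Subgroup.card_mul_index (commutator G)
        have e2 := Subgroup.card_mul_index (Subgroup.zpowers x ⊔ commutator G)
        rw [h4, ← e1] at e2
        exact (Nat.eq_of_mul_eq_mul_right h.pos e2).le
      rw [h5]
      exact Subgroup.mem_sup_left (Subgroup.mem_zpowers x)
  have h3 : Subgroup.zpowers x = ⊤ := by
    apply frattini_nongenerating
    rw [eq_top_iff, ← h2]
    exact sup_le_sup_left (@CfsgH1.commutator_le_frattini G _ _ hG) _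
  have h4 : commutator G = ⊥ := by
    rw [eq_bot_iff, commutator_def, Subgroup.commutator_le]
    intro a _ b _
    rw [Subgroup.mem_bot, commutatorElement_eq_one_iff_mul_comm]
    have ha : a ∈ Subgroup.zpowers x := by rw [h3]; trivial
    have hb : b ∈ Subgroup.zpowers x := by rw [h3]; trivial
    obtain ⟨m, rfl⟩ := Subgroup.mem_zpowers_iff.1 ha
    obtain ⟨n, rfl⟩ := Subgroup.mem_zpowers_iff.1 hb
    rw [← zpow_add, ← zpow_add, add_comm]
  rw [h4, Subgroup.index_bot]

theorem tidata_fam [Fintype G] (hodd : Odd (Nat.card G)) {K : Subgroup G} (h : TIData K) (hK1 : K ≠ ⊥) :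
    ∃ F : Fam G, F.w * F.e + 1 = (⁅K, K⁆).relIndex K ∧ F.S = {x : G | x ≠ 1 ∧ ∃ g : G, g * x * g⁻¹ ∈ K} := by
  have hn := tidata_nilpotent h
  haveI := hn
  haveI : Nontrivial K := (Subgroup.nontrivial_iff_ne_bot K).2 hK1
  have hmap : (commutator K).map K.subtype = ⁅K, K⁆ := CfsgH7.map_subtype_commutator_top K
  have hidx : (⁅K, K⁆).relIndex K = (commutator K).index := by
    rw [← hmap, Subgroup.relIndex, Subgroup.subgroupOf, Subgroup.comap_map_eq_self_of_injective K.subtype_injective]
  apply exists_fam hodd h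
  · intro hcon
    have h1 : commutator K = ⊤ := by
      apply Subgroup.map_injective K.subtype_injective
      rw [hmap, hcon, ← MonoidHom.range_eq_map, Subgroup.range_subtype]
    exact (Group.IsSolvable.commutator_lt_top_of_nontrivial K).ne h1
  · intro h7
    rw [hidx] at h7
    rw [nilp_cyclic_of_prime_index hn (by rw [h7]; norm_num), h7]

theorem ti_partition_contradiction [Finite G] (hodd : Odd (Nat.card G)) {ι : Type*} [Fintype ι] (hι : 0 < Fintype.card ι)
    (H : ι → Subgroup G) (hti : ∀ i, TIData (H i)) (hH1 : ∀ i, H i ≠ ⊥)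
    (hcop : ∀ i j, i ≠ j → Nat.Coprime (Nat.card (H i)) (Nat.card (H j)))
    (hcover : ∀ g : G, g ≠ 1 → ∃ i, ∃ x : G, x * g * x⁻¹ ∈ H i) : False := by
  haveI : Fintype G := Fintype.ofFinite G
  choose F hF hS using fun i => tidata_fam hodd (hti i) (hH1 i)
  have hord : ∀ i (x : G), x ∈ (F i).S → orderOf x ∣ Nat.card (H i) := by
    intro i x hx
    rw [hS i] at hx
    obtain ⟨-, g, hg⟩ := hx
    have h1 := _root_.orderOf_dvd_natCard (⟨_, hg⟩ : ↥(H i))
    rw [← Subgroup.orderOf_coe] at h1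
    have h2 : orderOf (g * x * g⁻¹) = orderOf x := orderOf_injective (MulAut.conj g).toMonoidHom (MulAut.conj g).injective x
    rwa [show ((⟨g * x * g⁻¹, hg⟩ : ↥(H i)) : G) = g * x * g⁻¹ from rfl, h2] at h1
  refine fam_contradiction hodd hι F ?_ ?_ ?_
  · intro i j hij x hx hx'
    have h1 := Nat.eq_one_of_dvd_coprimes (hcop i j hij) (hord i x hx) (hord j x hx')
    rw [orderOf_eq_one_iff] at h1
    rw [hS i] at hx
    exact hx.1 h1
  · intro x hx
    obtain ⟨i, g, hg⟩ := hcover x hx
    exact ⟨i, by rw [hS i]; exact ⟨hx, g, hg⟩⟩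
  · intro i j hij h
    have h1 : (F i).w * (F i).e + 1 ∣ Nat.card (H i) := by rw [hF i]; exact Subgroup.relIndex_dvd_card _ _
    have h2 : (F i).w * (F i).e + 1 ∣ Nat.card (H j) := by rw [h, hF j]; exact Subgroup.relIndex_dvd_card _ _
    have h3 := Nat.eq_one_of_dvd_coprimes (hcop i j hij) h1 h2
    have h4 := (F i).hw
    have h5 := (F i).he
    have h6 : 0 < (F i).w * (F i).e := by positivity
    omega

end CfsgH3
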