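import Mathlib
import Cfsg.Agent.H1.Gaschutz

set_option autoImplicit false

/-!
Complements of abelian normal subgroups: reduction to Sylow subgroups.
-/

namespace CfsgH3

open Subgroup

variable {G : Type*} [Group G] [Finite G]

/-- the subgroup of elements of an abelian subgroup killed by `m` -/
def killBy (A : Subgroup G) (hA : ∀ x ∈ A, ∀ y ∈ A, x * y = y * x) (m : ℕ) : Subgroup G where
  carrier := {x | x ∈ A ∧ x ^ m = 1}
  one_mem' := ⟨A.one_mem, one_pow _⟩
  mul_mem' := by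
    rintro x y ⟨hx, hx'⟩ ⟨hy, hy'⟩
    refine ⟨A.mul_mem hx hy, ?_⟩
    rw [(show Commute x y from hA x hx y hy).mul_pow, hx', hy', one_mul]
  inv_mem' := by
    rintro x ⟨hx, hx'⟩
    exact ⟨A.inv_mem hx, by rw [inv_pow, hx', inv_one]⟩

theorem killBy_normal (A : Subgroup G) [hAn : A.Normal] (hA : ∀ x ∈ A, ∀ y ∈ A, x * y = y * x) (m : ℕ) : (killBy A hA m).Normal := by
  refine ⟨?_⟩
  rintro x ⟨hx, hx'⟩ g
  exact ⟨hAn.conj_mem x hx g, by rw [conj_pow, hx']; group⟩

theorem primary_compl (A : Subgroup G) [A.Normal] (hA : ∀ x ∈ A, ∀ y ∈ A, x * y = y * x) {p : ℕ} (hp : p.Prime) {m a : ℕ} 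
    (hm : Nat.card A = p ^ a * m) (hpm : ¬ p ∣ m) (U K : Subgroup G) (hU : ¬ p ∣ U.index) (hKA : K ⊓ A = ⊥) (hKU : K ⊔ A = U) : 
    ∃ M : Subgroup G, M.index = p ^ a ∧ ∀ x ∈ M, x ∈ A → x ^ m = 1 := by
  haveI := Fact.mk hp
  let B := killBy A hA m
  have hBA : B ≤ A := fun x hx => hx.1
  haveI : B.Normal := killBy_normal A hA m
  let f := QuotientGroup.mk' B
  have hf : Function.Surjective f := QuotientGroup.mk'_surjective B
  haveI : (A.map f).Normal := Subgroup.Normal.map inferInstance f hf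
  have hpow : ∀ x ∈ A, x ^ p ^ a ∈ B := by
    intro x hx
    refine ⟨A.pow_mem hx _, ?_⟩
    rw [← pow_mul, ← hm]
    have : (⟨x, hx⟩ : A) ^ Nat.card A = 1 := pow_card_eq_one'
    exact congrArg Subtype.val this
  have hAp : IsPGroup p (A.map f) := by
    rintro ⟨y, hy⟩
    obtain ⟨x, hx, rfl⟩ := hy
    refine ⟨a, Subtype.ext ?_⟩
    show (f x) ^ p ^ a = 1
    rw [← map_pow]
    exact (QuotientGroup.eq_one_iff _).2 (hpow x hx)
  obtain ⟨j, hj⟩ := IsPGroup.iff_card.1 hAp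
  have hcardB : ¬ p ∣ Nat.card B := by
    intro h
    obtain ⟨x, hx⟩ := exists_prime_orderOf_dvd_card' (G := B) p h
    apply hpm
    rw [← hx]
    apply orderOf_dvd_of_pow_eq_one
    exact Subtype.ext x.2.2
  have hcard : Nat.card B * Nat.card (A.map f) = p ^ a * m := by
    rw [← hm]
    have h1 : Nat.card (A.map f) = B.relIndex A := by
      have h2 := Subgroup.relIndex_ker (K := A) f
      rw [show f.ker = B from QuotientGroup.ker_mk' B] at h2
      exact h2.symm
    rw [h1]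
    have := Subgroup.relIndex_mul_relIndex ⊥ B A bot_le hBA
    rw [Subgroup.relIndex_bot_left, Subgroup.relIndex_bot_left] at this
    exact this
  have hja : Nat.card (A.map f) = p ^ a := by
    rw [hj]
    apply Nat.dvd_antisymm
    · have h2 : p ^ j ∣ p ^ a * m := by rw [← hcard, hj]; exact Dvd.intro_left _ rfl
      exact Nat.Coprime.dvd_of_dvd_mul_right (Nat.Coprime.pow_left _ ((Nat.Prime.coprime_iff_not_dvd hp).2 hpm)) h2
    · have h2 : p ^ a ∣ Nat.card B * p ^ j := by rw [← hj, hcard]; exact Dvd.intro _ rfl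
      exact Nat.Coprime.dvd_of_dvd_mul_left (Nat.Coprime.pow_left _ ((Nat.Prime.coprime_iff_not_dvd hp).2 hcardB)) h2
  obtain ⟨H, hH⟩ := CfsgH1.gaschutz_exists (K := A.map f) (U := U.map f) (A := K.map f) 
    (by
      rintro _ ⟨x, hx, rfl⟩ _ ⟨y, hy, rfl⟩
      rw [← map_mul, ← map_mul, hA x hx y hy])
    (by
      rw [hja]
      apply Nat.Coprime.pow_left
      rw [Nat.Prime.coprime_iff_not_dvd hp]
      intro h
      exact hU (h.trans (Subgroup.index_map_dvd U hf)))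
    (by
      rw [eq_bot_iff]
      rintro y ⟨⟨k, hk, rfl⟩, ⟨x, hx, hxk⟩⟩
      have h1 : x⁻¹ * k ∈ B := QuotientGroup.eq.1 hxk
      have h2 : k ∈ A := by
        have := A.mul_mem hx (hBA h1)
        rwa [mul_inv_cancel_left] at this
      have h3 : k ∈ K ⊓ A := ⟨hk, h2⟩
      rw [hKA, mem_bot] at h3
      rw [mem_bot, h3, map_one])
    (by rw [← Subgroup.map_sup, sup_comm, hKU])
  refine ⟨H.comap f, ?_, ?_⟩
  · rw [Subgroup.index_comap_of_surjective H hf, hH.index_eq_card, hja]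
  · intro x hx hxA
    have h1 : f x ∈ (A.map f) ⊓ H := ⟨⟨x, hxA, rfl⟩, hx⟩
    rw [disjoint_iff.1 hH.disjoint, mem_bot] at h1
    have h2 : x ∈ B := (QuotientGroup.eq_one_iff x).1 h1
    exact h2.2

theorem abelian_compl (A : Subgroup G) [A.Normal] (hA : ∀ x ∈ A, ∀ y ∈ A, x * y = y * x) 
    (h : ∀ p : ℕ, p.Prime → ∃ U K : Subgroup G, ¬ p ∣ U.index ∧ K ⊓ A = ⊥ ∧ K ⊔ A = U) : 
    ∃ K : Subgroup G, K.IsComplement' A := by
  classical
  have hA0 : Nat.card A ≠ 0 := Nat.card_pos.ne'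
  have key : ∀ p : (Nat.card A).primeFactors, ∃ M : Subgroup G, M.index = (p : ℕ) ^ (Nat.card A).factorization p ∧ 
      ∀ x ∈ M, x ∈ A → x ^ (Nat.card A / (p : ℕ) ^ (Nat.card A).factorization p) = 1 := by
    rintro ⟨p, hp⟩
    have hpp := Nat.prime_of_mem_primeFactors hp
    obtain ⟨U, K, h1, h2, h3⟩ := h p hpp
    exact primary_compl A hA hpp (Nat.ordProj_mul_ordCompl_eq_self _ _).symm (Nat.not_dvd_ordCompl hpp hA0) U K h1 h2 h3
  choose M hM1 hM2 using key
  refine ⟨⨅ p, M p, ?_⟩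
  have hdisj : Disjoint (⨅ p, M p) A := by
    rw [disjoint_iff, eq_bot_iff]
    rintro x ⟨hx, hxA⟩
    rw [mem_bot, ← orderOf_eq_one_iff]
    by_contra hne
    obtain ⟨p, hp, hpd⟩ := Nat.exists_prime_and_dvd hne
    have h1 : orderOf x ∣ Nat.card A := by
      have : orderOf (⟨x, hxA⟩ : A) ∣ Nat.card A := orderOf_dvd_natCard _
      rwa [Subgroup.orderOf_mk] at this
    have h2 : p ∈ (Nat.card A).primeFactors := Nat.mem_primeFactors.2 ⟨hp, hpd.trans h1, hA0⟩
    have h3 := hM2 ⟨p, h2⟩ x ((Subgroup.mem_iInf.1 hx) _) hxA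
    exact Nat.not_dvd_ordCompl hp hA0 (hpd.trans (orderOf_dvd_of_pow_eq_one h3))
  apply isComplement'_of_card_mul_and_disjoint _ hdisj
  have h1 : (⨅ p, M p).index ≤ Nat.card A := by
    refine (Subgroup.index_iInf_le M).trans (le_of_eq ?_)
    simp_rw [hM1]
    conv_rhs => rw [← Nat.prod_factorization_pow_eq_self hA0]
    rw [Finsupp.prod, Nat.support_factorization]
    exact Finset.prod_coe_sort (Nat.card A).primeFactors (fun p => p ^ (Nat.card A).factorization p)
  have h2 : Nat.card G ≤ Nat.card (⨅ p, M p : Subgroup G) * Nat.card A := by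
    rw [← Subgroup.card_mul_index (⨅ p, M p)]
    exact Nat.mul_le_mul_left _ h1
  apply le_antisymm _ h2
  have h3 : Nat.card ((⨅ p, M p : Subgroup G) × A) ≤ Nat.card G :=
    Nat.card_le_card_of_injective _ (mul_injective_of_disjoint hdisj)
  rwa [Nat.card_prod] at h3

end CfsgH3
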