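import Mathlib
import Cfsg.Agent.H3.GaschAb

set_option autoImplicit false

/-!
Frobenius' theorem on the number of solutions of `x ^ n ∈ C`.
-/

namespace CfsgH3

open Subgroup

universe u

section basics

variable {G : Type u} [Group G] [Finite G]

/-- the fibres of a map have cardinality divisible by `d` -/
theorem dvd_card_of_fibres {X : Type*} {Y : Type*} [Finite X] [Finite Y] (f : X → Y) (d : ℕ) (h : ∀ y, d ∣ Nat.card {x : X // f x = y}) : 
    d ∣ Nat.card X := by
  classical
  haveI := Fintype.ofFinite Y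
  rw [← Nat.card_congr (Equiv.sigmaFiberEquiv f), Nat.card_sigma]
  exact Finset.dvd_sum (fun y _ => h y)

theorem card_fibres_const {X : Type*} {Y : Type*} [Finite X] [Finite Y] (f : X → Y) (d : ℕ) (h : ∀ y, Nat.card {x : X // f x = y} = d) : 
    Nat.card X = Nat.card Y * d := by
  classical
  haveI := Fintype.ofFinite Y
  rw [← Nat.card_congr (Equiv.sigmaFiberEquiv f), Nat.card_sigma]
  simp_rw [h]
  rw [Finset.sum_const, Finset.card_univ, smul_eq_mul, Nat.card_eq_fintype_card]

/-- `L`: closed sets under conjugation -/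
theorem dvd_card_of_classes (n d : ℕ) (S : G → Prop) (hS : ∀ x y, IsConj x y → S x → S y) 
    (h : ∀ y, S y → d ∣ Nat.card {x : G // IsConj y (x ^ n)}) : d ∣ Nat.card {x : G // S (x ^ n)} := by
  apply dvd_card_of_fibres (fun x : {x : G // S (x ^ n)} => ConjClasses.mk ((x : G) ^ n))
  intro C
  obtain ⟨y, rfl⟩ := ConjClasses.exists_rep C
  by_cases hy : S y
  · have e : {x : {x : G // S (x ^ n)} // ConjClasses.mk ((x : G) ^ n) = ConjClasses.mk y} ≃ {x : G // IsConj y (x ^ n)} :=
      { toFun := fun x => ⟨x.1.1, (ConjClasses.mk_eq_mk_iff_isConj.1 x.2).symm⟩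
        invFun := fun x => ⟨⟨x.1, hS y _ x.2 hy⟩, ConjClasses.mk_eq_mk_iff_isConj.2 x.2.symm⟩
        left_inv := fun x => rfl
        right_inv := fun x => rfl }
    rw [Nat.card_congr e]
    exact h y hy
  · haveI : IsEmpty {x : {x : G // S (x ^ n)} // ConjClasses.mk ((x : G) ^ n) = ConjClasses.mk y} := by
      refine ⟨fun x => hy (hS _ _ (ConjClasses.mk_eq_mk_iff_isConj.1 x.2) x.1.2)⟩
    rw [Nat.card_of_isEmpty]
    exact dvd_zero d

theorem isConj_center_iff {c y : G} (hc : c ∈ center G) : IsConj c y ↔ y = c := by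
  constructor
  · intro h
    obtain ⟨g, hg⟩ := isConj_iff.1 h
    rw [← hg, mem_center_iff.1 hc g]; group
  · rintro rfl; exact IsConj.refl _

/-- the number of solutions is the class size times the number of roots -/
theorem card_conj_pow (c : G) (n : ℕ) : Nat.card {x : G // IsConj c (x ^ n)} = Nat.card {y : G // IsConj c y} * Nat.card {x : G // x ^ n = c} := by
  apply card_fibres_const (fun x : {x : G // IsConj c (x ^ n)} => (⟨(x : G) ^ n, x.2⟩ : {y : G // IsConj c y}))
  rintro ⟨y, hy⟩
  obtain ⟨g, hg⟩ := isConj_iff.1 hy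
  apply Nat.card_congr
  refine 
    { toFun := fun x => ⟨g⁻¹ * x.1.1 * g, ?_⟩
      invFun := fun x => ⟨⟨g * x.1 * g⁻¹, ?_⟩, ?_⟩
      left_inv := ?_
      right_inv := ?_ }
  · have h1 : (x.1.1 : G) ^ n = y := congrArg Subtype.val x.2
    have h2 : (g⁻¹ * x.1.1 * g) ^ n = g⁻¹ * x.1.1 ^ n * g := by
      have := conj_pow (i := n) (a := g⁻¹) (b := (x.1.1 : G))
      rwa [inv_inv] at this
    rw [h2, h1, ← hg]; group
  · rw [conj_pow, x.2]; exact isConj_iff.2 ⟨g, rfl⟩
  · apply Subtype.ext
    show (g * x.1 * g⁻¹) ^ n = y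
    rw [conj_pow, x.2, hg]
  · intro x
    apply Subtype.ext; apply Subtype.ext
    show g * (g⁻¹ * x.1.1 * g) * g⁻¹ = x.1.1
    group
  · intro x
    apply Subtype.ext
    show g⁻¹ * (g * x.1 * g⁻¹) * g = x.1
    group

theorem card_class_mul (c : G) : Nat.card {y : G // IsConj c y} * Nat.card (centralizer ({c} : Set G)) = Nat.card G := by
  have h1 : Nat.card {y : G // IsConj c y} = (centralizer ({c} : Set G)).index := by
    have h2 := ConjAct.stabilizer_eq_centralizer c
    have h3 := MulAction.index_stabilizer (ConjAct G) c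
    have e : {y : G // IsConj c y} ≃ MulAction.orbit (ConjAct G) c := 
      Equiv.subtypeEquivRight (fun y => by rw [ConjAct.mem_orbit_conjAct]; exact ⟨fun h => h.symm, fun h => h.symm⟩)
    rw [Nat.card_congr e, Nat.card_coe_set_eq, ← h3, h2]
    rfl
  rw [h1, mul_comm, Subgroup.card_mul_index]

/-- central element, `p` divides its order -/
theorem card_root_dvd_of_dvd_orderOf {c : G} {p e : ℕ} (hp : p.Prime) (hpc : p ∣ orderOf c) : 
    p ^ e ∣ Nat.card {x : G // x ^ p ^ e = c} := by
  apply dvd_card_of_fibres (fun x : {x : G // x ^ p ^ e = c} => zpowers (x : G))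
  intro Z
  by_cases hZ : ∃ x : {x : G // x ^ p ^ e = c}, zpowers (x : G) = Z
  swap
  · haveI : IsEmpty {x : {x : G // x ^ p ^ e = c} // zpowers (x : G) = Z} := ⟨fun x => hZ ⟨x.1, x.2⟩⟩
    rw [Nat.card_of_isEmpty]; exact dvd_zero _
  obtain ⟨⟨x, hx⟩, rfl⟩ := hZ
  -- the order of any root
  have hord : ∀ y : G, y ^ p ^ e = c → orderOf y = p ^ e * orderOf c := by
    intro y hy
    clear hx x
    induction e generalizing y c with
    | zero => rw [pow_zero, pow_one] at hy; rw [hy, pow_zero, one_mul]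
    | succ e ih =>
      have h1 : (y ^ p ^ e) ^ p = c := by rw [← pow_mul, ← pow_succ]; exact hy
      have h2 : p ∣ orderOf (y ^ p ^ e) := by
        have : orderOf c ∣ orderOf (y ^ p ^ e) := by rw [← h1]; exact orderOf_pow_dvd p
        exact hpc.trans this
      rw [ih h2 y rfl]
      have h3 : orderOf c = orderOf (y ^ p ^ e) / p := by
        rw [← h1]
        exact orderOf_pow_of_dvd hp.ne_zero h2
      rw [h3, pow_succ, mul_assoc, Nat.mul_div_cancel' h2]
  -- the kernel of the power map on `zpowers x`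
  let φ : zpowers x →* zpowers x := 
    { toFun := fun z => z ^ p ^ e
      map_one' := one_pow _
      map_mul' := fun a b => (show Commute a b from by
        obtain ⟨a, i, rfl⟩ := a
        obtain ⟨b, j, rfl⟩ := b
        exact Subtype.ext (((Commute.refl x).zpow_left i).zpow_right j).eq).mul_pow _ }
  have hker : Nat.card φ.ker = p ^ e := by
    have h1 := Subgroup.card_mul_index φ.ker
    rw [Subgroup.index_ker] at h1
    have h2 : Nat.card φ.range = orderOf c := by
      have h3 : φ.range = zpowers (⟨c, by rw [← hx]; exact pow_mem (mem_zpowers x) _⟩ : zpowers x) := by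
        ext y
        constructor
        · rintro ⟨⟨z, hz⟩, rfl⟩
          obtain ⟨k, rfl⟩ := hz
          refine ⟨k, Subtype.ext ?_⟩
          show c ^ k = (x ^ k) ^ p ^ e
          rw [← hx, ← zpow_natCast, ← zpow_natCast, ← zpow_mul, ← zpow_mul, mul_comm]
        · rintro ⟨k, rfl⟩
          refine ⟨⟨x ^ k, zpow_mem_zpowers x k⟩, Subtype.ext ?_⟩
          show (x ^ k) ^ p ^ e = c ^ k
          rw [← hx, ← zpow_natCast, ← zpow_natCast, ← zpow_mul, ← zpow_mul, mul_comm]
      rw [h3, Nat.card_zpowers, Subgroup.orderOf_mk]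
    rw [h2, Nat.card_zpowers, hord x hx] at h1
    exact Nat.eq_of_mul_eq_mul_right (orderOf_pos c) h1
  have e' : {y : {x : G // x ^ p ^ e = c} // zpowers (y : G) = zpowers x} ≃ φ.ker := by
    refine 
      { toFun := fun y => ⟨⟨x⁻¹ * y.1.1, mul_mem (inv_mem (mem_zpowers x)) (by
          have h1 := mem_zpowers y.1.1
          rw [y.2] at h1; exact h1)⟩, ?_⟩
        invFun := fun z => ⟨⟨x * z.1.1, ?_⟩, ?_⟩
        left_inv := ?_
        right_inv := ?_ }
    · rw [MonoidHom.mem_ker]
      apply Subtype.ext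
      show (x⁻¹ * y.1.1) ^ p ^ e = 1
      have h1 : (y.1.1 : G) ∈ zpowers x := by
        have h1 := mem_zpowers y.1.1
        rw [y.2] at h1; exact h1
      obtain ⟨k, hk⟩ := h1
      have hc : Commute x⁻¹ y.1.1 := by
        rw [← hk]
        exact ((Commute.refl x).zpow_right k).inv_left
      rw [hc.mul_pow, y.1.2, inv_pow, hx, inv_mul_cancel]
    · have h1 : (z.1.1 : G) ∈ zpowers x := z.1.2
      obtain ⟨k, hk⟩ := h1
      have hc : Commute x z.1.1 := by
        rw [← hk]; exact (Commute.refl x).zpow_right k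
      have h2 : (z.1.1 : G) ^ p ^ e = 1 := congrArg Subtype.val (MonoidHom.mem_ker.1 z.2)
      rw [hc.mul_pow, hx, h2, mul_one]
    · -- generates
      have h1 : (z.1.1 : G) ∈ zpowers x := z.1.2
      obtain ⟨k, hk⟩ := h1
      have hc : Commute x z.1.1 := by
        rw [← hk]; exact (Commute.refl x).zpow_right k
      have h2 : (z.1.1 : G) ^ p ^ e = 1 := congrArg Subtype.val (MonoidHom.mem_ker.1 z.2)
      have h3 : (x * z.1.1) ^ p ^ e = c := by rw [hc.mul_pow, hx, h2, mul_one]
      apply Subgroup.eq_of_le_of_card_ge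
      · rw [zpowers_le]
        exact mul_mem (mem_zpowers x) z.1.2
      · rw [Nat.card_zpowers, Nat.card_zpowers, hord _ hx, hord _ h3]
    · intro y
      apply Subtype.ext; apply Subtype.ext
      show x * (x⁻¹ * y.1.1) = y.1.1
      group
    · intro z
      apply Subtype.ext; apply Subtype.ext
      show x⁻¹ * (x * z.1.1) = z.1.1
      group
  rw [Nat.card_congr e', hker]

end basics

/-- **Frobenius' theorem** in the general form -/
theorem frob_count (g : ℕ) : ∀ (n : ℕ) (G : Type u) [Group G] [Finite G] (_ : Nat.card G = g) (c : G), 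
    Nat.gcd (Nat.card {y : G // IsConj c y} * n) (Nat.card G) ∣ Nat.card {x : G // IsConj c (x ^ n)} := by
  induction g using Nat.strong_induction_on with
  | _ g ihg =>
  intro n
  induction n using Nat.strong_induction_on with
  | _ n ihn =>
  intro G _ _ hG c
  -- noncentral case, valid for all n
  have noncentral : ∀ c : G, c ∉ center G → Nat.gcd (Nat.card {y : G // IsConj c y} * n) (Nat.card G) ∣ Nat.card {x : G // IsConj c (x ^ n)} := by
    intro c hc
    let H := centralizer ({c} : Set G)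
    have hH : Nat.card H < g := by
      rw [← hG]
      refine lt_of_le_of_ne (Subgroup.card_le_card_group H) ?_
      intro h
      apply hc
      have h1 := (Subgroup.card_eq_iff_eq_top H).1 h
      rw [mem_center_iff]
      intro x
      have : x ∈ H := by rw [h1]; trivial
      exact mem_centralizer_singleton_iff.1 this
    have hcH : c ∈ H := mem_centralizer_singleton_iff.2 rfl
    have hcZ : (⟨c, hcH⟩ : H) ∈ center H := by
      rw [mem_center_iff]
      intro x
      exact Subtype.ext (mem_centralizer_singleton_iff.1 x.2)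
    have h1 := ihg (Nat.card H) hH n H rfl ⟨c, hcH⟩
    have h2 : Nat.card {y : H // IsConj (⟨c, hcH⟩ : H) y} = 1 := by
      rw [Nat.card_eq_one_iff_unique]
      refine ⟨⟨fun x y => Subtype.ext ?_⟩, ⟨⟨⟨c, hcH⟩, IsConj.refl _⟩⟩⟩
      rw [(isConj_center_iff hcZ).1 x.2, (isConj_center_iff hcZ).1 y.2]
    have h3 : Nat.card {x : H // IsConj (⟨c, hcH⟩ : H) (x ^ n)} = Nat.card {x : G // x ^ n = c} := by
      apply Nat.card_congr
      refine
        { toFun := fun x => ⟨x.1.1, congrArg Subtype.val ((isConj_center_iff hcZ).1 x.2)⟩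
          invFun := fun x => ⟨⟨x.1, mem_centralizer_singleton_iff.2 ?_⟩, (isConj_center_iff hcZ).2 (Subtype.ext x.2)⟩
          left_inv := fun x => rfl
          right_inv := fun x => rfl }
      have := ((Commute.refl x.1).pow_right n).eq
      rwa [x.2] at this
    rw [h2, h3, one_mul] at h1
    rw [card_conj_pow]
    have h4 := card_class_mul c
    rw [← h4, Nat.gcd_mul_left]
    exact Nat.mul_dvd_mul_left _ h1
  by_cases hc : c ∈ center G
  swap
  · exact noncentral c hc
  have hclass : ∀ {c : G}, c ∈ center G → Nat.card {y : G // IsConj c y} = 1 := by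
    intro c hc
    rw [Nat.card_eq_one_iff_unique]
    refine ⟨⟨fun x y => Subtype.ext ?_⟩, ⟨⟨c, IsConj.refl _⟩⟩⟩
    rw [(isConj_center_iff hc).1 x.2, (isConj_center_iff hc).1 y.2]
  have hroot : ∀ {c : G} (n : ℕ), c ∈ center G → Nat.card {x : G // IsConj c (x ^ n)} = Nat.card {x : G // x ^ n = c} := by
    intro c n hc
    rw [card_conj_pow, hclass hc, one_mul]
  rw [hclass hc, hroot n hc, one_mul]
  rcases Nat.eq_zero_or_pos n with rfl | hn0
  · rw [Nat.gcd_zero_left]
    by_cases h1 : (1 : G) = c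
    · subst h1
      have : Nat.card {x : G // x ^ 0 = 1} = Nat.card G := Nat.card_congr (Equiv.subtypeUnivEquiv (fun x => pow_zero x))
      rw [this]
    · haveI : IsEmpty {x : G // x ^ 0 = c} := ⟨fun x => h1 (by rw [← x.2, pow_zero])⟩
      rw [show Nat.card {x : G // x ^ 0 = c} = 0 from Nat.card_of_isEmpty]; exact dvd_zero _
  by_cases hn1 : n = 1
  · subst hn1
    rw [Nat.gcd_one_left]; exact one_dvd _
  -- a prime divisor
  obtain ⟨p, hp, hpn⟩ := Nat.exists_prime_and_dvd hn1
  haveI := Fact.mk hp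
  obtain ⟨e, m, hm, hem⟩ := Nat.exists_eq_pow_mul_and_not_dvd hn0.ne' p hp.ne_one
  have he : e ≠ 0 := by
    rintro rfl
    rw [pow_zero, one_mul] at hem
    exact hm (hem ▸ hpn)
  have hpe : 1 < p ^ e := Nat.one_lt_pow he hp.one_lt
  by_cases hm1 : m = 1
  swap
  · -- composite case
    have hm0 : 0 < m := Nat.pos_of_ne_zero (by rintro rfl; simp at hem; omega)
    have hm2 : 1 < m := by omega
    have hlt1 : p ^ e < n := by rw [hem]; nlinarith
    have hlt2 : m < n := by rw [hem]; nlinarith
    have hco : Nat.Coprime (p ^ e) m := Nat.Coprime.pow_left _ ((Nat.Prime.coprime_iff_not_dvd hp).2 hm)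
    have key : ∀ a b : ℕ, a < n → a * b = n → Nat.gcd a (Nat.card G) ∣ Nat.card {x : G // x ^ n = c} := by
      intro a b ha hab
      have h1 := dvd_card_of_classes (G := G) a (Nat.gcd a (Nat.card G)) (fun y => y ^ b = c) (by
        intro x y hxy hx
        obtain ⟨g, rfl⟩ := isConj_iff.1 hxy
        show (g * x * g⁻¹) ^ b = c
        rw [conj_pow, hx, mem_center_iff.1 hc g]; group) (by
        intro y _
        refine Nat.dvd_trans ?_ (ihn a ha G hG y)
        exact Nat.gcd_dvd_gcd_of_dvd_left _ (Dvd.intro_left _ rfl))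
      have h2 : ∀ x : G, (x ^ a) ^ b = x ^ n := fun x => by rw [← pow_mul, hab]
      simp only [h2] at h1
      exact h1
    have h1 := key (p ^ e) m hlt1 hem.symm
    have h2 := key m (p ^ e) hlt2 (by rw [mul_comm]; exact hem.symm)
    rw [hem, Nat.gcd_comm, Nat.Coprime.gcd_mul _ hco]
    rw [hem] at h1 h2
    apply Nat.Coprime.mul_dvd_of_dvd_of_dvd
    · exact Nat.Coprime.coprime_dvd_left (Nat.gcd_dvd_right _ _) (Nat.Coprime.coprime_dvd_right (Nat.gcd_dvd_right _ _) hco)
    · rw [Nat.gcd_comm]; exact h1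
    · rw [Nat.gcd_comm]; exact h2
  · subst hm1
    rw [mul_one] at hem
    subst hem
    by_cases hpc : p ∣ orderOf c
    · exact Nat.dvd_trans (Nat.gcd_dvd_left _ _) (card_root_dvd_of_dvd_orderOf hp hpc)
    -- reduce to c = 1
    have hred : ∀ {c : G}, c ∈ center G → ¬ p ∣ orderOf c → Nat.card {x : G // x ^ p ^ e = c} = Nat.card {x : G // x ^ p ^ e = 1} := by
      intro c hc hpc
      have hco : Nat.Coprime (p ^ e) (orderOf c) := Nat.Coprime.pow_left _ ((Nat.Prime.coprime_iff_not_dvd hp).2 hpc)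
      obtain ⟨k, hk⟩ := exists_pow_eq_self_of_coprime hco
      have hd : (c ^ k) ^ p ^ e = c := by rw [← pow_mul, mul_comm, pow_mul]; exact hk
      have hdc : ∀ x : G, Commute x (c ^ k) := fun x => mem_center_iff.1 (pow_mem hc k) x
      apply Nat.card_congr
      refine
        { toFun := fun x => ⟨x.1 * (c ^ k)⁻¹, ?_⟩
          invFun := fun x => ⟨x.1 * c ^ k, ?_⟩
          left_inv := fun x => Subtype.ext (by simp)
          right_inv := fun x => Subtype.ext (by simp) }
      · rw [((hdc x.1).inv_right).mul_pow, x.2, inv_pow, hd, mul_inv_cancel]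
      · rw [(hdc x.1).mul_pow, x.2, hd, one_mul]
    rw [hred hc hpc]
    -- global count
    have hZ : ∀ x ∈ center G, ∀ y ∈ center G, x * y = y * x := fun x _ y hy => mem_center_iff.1 hy x
    have hG0 : Nat.card G ≠ 0 := Nat.card_pos.ne'
    set m := Nat.card G / p ^ (Nat.card G).factorization p with hmdef
    have hpm : ¬ p ∣ m := Nat.not_dvd_ordCompl hp hG0
    let B := killBy (center G) hZ m
    have hB : ∀ y : G, y ∈ B ↔ (y ∈ center G ∧ ¬ p ∣ orderOf y) := by
      intro y
      constructor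
      · rintro ⟨h1, h2⟩
        exact ⟨h1, fun h => hpm (h.trans (orderOf_dvd_of_pow_eq_one h2))⟩
      · rintro ⟨h1, h2⟩
        refine ⟨h1, orderOf_dvd_iff_pow_eq_one.1 ?_⟩
        have h3 : orderOf y ∣ p ^ (Nat.card G).factorization p * m := by
          rw [hmdef, Nat.ordProj_mul_ordCompl_eq_self]; exact orderOf_dvd_natCard y
        exact Nat.Coprime.dvd_of_dvd_mul_left (Nat.Coprime.symm (Nat.Coprime.pow_left _ ((Nat.Prime.coprime_iff_not_dvd hp).2 h2))) h3
    have hcardB : ¬ p ∣ Nat.card B := by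
      intro h
      obtain ⟨x, hx⟩ := exists_prime_orderOf_dvd_card' (G := B) p h
      apply ((hB x).1 x.2).2
      rw [Subgroup.orderOf_coe, hx]
    have hsplit : Nat.card G = Nat.card {x : G // x ^ p ^ e ∈ B} + Nat.card {x : G // ¬ (x ^ p ^ e ∈ B)} := by
      classical
      rw [← Nat.card_sum]
      exact Nat.card_congr (Equiv.sumCompl _).symm
    have h1 : Nat.gcd (p ^ e) (Nat.card G) ∣ Nat.card {x : G // ¬ (x ^ p ^ e ∈ B)} := by
      apply dvd_card_of_classes (G := G) (p ^ e) _ (fun y => y ∉ B)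
      · intro x y hxy hx hy
        apply hx
        haveI : B.Normal := killBy_normal _ hZ m
        obtain ⟨g, rfl⟩ := isConj_iff.1 hxy
        have := (inferInstance : B.Normal).conj_mem _ hy g⁻¹
        have e1 : g⁻¹ * (g * x * g⁻¹) * g⁻¹⁻¹ = x := by group
        rwa [e1] at this
      · intro y hy
        by_cases hyc : y ∈ center G
        · rw [hroot _ hyc]
          have h2 : p ∣ orderOf y := by
            by_contra h3; exact hy ((hB y).2 ⟨hyc, h3⟩)
          exact Nat.dvd_trans (Nat.gcd_dvd_left _ _) (card_root_dvd_of_dvd_orderOf hp h2)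
        · refine Nat.dvd_trans ?_ (noncentral y hyc)
          exact Nat.gcd_dvd_gcd_of_dvd_left _ (Dvd.intro_left _ rfl)
    have h2 : Nat.card {x : G // x ^ p ^ e ∈ B} = Nat.card B * Nat.card {x : G // x ^ p ^ e = 1} := by
      apply card_fibres_const (fun x : {x : G // x ^ p ^ e ∈ B} => (⟨(x : G) ^ p ^ e, x.2⟩ : B))
      rintro ⟨y, hy⟩
      have hy' := (hB y).1 hy
      rw [← hred hy'.1 hy'.2]
      apply Nat.card_congr
      refine
        { toFun := fun x => ⟨x.1.1, congrArg Subtype.val x.2⟩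
          invFun := fun x => ⟨⟨x.1, by rw [x.2]; exact hy⟩, Subtype.ext x.2⟩
          left_inv := fun x => rfl
          right_inv := fun x => rfl }
    have h3 : Nat.gcd (p ^ e) (Nat.card G) ∣ Nat.card B * Nat.card {x : G // x ^ p ^ e = 1} := by
      rw [← h2]
      have h4 : Nat.gcd (p ^ e) (Nat.card G) ∣ Nat.card G := Nat.gcd_dvd_right _ _
      rw [hsplit] at h4 ⊢
      have h5 := h1
      rw [hsplit] at h5
      exact (Nat.dvd_add_left h5).1 h4
    refine Nat.Coprime.dvd_of_dvd_mul_left ?_ h3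
    exact Nat.Coprime.coprime_dvd_left (Nat.gcd_dvd_left _ _) (Nat.Coprime.pow_left _ ((Nat.Prime.coprime_iff_not_dvd hp).2 hcardB))

/-- **Frobenius' theorem** -/
theorem frobenius_dvd {G : Type u} [Group G] [Finite G] (n : ℕ) (hn : n ∣ Nat.card G) : n ∣ Nat.card {x : G // x ^ n = 1} := by
  have h1 := frob_count (Nat.card G) n G rfl 1
  have h2 := card_conj_pow (1 : G) n
  have h3 : Nat.card {y : G // IsConj 1 y} = 1 := by
    rw [Nat.card_eq_one_iff_unique]
    refine ⟨⟨fun x y => Subtype.ext ?_⟩, ⟨⟨1, IsConj.refl _⟩⟩⟩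
    rw [(isConj_center_iff (one_mem _)).1 x.2, (isConj_center_iff (one_mem _)).1 y.2]
  rw [h3, one_mul] at h2
  rw [h2, h3, one_mul, Nat.gcd_eq_left hn] at h1
  exact h1

end CfsgH3
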