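import Mathlib
import Cfsg.Agent.H3.PBasic

set_option autoImplicit false

/-!
Grün's first theorem.
-/

namespace CfsgH3

open Subgroup MulAction

open scoped Pointwise

/-- a product over the fixed points of an element of a `p`-group reduces to the fixed points of the whole group -/
theorem prod_fixed_eq {p : ℕ} [hp : Fact p.Prime] {P : Type*} [Group P] [Finite P] {X : Type*} [Fintype X] [DecidableEq X] [MulAction P X]
    (hP : IsPGroup p P) (x : P) {A : Type*} [CommGroup A] (T : X → A)
    (hT : ∀ c c' : X, x • c = c → x • c' = c' → c' ∈ orbit P c → T c' = T c) 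
    (hTp : ∀ c : X, x • c = c → (∃ u : P, u • c ≠ c) → T c ^ p = 1) : 
    ∏ c ∈ (Finset.univ.filter (fun c : X => x • c = c)), T c = 
      ∏ c ∈ (Set.toFinite {c : X | ∀ u : P, u • c = c}).toFinset, T c := by
  classical
  have h1 : (Finset.univ.filter (fun c : X => x • c = c)) = 
      (Set.toFinite {c : X | ∀ u : P, u • c = c}).toFinset ∪ (Finset.univ.filter (fun c : X => x • c = c ∧ ∃ u : P, u • c ≠ c)) := by
    ext c
    simp only [Finset.mem_filter, Finset.mem_univ, true_and, Finset.mem_union, Set.Finite.mem_toFinset, Set.mem_setOf_eq]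
    constructor
    · intro h
      by_cases h2 : ∀ u : P, u • c = c
      · left; exact h2
      · right; push Not at h2; exact ⟨h, h2⟩
    · rintro (h | h)
      · exact h x
      · exact h.1
  have hdisj : Disjoint (Set.toFinite {c : X | ∀ u : P, u • c = c}).toFinset (Finset.univ.filter (fun c : X => x • c = c ∧ ∃ u : P, u • c ≠ c)) := by
    rw [Finset.disjoint_left]
    intro c h2 h3
    simp only [Finset.mem_filter, Finset.mem_univ, true_and, Set.Finite.mem_toFinset, Set.mem_setOf_eq] at h2 h3
    obtain ⟨-, u, hu⟩ := h3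
    exact hu (h2 u)
  rw [h1, Finset.prod_union hdisj]
  have key : ∏ c ∈ (Finset.univ.filter (fun c : X => x • c = c ∧ ∃ u : P, u • c ≠ c)), T c = 1 := by
    haveI : Fintype (Quotient (orbitRel P X)) := Fintype.ofFinite _
    rw [← Finset.prod_fiberwise _ (fun c => (Quotient.mk (orbitRel P X) c))]
    apply Finset.prod_eq_one
    intro o _
    by_cases hne : ((Finset.univ.filter (fun c : X => x • c = c ∧ ∃ u : P, u • c ≠ c)).filter (fun c => (Quotient.mk (orbitRel P X) c) = o)).Nonempty
    swap
    · rw [Finset.not_nonempty_iff_eq_empty] at hne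
      rw [hne, Finset.prod_empty]
    obtain ⟨c₀, hc₀⟩ := hne
    simp only [Finset.mem_filter, Finset.mem_univ, true_and] at hc₀
    obtain ⟨⟨hx₀, hu₀⟩, ho⟩ := hc₀
    subst ho
    have hmem : ∀ c, (Quotient.mk (orbitRel P X) c) = Quotient.mk (orbitRel P X) c₀ ↔ c ∈ orbit P c₀ := by
      intro c
      rw [Quotient.eq]; rfl
    rw [Finset.prod_congr rfl (g := fun _ => T c₀) (by
      intro c hc
      simp only [Finset.mem_filter, Finset.mem_univ, true_and] at hc
      exact hT c₀ c hx₀ hc.1.1 ((hmem c).1 hc.2))]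
    rw [Finset.prod_const]
    -- the number of fixed points in the orbit is divisible by p
    have hcard : p ∣ ((Finset.univ.filter (fun c : X => x • c = c ∧ ∃ u : P, u • c ≠ c)).filter 
        (fun c => (Quotient.mk (orbitRel P X) c) = Quotient.mk (orbitRel P X) c₀)).card := by
      have h2 := (hP.to_subgroup (zpowers x)).card_modEq_card_fixedPoints (α := orbit P c₀)
      have h3 := hP.card_modEq_card_fixedPoints (α := orbit P c₀)
      have h4 : Nat.card (fixedPoints P (orbit P c₀)) = 0 := by
        haveI : IsEmpty (fixedPoints P (orbit P c₀)) := by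
          refine ⟨fun y => ?_⟩
          obtain ⟨⟨y, hy⟩, hy2⟩ := y
          obtain ⟨u, hu⟩ := hu₀
          apply hu
          have h5 : ∀ v : P, v • y = y := fun v => congrArg Subtype.val (hy2 v)
          obtain ⟨w, rfl⟩ := hy
          have h6 : c₀ = w⁻¹ • (w • c₀) := by rw [inv_smul_smul]
          have h7 : (w⁻¹ : P) • ((fun m : P => m • c₀) w) = (fun m : P => m • c₀) w := h5 w⁻¹
          have h8 : c₀ = w • c₀ := h6.trans h7
          have h9 := h5 u
          change u • (w • c₀) = w • c₀ at h9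
          rw [← h8] at h9
          exact h9
        exact Nat.card_of_isEmpty
      have h5 : Nat.card (fixedPoints (zpowers x) (orbit P c₀)) = 
          ((Finset.univ.filter (fun c : X => x • c = c ∧ ∃ u : P, u • c ≠ c)).filter 
            (fun c => (Quotient.mk (orbitRel P X) c) = Quotient.mk (orbitRel P X) c₀)).card := by
        rw [← Fintype.card_coe, ← Nat.card_eq_fintype_card]
        apply Nat.card_congr
        refine
          { toFun := fun y => ⟨y.1.1, ?_⟩
            invFun := fun y => ⟨⟨y.1, ?_⟩, ?_⟩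
            left_inv := fun y => rfl
            right_inv := fun y => rfl }
        · simp only [Finset.mem_filter, Finset.mem_univ, true_and]
          refine ⟨⟨congrArg Subtype.val (y.2 ⟨x, mem_zpowers x⟩), ?_⟩, (hmem _).2 y.1.2⟩
          by_contra h6
          push Not at h6
          obtain ⟨u, hu⟩ := hu₀
          apply hu
          obtain ⟨w, hw⟩ := y.1.2
          change w • c₀ = y.1.1 at hw
          have h8 : c₀ = y.1.1 := by
            rw [← h6 w⁻¹, ← hw, inv_smul_smul]
          rw [h8]; exact h6 u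
        · have := y.2
          simp only [Finset.mem_filter, Finset.mem_univ, true_and] at this
          exact (hmem _).1 this.2
        · have := y.2
          simp only [Finset.mem_filter, Finset.mem_univ, true_and] at this
          have h6 : x • y.1 = y.1 := this.1.1
          rintro ⟨z, hz⟩
          apply Subtype.ext
          show z • y.1 = y.1
          have h7 : zpowers x ≤ stabilizer P y.1 := by rw [zpowers_le]; exact h6
          exact h7 hz
      rw [← h5]
      rw [h4] at h3
      exact (Nat.modEq_zero_iff_dvd).1 (h2.symm.trans h3)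
    obtain ⟨k, hk⟩ := hcard
    rw [hk, pow_mul, hTp c₀ hx₀ hu₀, one_pow]
  rw [key, mul_one]

theorem grun_key {G : Type*} [Group G] [Finite G] {p : ℕ} [hp : Fact p.Prime] (P : Sylow p G) {A : Type*} [CommGroup A] (ϕ : (P : Subgroup G) →* A)
    (H1 : ∀ (n : G), n ∈ normalizer ((P : Subgroup G) : Set G) → ∀ (x : G) (hx : x ∈ (P : Subgroup G)) (hx' : n⁻¹ * x * n ∈ (P : Subgroup G)), ϕ ⟨n⁻¹ * x * n, hx'⟩ = ϕ ⟨x, hx⟩)
    (H2 : ∀ (z c : G), c ∈ ⁅(P : Subgroup G), (P : Subgroup G)⁆ → ∀ h : z⁻¹ * c * z ∈ (P : Subgroup G), ϕ ⟨z⁻¹ * c * z, h⟩ = 1)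
    (x : G) (hx : x ∈ (P : Subgroup G)) (hxG : x ∈ commutator G) (hmin : ∀ (y : G) (hy : y ∈ (P : Subgroup G)), y ∈ commutator G → orderOf y < orderOf x → ϕ ⟨y, hy⟩ = 1) : 
    ϕ ⟨x, hx⟩ = 1 := by
  classical
  by_cases hx1 : x = 1
  · subst hx1; exact map_one ϕ
  haveI := Fintype.ofFinite G
  haveI : Fintype (G ⧸ (P : Subgroup G)) := Fintype.ofFinite _
  haveI : Fintype (Quotient (orbitRel (zpowers x) (G ⧸ (P : Subgroup G)))) := Fintype.ofFinite _
  have hcomm : ∀ u v : (P : Subgroup G), ϕ (v⁻¹ * u * v) = ϕ u := by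
    intro u v
    rw [map_mul, map_mul, map_inv, mul_comm, mul_inv_cancel_left]
  have htr : MonoidHom.transfer ϕ x = 1 := by
    have h1 : commutator G ≤ (MonoidHom.transfer ϕ).ker := Abelianization.commutator_subset_ker _
    exact h1 hxG
  rw [MonoidHom.transfer_eq_prod_quotient_orbitRel_zpowers_quot] at htr
  -- the value on fixed points
  have hfix : ∀ c : G ⧸ (P : Subgroup G), x • c = c → c.out⁻¹ * x * c.out ∈ (P : Subgroup G) := by
    intro c hc
    have h1 : (QuotientGroup.mk (x * c.out) : G ⧸ (P : Subgroup G)) = QuotientGroup.mk c.out := by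
      have : (QuotientGroup.mk c.out : G ⧸ (P : Subgroup G)) = c := QuotientGroup.out_eq' c
      rw [this]
      conv_rhs => rw [← hc, ← this]
      rfl
    have h2 := QuotientGroup.eq.1 h1.symm
    rwa [← mul_assoc] at h2
  let T : G ⧸ (P : Subgroup G) → A := fun c => if h : x • c = c then ϕ ⟨c.out⁻¹ * x * c.out, hfix c h⟩ else 1
  have hperiod : ∀ q : Quotient (orbitRel (zpowers x) (G ⧸ (P : Subgroup G))), 
      ϕ ⟨q.out.out⁻¹ * x ^ Function.minimalPeriod (x • ·) q.out * q.out.out,
            QuotientGroup.out_conj_pow_minimalPeriod_mem (P : Subgroup G) x q.out⟩ = if x • q.out = q.out then T q.out else 1 := by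
    intro q
    by_cases hq : x • q.out = q.out
    · rw [if_pos hq]
      simp only [T, dif_pos hq]
      have h1 : Function.minimalPeriod (x • ·) q.out = 1 := Function.minimalPeriod_eq_one_iff_isFixedPt.2 hq
      congr 1
      apply Subtype.ext
      show q.out.out⁻¹ * x ^ Function.minimalPeriod (x • ·) q.out * q.out.out = q.out.out⁻¹ * x * q.out.out
      rw [h1, pow_one]
    · rw [if_neg hq]
      set m := Function.minimalPeriod (x • ·) q.out with hm
      have hm1 : m ≠ 1 := fun h => hq (Function.minimalPeriod_eq_one_iff_isFixedPt.1 h)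
      have hm0 : 0 < m := by
        rw [hm]
        apply Function.minimalPeriod_pos_of_mem_periodicPts
        refine ⟨orderOf x, orderOf_pos x, ?_⟩
        show ((x • ·)^[orderOf x]) q.out = q.out
        rw [smul_iterate, pow_orderOf_eq_one]; exact one_smul _ _
      have hmd : m ∣ orderOf x := by
        rw [hm]
        apply Function.IsPeriodicPt.minimalPeriod_dvd
        show ((x • ·)^[orderOf x]) q.out = q.out
        rw [smul_iterate, pow_orderOf_eq_one]; exact one_smul _ _
      apply hmin
      · have h1 : q.out.out⁻¹ * x ^ m * q.out.out = q.out.out⁻¹ * x ^ m * q.out.out⁻¹⁻¹ := by rw [inv_inv]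
        rw [h1]
        exact (inferInstance : (commutator G).Normal).conj_mem _ (pow_mem hxG m) _
      · have h1 : q.out.out⁻¹ * x ^ m * q.out.out = q.out.out⁻¹ * x ^ m * q.out.out⁻¹⁻¹ := by rw [inv_inv]
        have h2 : orderOf (q.out.out⁻¹ * x ^ m * q.out.out⁻¹⁻¹) = orderOf (x ^ m) := by
          have := MulEquiv.orderOf_eq (MulAut.conj q.out.out⁻¹) (x ^ m)
          simpa using this
        rw [h1, h2, orderOf_pow_of_dvd hm0.ne' hmd]
        exact Nat.div_lt_self (orderOf_pos x) (by omega)
  simp_rw [hperiod] at htr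
  rw [← Finset.prod_filter] at htr
  have htr2 : ∏ c ∈ (Finset.univ.filter (fun c : G ⧸ (P : Subgroup G) => x • c = c)), T c = 1 := by
    rw [← htr]
    symm
    apply Finset.prod_nbij' (fun q => q.out) (fun c => Quotient.mk _ c)
    · intro q hq
      simp only [Finset.mem_filter, Finset.mem_univ, true_and] at hq ⊢
      exact hq
    · intro c hc
      simp only [Finset.mem_filter, Finset.mem_univ, true_and] at hc ⊢
      have h1 : (Quotient.mk (orbitRel (zpowers x) (G ⧸ (P : Subgroup G))) c).out ∈ orbit (zpowers x) c := by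
        have := Quotient.exact (Quotient.out_eq (Quotient.mk (orbitRel (zpowers x) (G ⧸ (P : Subgroup G))) c))
        exact this
      obtain ⟨⟨z, hz⟩, hzc⟩ := h1
      have h2 : zpowers x ≤ stabilizer G c := by rw [zpowers_le]; exact hc
      have h3 : z • c = c := h2 hz
      change z • c = _ at hzc
      rw [h3] at hzc
      rw [← hzc]; exact hc
    · intro q _
      exact Quotient.out_eq q
    · intro c hc
      simp only [Finset.mem_filter, Finset.mem_univ, true_and] at hc
      have h1 : (Quotient.mk (orbitRel (zpowers x) (G ⧸ (P : Subgroup G))) c).out ∈ orbit (zpowers x) c := by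
        have := Quotient.exact (Quotient.out_eq (Quotient.mk (orbitRel (zpowers x) (G ⧸ (P : Subgroup G))) c))
        exact this
      obtain ⟨⟨z, hz⟩, hzc⟩ := h1
      have h2 : zpowers x ≤ stabilizer G c := by rw [zpowers_le]; exact hc
      have h3 : z • c = c := h2 hz
      change z • c = _ at hzc
      rw [h3] at hzc
      exact hzc.symm
    · intro q _; rfl
  -- reduce to the fixed points of P
  have hPp : IsPGroup p (P : Subgroup G) := P.2
  have hsm : ∀ (u : (P : Subgroup G)) (c : G ⧸ (P : Subgroup G)), u • c = (u : G) • c := fun u c => rfl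
  have hrep : ∀ c : G ⧸ (P : Subgroup G), (QuotientGroup.mk c.out : G ⧸ (P : Subgroup G)) = c := fun c => QuotientGroup.out_eq' c
  have h3 := prod_fixed_eq hPp ⟨x, hx⟩ T (by
    rintro c c' hc hc' ⟨u, hu⟩
    change (u : G) • c = c' at hu
    change x • c = c at hc
    change x • c' = c' at hc'
    simp only [T, dif_pos hc, dif_pos hc']
    -- c'.out = u * c.out * v
    have h1 : (QuotientGroup.mk ((u : G) * c.out) : G ⧸ (P : Subgroup G)) = QuotientGroup.mk c'.out := by
      rw [hrep c', ← hu]
      conv_rhs => rw [← hrep c]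
      rfl
    have h2 := QuotientGroup.eq.1 h1
    set v := ((u : G) * c.out)⁻¹ * c'.out with hv
    have h4 : c'.out = u * c.out * v := by rw [hv]; group
    set g := c.out with hg
    have h5 : x⁻¹ * (u : G)⁻¹ * x * u ∈ ⁅(P : Subgroup G), (P : Subgroup G)⁆ := by
      have := Subgroup.commutator_mem_commutator (H₁ := (P : Subgroup G)) (H₂ := (P : Subgroup G)) (inv_mem hx) (inv_mem u.2)
      rw [commutatorElement_def] at this
      simpa using this
    have h6 : g⁻¹ * (x⁻¹ * (u : G)⁻¹ * x * u) * g ∈ (P : Subgroup G) := by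
      have e : g⁻¹ * (x⁻¹ * (u : G)⁻¹ * x * u) * g = (g⁻¹ * x * g)⁻¹ * (v * (c'.out⁻¹ * x * c'.out) * v⁻¹) := by
        rw [h4]; group
      rw [e]
      exact mul_mem (inv_mem (hfix c hc)) (mul_mem (mul_mem h2 (hfix c' hc')) (inv_mem h2))
    have h7 := H2 g _ h5 h6
    have h8 : (⟨c'.out⁻¹ * x * c'.out, hfix c' hc'⟩ : (P : Subgroup G)) = 
        (⟨v, h2⟩ : (P : Subgroup G))⁻¹ * (⟨g⁻¹ * x * g, hfix c hc⟩ * ⟨g⁻¹ * (x⁻¹ * (u : G)⁻¹ * x * u) * g, h6⟩) * ⟨v, h2⟩ := by
      apply Subtype.ext
      show c'.out⁻¹ * x * c'.out = v⁻¹ * ((g⁻¹ * x * g) * (g⁻¹ * (x⁻¹ * (u : G)⁻¹ * x * u) * g)) * v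
      rw [h4]; group
    rw [h8, hcomm, map_mul, h7, mul_one]) (by
    rintro c hc ⟨u, hu⟩
    change x • c = c at hc
    simp only [T, dif_pos hc]
    rw [← map_pow]
    apply hmin
    · show (c.out⁻¹ * x * c.out) ^ p ∈ commutator G
      apply pow_mem
      have h1 : c.out⁻¹ * x * c.out = c.out⁻¹ * x * c.out⁻¹⁻¹ := by rw [inv_inv]
      rw [h1]
      exact (inferInstance : (commutator G).Normal).conj_mem _ hxG _
    · show orderOf ((c.out⁻¹ * x * c.out) ^ p) < orderOf x
      have h1 : c.out⁻¹ * x * c.out = c.out⁻¹ * x * c.out⁻¹⁻¹ := by rw [inv_inv]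
      have h2 : orderOf (c.out⁻¹ * x * c.out) = orderOf x := by
        have := MulEquiv.orderOf_eq (MulAut.conj c.out⁻¹) x
        rw [h1]
        simpa using this
      have h4 : p ∣ orderOf x := by
        obtain ⟨k, hk⟩ := hPp ⟨x, hx⟩
        have h5 : x ^ p ^ k = 1 := congrArg Subtype.val hk
        obtain ⟨j, -, hj⟩ := (Nat.dvd_prime_pow hp.out).1 (orderOf_dvd_of_pow_eq_one h5)
        rw [hj]
        apply dvd_pow_self
        rintro rfl
        rw [pow_zero, orderOf_eq_one_iff] at hj
        exact hx1 hj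
      rw [orderOf_pow_of_dvd hp.out.ne_zero (by rw [h2]; exact h4), h2]
      exact Nat.div_lt_self (orderOf_pos x) hp.out.one_lt)
  have h4 : ∏ c ∈ (Set.toFinite {c : G ⧸ (P : Subgroup G) | ∀ u : (P : Subgroup G), u • c = c}).toFinset, T c = 1 := by
    rw [← h3]; exact htr2
  rw [Finset.prod_congr rfl (g := fun _ => ϕ ⟨x, hx⟩) (by
    intro c hc
    simp only [Set.Finite.mem_toFinset, Set.mem_setOf_eq] at hc
    have hxc : x • c = c := hc ⟨x, hx⟩
    simp only [T, dif_pos hxc]
    apply H1
    -- c.out normalizes P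
    have h5 : ∀ u ∈ (P : Subgroup G), c.out⁻¹ * u * c.out ∈ (P : Subgroup G) := by
      intro u hu
      have h6 := hc ⟨u, hu⟩
      change u • c = c at h6
      have h7 : (QuotientGroup.mk (u * c.out) : G ⧸ (P : Subgroup G)) = QuotientGroup.mk c.out := by
        rw [hrep c]
        conv_rhs => rw [← h6, ← hrep c]
        rfl
      have h8 := QuotientGroup.eq.1 h7.symm
      rwa [← mul_assoc] at h8
    have h6 : MulAut.conj c.out⁻¹ • (P : Subgroup G) = (P : Subgroup G) := by
      apply Subgroup.eq_of_le_of_card_ge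
      · intro y hy
        rw [mem_conj_smul_iff] at hy
        have := h5 _ hy
        have e : c.out⁻¹ * (c.out⁻¹⁻¹ * y * c.out⁻¹) * c.out = y := by group
        rwa [e] at this
      · exact le_of_eq (Nat.card_congr (Subgroup.equivSMul (MulAut.conj c.out⁻¹) (P : Subgroup G)).toEquiv)
    have h7 : c.out⁻¹ ∈ normalizer ((P : Subgroup G) : Set G) := by
      rw [mem_normalizer_iff]
      intro y
      constructor
      · intro hy
        have := h5 y hy
        simpa using this
      · intro hy
        have hy' : c.out⁻¹ * y * c.out⁻¹⁻¹ ∈ (P : Subgroup G) := hy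
        have hy'' : c.out⁻¹ * y * c.out⁻¹⁻¹ ∈ MulAut.conj c.out⁻¹ • (P : Subgroup G) := by rw [h6]; exact hy'
        rw [mem_conj_smul_iff] at hy''
        have e : c.out⁻¹⁻¹ * (c.out⁻¹ * y * c.out⁻¹⁻¹) * c.out⁻¹ = y := by group
        rwa [e] at hy''
    have h8 := inv_mem h7
    rwa [inv_inv] at h8)] at h4
  rw [Finset.prod_const] at h4
  have h5 : Nat.Coprime (Nat.card (P : Subgroup G)) ((Set.toFinite {c : G ⧸ (P : Subgroup G) | ∀ u : (P : Subgroup G), u • c = c}).toFinset).card := by
    have h6 := hPp.card_modEq_card_fixedPoints (α := G ⧸ (P : Subgroup G))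
    have h7 : Nat.card (fixedPoints (P : Subgroup G) (G ⧸ (P : Subgroup G))) = 
        ((Set.toFinite {c : G ⧸ (P : Subgroup G) | ∀ u : (P : Subgroup G), u • c = c}).toFinset).card := by
      rw [← Set.ncard_eq_toFinset_card, ← Nat.card_coe_set_eq]
      rfl
    rw [← h7]
    obtain ⟨k, hk⟩ := IsPGroup.iff_card.1 hPp
    rw [hk]
    apply Nat.Coprime.pow_left
    rw [Nat.Prime.coprime_iff_not_dvd hp.out]
    intro h8
    have h9 : ¬ p ∣ Nat.card (G ⧸ (P : Subgroup G)) := P.not_dvd_index
    apply h9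
    exact (Nat.modEq_zero_iff_dvd).1 (h6.trans ((Nat.modEq_zero_iff_dvd).2 h8))
  have h6 : ϕ ⟨x, hx⟩ ^ Nat.card (P : Subgroup G) = 1 := by
    rw [← map_pow, pow_card_eq_one', map_one]
  have h7 := Nat.dvd_gcd (orderOf_dvd_of_pow_eq_one h6) (orderOf_dvd_of_pow_eq_one h4)
  rw [h5] at h7
  exact orderOf_eq_one_iff.1 (Nat.dvd_one.1 h7)

end CfsgH3

namespace CfsgH3

open Subgroup

open scoped Pointwise commutatorElement

theorem grun_first {G : Type*} [Group G] [Finite G] {p : ℕ} [Fact p.Prime] (P : Sylow p G) : (P : Subgroup G) ⊓ commutator G = ((P : Subgroup G) ⊓ ⁅Subgroup.normalizer ((P : Subgroup G) : Set G), Subgroup.normalizer ((P : Subgroup G) : Set G)⁆) ⊔ ⨆ z : G, (P : Subgroup G) ⊓ (⁅(P : Subgroup G), (P : Subgroup G)⁆).map (MulAut.conj z).toMonoidHom := by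
  set D := ((P : Subgroup G) ⊓ ⁅Subgroup.normalizer ((P : Subgroup G) : Set G), Subgroup.normalizer ((P : Subgroup G) : Set G)⁆) ⊔ ⨆ z : G, (P : Subgroup G) ⊓ (⁅(P : Subgroup G), (P : Subgroup G)⁆).map (MulAut.conj z).toMonoidHom with hD
  have hle : ∀ H : Subgroup G, ⁅H, H⁆ ≤ commutator G := by
    intro H
    exact Subgroup.commutator_mono le_top le_top
  have hDP : D ≤ (P : Subgroup G) := by
    rw [hD]
    refine sup_le inf_le_left (iSup_le fun z => inf_le_left)
  have hPD : ⁅(P : Subgroup G), (P : Subgroup G)⁆ ≤ D := by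
    rw [hD]
    refine le_trans ?_ le_sup_right
    refine le_trans ?_ (le_iSup _ (1 : G))
    refine le_inf (Subgroup.commutator_le_self _) ?_
    intro x hx
    exact ⟨x, hx, by simp⟩
  apply le_antisymm
  · -- main part
    have hmain : ∀ n : ℕ, ∀ x : G, orderOf x = n → x ∈ (P : Subgroup G) → x ∈ commutator G → x ∈ D := by
      intro n
      induction n using Nat.strong_induction_on with
      | _ n ih =>
      intro x hxn hx hxG
      have hcm : ∀ a b : (P : Subgroup G), a * b * a⁻¹ * b⁻¹ ∈ D.subgroupOf (P : Subgroup G) := by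
        intro a b
        rw [mem_subgroupOf]
        exact hPD (commutator_mem_commutator a.2 b.2)
      haveI hDn : (D.subgroupOf (P : Subgroup G)).Normal := by
        refine ⟨fun a ha g => ?_⟩
        have e : g * a * g⁻¹ = (g * a * g⁻¹ * a⁻¹) * a := by group
        rw [e]
        exact mul_mem (hcm g a) ha
      letI : CommGroup ((P : Subgroup G) ⧸ D.subgroupOf (P : Subgroup G)) :=
        { (inferInstance : Group ((P : Subgroup G) ⧸ D.subgroupOf (P : Subgroup G))) with
          mul_comm := by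
            intro a b
            obtain ⟨a, rfl⟩ := QuotientGroup.mk_surjective a
            obtain ⟨b, rfl⟩ := QuotientGroup.mk_surjective b
            show (QuotientGroup.mk (a * b) : (P : Subgroup G) ⧸ D.subgroupOf (P : Subgroup G)) = QuotientGroup.mk (b * a)
            rw [QuotientGroup.eq]
            have e : (a * b)⁻¹ * (b * a) = b⁻¹ * a⁻¹ * b⁻¹⁻¹ * a⁻¹⁻¹ := by group
            rw [e]
            exact hcm _ _ }
      let ϕ : (P : Subgroup G) →* ((P : Subgroup G) ⧸ D.subgroupOf (P : Subgroup G)) := QuotientGroup.mk' _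
      have hϕ : ∀ (y : G) (hy : y ∈ (P : Subgroup G)), ϕ ⟨y, hy⟩ = 1 ↔ y ∈ D := by
        intro y hy
        exact (QuotientGroup.eq_one_iff _).trans mem_subgroupOf
      have hϕ2 : ∀ (y z : (P : Subgroup G)), ϕ y = ϕ z ↔ (y : G)⁻¹ * z ∈ D := by
        intro y z
        exact QuotientGroup.eq.trans mem_subgroupOf
      have := grun_key P ϕ (by
        intro n hn y hy hy'
        rw [eq_comm, hϕ2]
        have e : ((⟨y, hy⟩ : (P : Subgroup G)) : G)⁻¹ * ((⟨n⁻¹ * y * n, hy'⟩ : (P : Subgroup G)) : G) = ⁅y⁻¹, n⁻¹⁆ := by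
          rw [commutatorElement_def]
          show y⁻¹ * (n⁻¹ * y * n) = y⁻¹ * n⁻¹ * y⁻¹⁻¹ * n⁻¹⁻¹
          group
        rw [e, hD]
        apply mem_sup_left
        refine ⟨?_, commutator_mem_commutator (inv_mem (le_normalizer hy)) (inv_mem hn)⟩
        rw [← e]
        exact (P : Subgroup G).mul_mem ((P : Subgroup G).inv_mem hy) hy') (by
        intro z c hc h
        rw [hϕ, hD]
        apply mem_sup_right
        refine (le_iSup (fun z : G => (P : Subgroup G) ⊓ (⁅(P : Subgroup G), (P : Subgroup G)⁆).map (MulAut.conj z).toMonoidHom) z⁻¹) ⟨h, ⟨c, hc, ?_⟩⟩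
        simp) x hx hxG (by
        intro y hy hyG hlt
        rw [hϕ]
        exact ih (orderOf y) (by rw [← hxn]; exact hlt) y rfl hy hyG)
      rwa [hϕ] at this
    intro x hx
    exact hmain _ x rfl hx.1 hx.2
  · rw [hD]
    refine sup_le (inf_le_inf_left _ (hle _)) (iSup_le fun z => inf_le_inf_left _ ?_)
    rintro _ ⟨y, hy, rfl⟩
    exact (inferInstance : (commutator G).Normal).conj_mem _ (hle _ hy) z

end CfsgH3
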