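import Mathlib
import Cfsg.Agent.H1.CopExtra
import Cfsg.Agent.H1.HHPrime
import Cfsg.Agent.H1.PSolv
import Cfsg.Agent.H3.PGroup
import Cfsg.Agent.H3.PBasic
import Cfsg.Agent.H2.PConstrained

set_option autoImplicit false

/-!
Faithful action on the Frattini quotient of `O_{p',p}`.
-/

namespace CfsgH3

open Subgroup Cfsg

open scoped commutatorElement

universe u

theorem mem_frattini_equiv {A B : Type*} [Group A] [Group B] (e : A ≃* B) {x : A} : e x ∈ frattini B ↔ x ∈ frattini A := by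
  constructor
  · intro h
    have := frattini_le_comap_frattini_of_surjective (φ := e.symm.toMonoidHom) e.symm.surjective h
    simpa using this
  · intro h
    exact frattini_le_comap_frattini_of_surjective (φ := e.toMonoidHom) e.surjective h

/-- elements acting trivially modulo `Φ` -/
def trivMod {G : Type u} [Group G] (P F : Subgroup G) [hP : P.Normal] [hF : F.Normal] : Subgroup G where
  carrier := {c | ∀ y ∈ P, c * y * c⁻¹ * y⁻¹ ∈ F}
  one_mem' := by
    intro y _
    have : (1 : G) * y * 1⁻¹ * y⁻¹ = 1 := by group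
    rw [this]; exact one_mem _
  mul_mem' := by
    intro c d hc hd y hy
    have e : c * d * y * (c * d)⁻¹ * y⁻¹ = (c * (d * y * d⁻¹ * y⁻¹) * c⁻¹) * (c * y * c⁻¹ * y⁻¹) := by group
    rw [e]
    exact F.mul_mem (hF.conj_mem _ (hd y hy) c) (hc y hy)
  inv_mem' := by
    intro c hc y hy
    have hz : c⁻¹ * y * c ∈ P := by simpa using hP.conj_mem y hy c⁻¹
    have h1 := hc _ hz
    have e : c * (c⁻¹ * y * c) * c⁻¹ * (c⁻¹ * y * c)⁻¹ = (c⁻¹ * y * c⁻¹⁻¹ * y⁻¹)⁻¹ := by group
    rw [e] at h1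
    exact (inv_mem_iff).1 h1

theorem trivMod_normal {G : Type u} [Group G] (P F : Subgroup G) [hP : P.Normal] [hF : F.Normal] : (trivMod P F).Normal := by
  refine ⟨?_⟩
  intro c hc h y hy
  have hz : h⁻¹ * y * h ∈ P := by simpa using hP.conj_mem y hy h⁻¹
  have h1 := hc _ hz
  have e : h * c * h⁻¹ * y * (h * c * h⁻¹)⁻¹ * y⁻¹ = h * (c * (h⁻¹ * y * h) * c⁻¹ * (h⁻¹ * y * h)⁻¹) * h⁻¹ := by group
  rw [e]
  exact hF.conj_mem _ h1 h

theorem trivMod_le_pCore {G : Type u} [Group G] [Finite G] {p : ℕ} [hp : Fact p.Prime] (hs : IsPSolvable p G) (hO : pPrimeCore p G = ⊥) 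
    (F : Subgroup G) [hF : F.Normal] (hF' : F ≤ (frattini (pCore p G)).map (pCore p G).subtype) : trivMod (pCore p G) F ≤ pCore p G := by
  have hPp : IsPGroup p (pCore p G) := CfsgH2.isPGroup_pCore p
  haveI := trivMod_normal (pCore p G) F
  have hC := CfsgH1.psolv_centralizer_pCore_le hs hO
  have hTp : IsPGroup p (trivMod (pCore p G) F) := by
    apply isPGroup_of_forall_coprime
    rintro ⟨c, hc⟩ hco
    rw [Subgroup.orderOf_mk] at hco
    have h1 : c ∈ centralizer (pCore p G : Set G) := by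
      refine (CfsgH1.coprime_trivial_of_frattini (A := zpowers c) (K := pCore p G) ?_ ?_ ?_) (mem_zpowers c)
      · rw [normalizer_eq_top]; exact le_top
      · rw [Nat.card_zpowers]
        obtain ⟨k, hk⟩ := IsPGroup.iff_card.1 (hPp.to_subgroup (frattini (pCore p G)))
        rw [hk]; exact Nat.Coprime.pow_right k hco
      · intro a ha k hk
        have h2 : a ∈ trivMod (pCore p G) F := (zpowers_le.2 hc) ha
        exact hF' (h2 k hk)
    have h2 := hC h1
    apply Subtype.ext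
    obtain ⟨k, hk⟩ := hPp ⟨c, h2⟩
    exact eq_one_of_coprime_of_pow hco (congrArg Subtype.val hk)
  exact CfsgH2.le_pCore inferInstance hTp

theorem hh_frattini {G : Type u} [Group G] [Finite G] {p : ℕ} [Fact p.Prime] (hG : Cfsg.IsPSolvable p G) (g : G) : 
    (∀ x ∈ Cfsg.pPrimePCore p G, g * x * g⁻¹ * x⁻¹ ∈ ((frattini (↥(Cfsg.pPrimePCore p G) ⧸ (Cfsg.pPrimeCore p G).subgroupOf (Cfsg.pPrimePCore p G))).comap (QuotientGroup.mk' ((Cfsg.pPrimeCore p G).subgroupOf (Cfsg.pPrimePCore p G)))).map (Cfsg.pPrimePCore p G).subtype) ↔ g ∈ Cfsg.pPrimePCore p G := by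
  set N := pPrimeCore p G with hN
  set P₁ := pPrimePCore p G with hP₁
  let f := QuotientGroup.mk' N
  have hf : Function.Surjective f := QuotientGroup.mk'_surjective N
  have hP₁c : ∀ x : G, x ∈ P₁ ↔ f x ∈ pCore p (G ⧸ N) := fun x => Iff.rfl
  let π : P₁ →* pCore p (G ⧸ N) := (f.comp P₁.subtype).codRestrict (pCore p (G ⧸ N)) (fun x => (hP₁c x).1 x.2)
  have hπ : Function.Surjective π := by
    rintro ⟨y, hy⟩
    obtain ⟨x, rfl⟩ := hf y
    exact ⟨⟨x, hy⟩, rfl⟩
  have hker : π.ker = N.subgroupOf P₁ := by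
    ext x
    rw [MonoidHom.mem_ker, mem_subgroupOf]
    constructor
    · intro h
      exact (QuotientGroup.eq_one_iff (x : G)).1 (congrArg Subtype.val h)
    · intro h
      exact Subtype.ext ((QuotientGroup.eq_one_iff (x : G)).2 h)
  let e : (P₁ ⧸ N.subgroupOf P₁) ≃* pCore p (G ⧸ N) := 
    (QuotientGroup.quotientMulEquivOfEq hker.symm).trans (QuotientGroup.quotientKerEquivOfSurjective π hπ)
  have he : ∀ x : P₁, e (QuotientGroup.mk x) = π x := fun x => rfl
  have hmemF : ∀ x : G, x ∈ ((frattini (↥P₁ ⧸ N.subgroupOf P₁)).comap (QuotientGroup.mk' (N.subgroupOf P₁))).map P₁.subtype ↔ 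
      f x ∈ (frattini (pCore p (G ⧸ N))).map (pCore p (G ⧸ N)).subtype := by
    intro x
    constructor
    · rintro ⟨y, hy, rfl⟩
      refine ⟨π y, ?_, rfl⟩
      rw [SetLike.mem_coe, ← he, mem_frattini_equiv]
      exact hy
    · rintro ⟨y, hy, hyx⟩
      have hx : x ∈ P₁ := (hP₁c x).2 (by rw [← hyx]; exact y.2)
      refine ⟨⟨x, hx⟩, ?_, rfl⟩
      rw [SetLike.mem_coe, mem_comap]
      have h1 : y = π ⟨x, hx⟩ := Subtype.ext hyx
      rw [SetLike.mem_coe, h1, ← he, mem_frattini_equiv] at hy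
      exact hy
  haveI : ((frattini (pCore p (G ⧸ N))).map (pCore p (G ⧸ N)).subtype).Normal := inferInstance
  have hs : IsPSolvable p (G ⧸ N) := CfsgH1.IsPSolvable.map hG f hf
  have hO : pPrimeCore p (G ⧸ N) = ⊥ := CfsgH2.pPrimeCore_quotient_pPrimeCore p
  constructor
  · intro h
    rw [hP₁c]
    apply trivMod_le_pCore hs hO _ le_rfl
    intro y hy
    obtain ⟨x, rfl⟩ := hf y
    have h1 := (hmemF _).1 (h x hy)
    simpa using h1
  · intro hg x hx
    rw [hmemF]
    have hPp : IsPGroup p (pCore p (G ⧸ N)) := CfsgH2.isPGroup_pCore p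
    refine ⟨⁅π ⟨g, hg⟩, π ⟨x, hx⟩⁆, commutator_le_frattini hPp (commutator_mem_commutator (mem_top _) (mem_top _)), ?_⟩
    simp [commutatorElement_def, π]
    rfl

end CfsgH3
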