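import Mathlib
import Cfsg.Agent.H3.FrobCount
import Cfsg.Agent.H1.Hall
import Cfsg.Agent.H3.FusInd
import Cfsg.Agent.H1.MinNormal
import Cfsg.Agent.H1.SZ3

set_option autoImplicit false

/-!
The number of Hall subgroups of a solvable group.
-/

namespace CfsgH3

open Subgroup

open scoped Pointwise

universe u

theorem card_fixed_modEq {G : Type u} [Group G] [Finite G] {r : ℕ} [Fact r.Prime] {A R : Subgroup G} (hR : IsPGroup r R) 
    (hn : R ≤ normalizer (A : Set G)) : Nat.card A ≡ Nat.card (A ⊓ centralizer (R : Set G) : Subgroup G) [MOD r] := by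
  letI act : MulAction R A := MulAction.compHom A ((A.normalizerMonoidHom).comp (Subgroup.inclusion hn))
  have hact : ∀ (x : R) (a : A), ((x • a : A) : G) = x * a * (x : G)⁻¹ := fun x a => rfl
  have h1 := hR.card_modEq_card_fixedPoints (α := A)
  have h2 : Nat.card (MulAction.fixedPoints R A) = Nat.card (A ⊓ centralizer (R : Set G) : Subgroup G) := ?_
  · rwa [h2] at h1
  symm
  apply Nat.card_congr
  refine
    { toFun := fun a => ⟨⟨a.1, a.2.1⟩, ?_⟩
      invFun := fun a => ⟨a.1.1, a.1.2, ?_⟩
      left_inv := fun a => rfl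
      right_inv := fun a => rfl }
  · intro x
    apply Subtype.ext
    rw [hact]
    have := (mem_centralizer_iff.1 a.2.2) x x.2
    show (x : G) * a.1 * (x : G)⁻¹ = a.1
    rw [this]; group
  · show (a.1 : G) ∈ centralizer (R : Set G)
    rw [mem_centralizer_iff]
    intro x hx
    have h2 := a.2 ⟨x, hx⟩
    have h3 := congrArg (Subtype.val : A → G) h2
    rw [hact] at h3
    change x * a.1.1 * x⁻¹ = a.1.1 at h3
    calc x * a.1.1 = (x * a.1.1 * x⁻¹) * x := by group
      _ = a.1.1 * x := by rw [h3]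

theorem cent_factors {G : Type u} [Group G] [Finite G] {M : Subgroup G} {p : ℕ} [hp : Fact p.Prime] (hM : IsPGroup p M) (n : ℕ) : 
    ∀ R : Subgroup G, Nat.card R = n → Group.IsSolvable R → R ≤ normalizer (M : Set G) → ¬ p ∣ Nat.card R → 
    (M ⊓ centralizer (R : Set G)).relIndex M ∈ 
      Submonoid.closure {x : ℕ | (∃ e, x = p ^ e) ∧ x ∣ Nat.card M ∧ ∃ q, q.Prime ∧ q ∣ Nat.card R ∧ x ≡ 1 [MOD q]} := by
  induction n using Nat.strong_induction_on with
  | _ n ih =>
  intro R hRn hRs hRM hpR
  by_cases hR : R = ⊥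
  · subst hR
    have : M ⊓ centralizer ((⊥ : Subgroup G) : Set G) = M := by
      rw [inf_eq_left]
      intro x _
      rw [mem_centralizer_iff]
      intro y hy
      rw [SetLike.mem_coe, mem_bot] at hy
      rw [hy, one_mul, mul_one]
    rw [this, Subgroup.relIndex_self]
    exact one_mem _
  obtain ⟨D, hDR, hRD, hprime⟩ := CfsgH1.exists_normal_prime_relIndex hR hRs
  set r := D.relIndex R with hr
  haveI := Fact.mk hprime
  have hcard : Nat.card D * r = Nat.card R := by
    have := Subgroup.relIndex_mul_relIndex ⊥ D R bot_le hDR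
    rw [Subgroup.relIndex_bot_left, Subgroup.relIndex_bot_left] at this
    exact this
  have hDlt : Nat.card D < n := by
    rw [← hRn, ← hcard]
    have h1 : 0 < Nat.card D := Nat.card_pos
    have h2 := hprime.one_lt
    nlinarith
  have hDd : Nat.card D ∣ Nat.card R := Dvd.intro _ hcard
  have hrd : r ∣ Nat.card R := Dvd.intro_left _ hcard
  have h1 := ih _ hDlt D rfl (CfsgH1.isSolvable_of_le hRs hDR) (hDR.trans hRM) (fun h => hpR (h.trans hDd))
  set A := M ⊓ centralizer (D : Set G) with hA
  set B := M ⊓ centralizer (R : Set G) with hB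
  have hBA : B ≤ A := inf_le_inf_left _ (centralizer_le hDR)
  have hAM : A ≤ M := inf_le_left
  have h2 : B.relIndex A * A.relIndex M = B.relIndex M := Subgroup.relIndex_mul_relIndex B A M hBA hAM
  rw [← h2]
  apply mul_mem
  swap
  · refine Submonoid.closure_mono ?_ h1
    rintro x ⟨h3, h4, q, h5, h6, h7⟩
    exact ⟨h3, h4, q, h5, h6.trans hDd, h7⟩
  apply Submonoid.subset_closure
  -- the Sylow subgroup
  obtain ⟨R₁⟩ : Nonempty (Sylow r R) := inferInstance
  set R₂ := (R₁ : Subgroup R).map R.subtype with hR₂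
  have hR₂R : R₂ ≤ R := Subgroup.map_subtype_le _
  have hR₂p : IsPGroup r R₂ := R₁.2.map _
  have hsup : D ⊔ R₂ = R := by
    apply le_antisymm (sup_le hDR hR₂R)
    have h3 : D.relIndex (D ⊔ R₂) ∣ r := by
      have := Subgroup.relIndex_mul_relIndex D (D ⊔ R₂) R le_sup_left (sup_le hDR hR₂R)
      exact Dvd.intro _ this
    rcases hprime.eq_one_or_self_of_dvd _ h3 with h4 | h4
    · -- then R₂ ≤ D
      exfalso
      rw [Subgroup.relIndex_eq_one] at h4
      have h5 : R₂ ≤ D := le_sup_right.trans h4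
      have h6 : ¬ r ∣ (R₁ : Subgroup R).index := R₁.not_dvd_index
      apply h6
      have h7 : (R₁ : Subgroup R).index = R₂.relIndex R := by
        unfold Subgroup.relIndex
        congr 1
        rw [Subgroup.subgroupOf, hR₂, Subgroup.comap_map_eq_self_of_injective R.subtype_injective]
      rw [h7, ← Subgroup.relIndex_mul_relIndex R₂ D R h5 hDR]
      exact Dvd.intro_left _ rfl
    · have h5 := Subgroup.relIndex_mul_relIndex D (D ⊔ R₂) R le_sup_left (sup_le hDR hR₂R)
      rw [h4] at h5
      have h6 : (D ⊔ R₂).relIndex R = 1 := Nat.eq_of_mul_eq_mul_left hprime.pos (by rw [h5, mul_one])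
      exact Subgroup.relIndex_eq_one.1 h6
  have hRA : R₂ ≤ normalizer (A : Set G) := by
    refine (hR₂R.trans ?_)
    refine CfsgH1.le_normalizer_inf hRM ?_
    exact hRD.trans (normalizer_le_normalizer_centralizer D)
  have h3 := card_fixed_modEq hR₂p hRA
  have h4 : A ⊓ centralizer (R₂ : Set G) = B := by
    rw [hA, hB, inf_assoc]
    congr 1
    ext x
    rw [mem_inf, mem_centralizer_iff, mem_centralizer_iff, mem_centralizer_iff]
    constructor
    · rintro ⟨h5, h6⟩ y hy
      have h7 : D ⊔ R₂ ≤ centralizer ({x} : Set G) := by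
        rw [sup_le_iff]
        exact ⟨fun z hz => mem_centralizer_singleton_iff.2 (h5 z hz), fun z hz => mem_centralizer_singleton_iff.2 (h6 z hz)⟩
      rw [hsup] at h7
      exact mem_centralizer_singleton_iff.1 (h7 hy)
    · intro h5
      exact ⟨fun y hy => h5 y (hDR hy), fun y hy => h5 y (hR₂R hy)⟩
  rw [h4] at h3
  have h5 : Nat.card B * B.relIndex A = Nat.card A := by
    have := Subgroup.relIndex_mul_relIndex ⊥ B A bot_le hBA
    rw [Subgroup.relIndex_bot_left, Subgroup.relIndex_bot_left] at this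
    exact this
  have hAp : IsPGroup p A := hM.to_le hAM
  obtain ⟨a, ha⟩ := IsPGroup.iff_card.1 hAp
  obtain ⟨e, -, he⟩ := (Nat.dvd_prime_pow hp.out).1 (by rw [← ha]; exact Dvd.intro_left _ h5 : B.relIndex A ∣ p ^ a)
  refine ⟨⟨e, he⟩, ?_, r, hprime, hrd, ?_⟩
  · refine (Dvd.intro_left _ h5 : B.relIndex A ∣ Nat.card A).trans ?_
    exact CfsgH1.card_dvd_card_of_le hAM
  · rw [← h5] at h3
    have hco : Nat.gcd r (Nat.card B) = 1 := by
      have hrp : r ≠ p := by rintro h; rw [h] at hrd; exact hpR hrd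
      obtain ⟨b, hb⟩ := IsPGroup.iff_card.1 (hAp.to_le hBA)
      rw [hb]
      exact Nat.Coprime.pow_right _ ((Nat.coprime_primes hprime hp.out).2 hrp)
    exact Nat.ModEq.cancel_left_of_coprime hco (by rw [mul_one]; exact h3)

/-- admissible factors -/
def HallFac (G : Type u) [Group G] (m x : ℕ) : Prop := 
  (∃ q e : ℕ, q.Prime ∧ x = q ^ e) ∧ (∃ K L : Subgroup G, K.Normal ∧ L.Normal ∧ K < L ∧ 
    (∀ M : Subgroup G, M.Normal → K ≤ M → M ≤ L → M = K ∨ M = L) ∧ x ∣ K.relIndex L) ∧ (∃ q : ℕ, q.Prime ∧ q ∣ m ∧ x ≡ 1 [MOD q])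

theorem HallFac.lift {G : Type u} [Group G] [Finite G] {N : Subgroup G} [N.Normal] {m m' x : ℕ} (hm : m' ∣ m) (h : HallFac (G ⧸ N) m' x) : 
    HallFac G m x := by
  obtain ⟨h1, ⟨K, L, hK, hL, hKL, hmin, hx⟩, q, hq, hqm, hq1⟩ := h
  have hsurj := QuotientGroup.mk'_surjective N
  refine ⟨h1, ⟨K.comap (QuotientGroup.mk' N), L.comap (QuotientGroup.mk' N), inferInstance, inferInstance, ?_, ?_, ?_⟩, q, hq, hqm.trans hm, hq1⟩
  · exact (Subgroup.comap_lt_comap_of_surjective hsurj).2 hKL
  · intro M hM hKM hML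
    have hker : N ≤ M := by
      refine le_trans ?_ hKM
      intro y hy
      rw [mem_comap, show QuotientGroup.mk' N y = 1 from (QuotientGroup.eq_one_iff y).2 hy]
      exact one_mem _
    have hM' : (M.map (QuotientGroup.mk' N)).comap (QuotientGroup.mk' N) = M := by
      rw [comap_map_eq, QuotientGroup.ker_mk', sup_eq_left.2 hker]
    rcases hmin (M.map (QuotientGroup.mk' N)) (Subgroup.Normal.map hM _ hsurj) 
      (by rw [← Subgroup.map_comap_eq_self_of_surjective hsurj K]; exact Subgroup.map_mono hKM)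
      (by rw [← Subgroup.map_comap_eq_self_of_surjective hsurj L]; exact Subgroup.map_mono hML) with h2 | h2
    · left; rw [← h2, hM']
    · right; rw [← h2, hM']
  · rwa [Subgroup.relIndex_comap, Subgroup.map_comap_eq_self_of_surjective hsurj]

theorem exists_card_eq {G : Type u} [Group G] [Finite G] [Group.IsSolvable G] {m n : ℕ} (hG : Nat.card G = m * n) (hmn : Nat.Coprime m n) : 
    ∃ H : Subgroup G, Nat.card H = m := by
  have hm : CfsgH1.PiNum {p | p ∣ m} m := fun p _ hd => hd
  have hn : CfsgH1.PiNum {p | p ∣ m}ᶜ n := fun p hp hd h => by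
    have := Nat.dvd_gcd h hd
    rw [hmn] at this
    exact hp.one_lt.ne' (Nat.dvd_one.1 this)
  obtain ⟨H, h1, h2, -⟩ := CfsgH1.hallD_of_solvable (G := G) {p | p ∣ m}
  refine ⟨H, ?_⟩
  have h3 := Subgroup.card_mul_index H
  rw [hG] at h3
  apply Nat.dvd_antisymm
  · exact (h1.coprime hn).dvd_of_dvd_mul_right (Dvd.intro _ h3)
  · exact (hm.coprime h2).dvd_of_dvd_mul_right (by rw [h3]; exact Dvd.intro _ rfl)

theorem conj_of_card_eq {G : Type u} [Group G] [Finite G] [Group.IsSolvable G] {m n : ℕ} (hG : Nat.card G = m * n) (hmn : Nat.Coprime m n)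
    {H K : Subgroup G} (hH : Nat.card H = m) (hK : Nat.card K = m) : ∃ g : G, MulAut.conj g • H = K := by
  have hm : CfsgH1.PiNum {p | p ∣ m} m := fun p _ hd => hd
  have hn : CfsgH1.PiNum {p | p ∣ m}ᶜ n := fun p hp hd h => by
    have := Nat.dvd_gcd h hd
    rw [hmn] at this
    exact hp.one_lt.ne' (Nat.dvd_one.1 this)
  have hm0 : 0 < m := by rw [← hH]; exact Nat.card_pos
  have hidx : ∀ H : Subgroup G, Nat.card H = m → H.index = n := by
    intro H hH
    have h3 := Subgroup.card_mul_index H
    rw [hG, hH] at h3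
    exact Nat.eq_of_mul_eq_mul_left hm0 h3
  exact (CfsgH1.hallD_of_solvable (G := G) {p | p ∣ m}).conj (by rw [hH]; exact hm) (by rw [hidx H hH]; exact hn) 
    (by rw [hK]; exact hm) (by rw [hidx K hK]; exact hn)

theorem card_conj_orbit {G : Type u} [Group G] [Finite G] {M H : Subgroup G} [hMn : M.Normal] (hMH : M ⊓ H = ⊥) : 
    Nat.card {K : Subgroup G // ∃ x ∈ M, MulAut.conj x • H = K} = (M ⊓ centralizer (H : Set G)).relIndex M := by
  letI act : MulAction M (Subgroup G) := MulAction.compHom (Subgroup G) ((MulAut.conj).comp M.subtype)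
  have hact : ∀ (x : M) (K : Subgroup G), x • K = MulAut.conj (x : G) • K := fun x K => rfl
  have h1 := MulAction.index_stabilizer M H
  have h2 : MulAction.stabilizer M H = (M ⊓ centralizer (H : Set G)).subgroupOf M := by
    ext x
    rw [MulAction.mem_stabilizer_iff, hact, mem_subgroupOf, mem_inf]
    constructor
    · intro hx
      refine ⟨x.2, mem_centralizer_iff.2 ?_⟩
      intro h hh
      have h3 : (x : G)⁻¹ * h * x ∈ H := by
        rw [← hx] at hh
        exact CfsgH1.mem_conj_smul.1 hh
      have h4 : h⁻¹ * ((x : G)⁻¹ * h * x) ∈ M ⊓ H := by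
        refine ⟨?_, H.mul_mem (H.inv_mem hh) h3⟩
        have e : h⁻¹ * ((x : G)⁻¹ * h * x) = (h⁻¹ * (x : G)⁻¹ * h⁻¹⁻¹) * x := by group
        rw [e]
        exact M.mul_mem (hMn.conj_mem _ (M.inv_mem x.2) _) x.2
      rw [hMH, mem_bot, inv_mul_eq_one] at h4
      calc h * x = x * ((x : G)⁻¹ * h * x) := by group
        _ = x * h := by rw [← h4]
    · rintro ⟨-, hx⟩
      ext h
      rw [CfsgH1.mem_conj_smul]
      rw [mem_centralizer_iff] at hx
      constructor
      · intro h3
        have h4 := hx _ h3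
        have e : h = (x : G) * ((x : G)⁻¹ * h * x) * (x : G)⁻¹ := by group
        rw [e, ← h4]
        simpa using h3
      · intro h3
        have h4 := hx _ h3
        have e : (x : G)⁻¹ * h * x = h := by
          rw [mul_assoc, h4]; group
        rw [e]; exact h3
  rw [Subgroup.relIndex, ← h2, h1, ← Nat.card_coe_set_eq]
  apply Nat.card_congr
  apply Equiv.subtypeEquivRight
  intro K
  constructor
  · rintro ⟨x, hx, rfl⟩; exact ⟨⟨x, hx⟩, rfl⟩
  · rintro ⟨x, rfl⟩; exact ⟨x, x.2, rfl⟩

theorem hall_count (N : ℕ) : ∀ (G : Type u) [Group G] [Finite G] [Group.IsSolvable G] (_ : Nat.card G = N) (m n : ℕ), Nat.card G = m * n → 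
    Nat.Coprime m n → Nat.card {H : Subgroup G // Nat.card H = m} ∈ Submonoid.closure {x | HallFac G m x} := by
  induction N using Nat.strong_induction_on with
  | _ N ih =>
  intro G _ _ _ hN m n hG hmn
  by_cases hnt : Nontrivial G
  swap
  · haveI := not_nontrivial_iff_subsingleton.1 hnt
    have h1 : Nat.card G = 1 := Nat.card_of_subsingleton 1
    have hm1 : m = 1 := by rw [hG] at h1; exact (Nat.eq_one_of_mul_eq_one_right h1)
    subst hm1
    have : Nat.card {H : Subgroup G // Nat.card H = 1} = 1 := by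
      rw [Nat.card_eq_one_iff_unique]
      exact ⟨⟨fun x y => Subtype.ext (Subsingleton.elim _ _)⟩, ⟨⟨⊥, Subgroup.card_bot⟩⟩⟩
    rw [this]; exact one_mem _
  obtain ⟨M, hMn, hM1, hMmin, hMc, p, hp, hMp, hMpg⟩ := CfsgH1.exists_minNormal_pgroup (G := G)
  haveI := Fact.mk hp
  have hcG : Nat.card (G ⧸ M) * Nat.card M = Nat.card G := by
    rw [mul_comm]; exact Subgroup.card_mul_index M
  have hM0 : 0 < Nat.card M := Nat.card_pos
  have hM2 : 1 < Nat.card M := by
    rw [Subgroup.one_lt_card_iff_ne_bot]; exact hM1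
  have hQ0 : 0 < Nat.card (G ⧸ M) := Nat.card_pos
  have hlt : Nat.card (G ⧸ M) < N := by
    rw [← hN, ← hcG]; nlinarith
  obtain ⟨i, hi⟩ := IsPGroup.iff_card.1 hMpg
  have hi0 : i ≠ 0 := by rintro rfl; rw [pow_zero] at hi; omega
  have hpM : p ∣ Nat.card M := by rw [hi]; exact dvd_pow_self p hi0
  have hsurj := QuotientGroup.mk'_surjective M
  haveI : Group.IsSolvable (G ⧸ M) := Group.isSolvable_of_surjective (f := QuotientGroup.mk' M) hsurj
  have hG0 : 0 < Nat.card G := Nat.card_pos
  have hm0 : 0 < m := Nat.pos_of_ne_zero (by rintro rfl; rw [zero_mul] at hG; omega)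
  by_cases hpm : p ∣ m
  · have hcop : (Nat.card M).Coprime n := by
      rw [hi]
      apply Nat.Coprime.pow_left
      exact Nat.Coprime.coprime_dvd_left hpm hmn
    have hle : ∀ H : Subgroup G, Nat.card H = m → M ≤ H := by
      intro H hH
      have h1 := CfsgH1.card_sup_mul_card_inf (H := H) (K := M) (by rw [normalizer_eq_top]; exact le_top)
      have h2 : H ≤ H ⊔ M := le_sup_left
      have h3 : Nat.card (H ⊔ M : Subgroup G) ∣ m * n := by rw [← hG]; exact Subgroup.card_subgroup_dvd_card _
      have h4 := Subgroup.relIndex_mul_relIndex ⊥ H (H ⊔ M) bot_le h2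
      rw [Subgroup.relIndex_bot_left, Subgroup.relIndex_bot_left] at h4
      have h5 : H.relIndex (H ⊔ M) ∣ n := by
        rw [← h4, hH] at h3
        exact Nat.dvd_of_mul_dvd_mul_left hm0 h3
      have h6 : H.relIndex (H ⊔ M) ∣ Nat.card M := by
        rw [← h4, mul_assoc] at h1
        have h7 : H.relIndex (H ⊔ M) * Nat.card (H ⊓ M : Subgroup G) = Nat.card M := 
          Nat.eq_of_mul_eq_mul_left Nat.card_pos h1
        exact Dvd.intro _ h7
      have h7 : H.relIndex (H ⊔ M) = 1 := Nat.eq_one_of_dvd_coprimes hcop h6 h5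
      rw [Subgroup.relIndex_eq_one] at h7
      exact le_sup_right.trans h7
    obtain ⟨H₀, hH₀⟩ := exists_card_eq hG hmn
    have hMm : Nat.card M ∣ m := by rw [← hH₀]; exact CfsgH1.card_dvd_card_of_le (hle H₀ hH₀)
    obtain ⟨m', hm'⟩ := hMm
    have hG' : Nat.card (G ⧸ M) = m' * n := by
      apply Nat.eq_of_mul_eq_mul_right hM0
      rw [hcG, hG, hm']; ring
    have h1 := ih _ hlt (G ⧸ M) rfl m' n hG' (Nat.Coprime.coprime_dvd_left (Dvd.intro_left _ hm'.symm) hmn)
    have hcardeq : ∀ K : Subgroup (G ⧸ M), Nat.card (K.comap (QuotientGroup.mk' M)) = Nat.card K * Nat.card M := by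
      intro K
      have h2 := CfsgH1.card_map_mul_card_ker_of_le (QuotientGroup.mk' M) (K.comap (QuotientGroup.mk' M)) (Subgroup.ker_le_comap _ _)
      rw [Subgroup.map_comap_eq_self_of_surjective hsurj, QuotientGroup.ker_mk'] at h2
      exact h2.symm
    have e : {H : Subgroup G // Nat.card H = m} ≃ {K : Subgroup (G ⧸ M) // Nat.card K = m'} := by
      refine
        { toFun := fun H => ⟨H.1.map (QuotientGroup.mk' M), ?_⟩
          invFun := fun K => ⟨K.1.comap (QuotientGroup.mk' M), ?_⟩
          left_inv := ?_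
          right_inv := ?_ }
      · have h2 := CfsgH1.card_map_mul_card_ker_of_le (QuotientGroup.mk' M) H.1 (by rw [QuotientGroup.ker_mk']; exact hle H.1 H.2)
        rw [QuotientGroup.ker_mk'] at h2
        have h3 := h2.trans (H.2.trans (hm'.trans (mul_comm _ _)))
        exact Nat.eq_of_mul_eq_mul_right hM0 h3
      · rw [hcardeq, K.2, hm', mul_comm]
      · intro H
        apply Subtype.ext
        show (H.1.map (QuotientGroup.mk' M)).comap (QuotientGroup.mk' M) = H.1
        rw [comap_map_eq, QuotientGroup.ker_mk', sup_eq_left.2 (hle H.1 H.2)]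
      · intro K
        apply Subtype.ext
        exact Subgroup.map_comap_eq_self_of_surjective hsurj K.1
    rw [Nat.card_congr e]
    refine Submonoid.closure_mono ?_ h1
    intro x hx
    exact HallFac.lift (Dvd.intro_left _ hm'.symm) hx
  · -- second case
    have hcop : (Nat.card M).Coprime m := by
      rw [hi]; exact Nat.Coprime.pow_left i ((Nat.Prime.coprime_iff_not_dvd hp).2 hpm)
    have hMn' : Nat.card M ∣ n := by
      apply hcop.dvd_of_dvd_mul_left
      rw [← hG, ← hcG]; exact Dvd.intro_left _ rfl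
    obtain ⟨n', hn'⟩ := hMn'
    have hG' : Nat.card (G ⧸ M) = m * n' := by
      apply Nat.eq_of_mul_eq_mul_right hM0
      rw [hcG, hG, hn']; ring
    have hmn' : Nat.Coprime m n' := Nat.Coprime.coprime_dvd_right (Dvd.intro_left _ hn'.symm) hmn
    have h1 := ih _ hlt (G ⧸ M) rfl m n' hG' hmn'
    obtain ⟨H₀, hH₀⟩ := exists_card_eq hG hmn
    have hdisj : ∀ H : Subgroup G, Nat.card H = m → M ⊓ H = ⊥ := fun H hH => CfsgH1.inf_eq_bot_of_coprime (by rw [hH]; exact hcop)
    have hcardmap : ∀ H : Subgroup G, Nat.card H = m → Nat.card (H.map (QuotientGroup.mk' M)) = m := by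
      intro H hH
      rw [CfsgH1.card_map_of_injOn _ _ (by rw [QuotientGroup.ker_mk', inf_comm]; exact hdisj H hH), hH]
    have h2 : Nat.card {H : Subgroup G // Nat.card H = m} = 
        Nat.card {K : Subgroup (G ⧸ M) // Nat.card K = m} * (M ⊓ centralizer (H₀ : Set G)).relIndex M := by
      apply card_fibres_const (fun H : {H : Subgroup G // Nat.card H = m} => 
        (⟨H.1.map (QuotientGroup.mk' M), hcardmap H.1 H.2⟩ : {K : Subgroup (G ⧸ M) // Nat.card K = m}))
      rintro ⟨K, hK⟩
      obtain ⟨g', hg'⟩ := conj_of_card_eq hG' hmn' (hcardmap H₀ hH₀) hK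
      obtain ⟨g, rfl⟩ := QuotientGroup.mk'_surjective M g'
      set H := MulAut.conj g • H₀ with hHdef
      have hHm : Nat.card H = m := by rw [hHdef, CfsgH1.card_conj_smul, hH₀]
      have hHK : H.map (QuotientGroup.mk' M) = K := by
        rw [← hg']
        ext y
        constructor
        · rintro ⟨x, hx, rfl⟩
          rw [CfsgH1.mem_conj_smul]
          rw [SetLike.mem_coe, hHdef, CfsgH1.mem_conj_smul] at hx
          exact ⟨_, hx, by simp⟩
        · intro hy
          rw [CfsgH1.mem_conj_smul] at hy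
          obtain ⟨x, hx, hxy⟩ := hy
          refine ⟨g * x * g⁻¹, ?_, ?_⟩
          · rw [SetLike.mem_coe, hHdef, CfsgH1.mem_conj_smul]
            have : g⁻¹ * (g * x * g⁻¹) * g = x := by group
            rw [this]; exact hx
          · rw [map_mul, map_mul, hxy, map_inv]; group
      have h3 : (M ⊓ centralizer (H₀ : Set G)).relIndex M = (M ⊓ centralizer (H : Set G)).relIndex M := by
        have h4 : M ⊓ centralizer (H : Set G) = MulAut.conj g • (M ⊓ centralizer (H₀ : Set G)) := by
          ext y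
          rw [CfsgH1.mem_conj_smul, mem_inf, mem_inf, mem_centralizer_iff, mem_centralizer_iff]
          constructor
          · rintro ⟨h5, h6⟩
            refine ⟨by simpa using hMn.conj_mem y h5 g⁻¹, ?_⟩
            intro h hh
            have h7 := h6 (g * h * g⁻¹) (by
              rw [SetLike.mem_coe, hHdef, CfsgH1.mem_conj_smul]
              have : g⁻¹ * (g * h * g⁻¹) * g = h := by group
              rw [this]; exact hh)
            calc h * (g⁻¹ * y * g) = g⁻¹ * ((g * h * g⁻¹) * y) * g := by group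
              _ = g⁻¹ * (y * (g * h * g⁻¹)) * g := by rw [h7]
              _ = _ := by group
          · rintro ⟨h5, h6⟩
            refine ⟨?_, ?_⟩
            · have := hMn.conj_mem _ h5 g
              have e : g * (g⁻¹ * y * g) * g⁻¹ = y := by group
              rwa [e] at this
            · intro h hh
              rw [SetLike.mem_coe, hHdef, CfsgH1.mem_conj_smul] at hh
              have h7 := h6 _ hh
              calc h * y = g * ((g⁻¹ * h * g) * (g⁻¹ * y * g)) * g⁻¹ := by group
                _ = g * ((g⁻¹ * y * g) * (g⁻¹ * h * g)) * g⁻¹ := by rw [h7]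
                _ = _ := by group
        have h8 := Subgroup.relIndex_mul_relIndex ⊥ (M ⊓ centralizer (H₀ : Set G)) M bot_le inf_le_left
        have h9 := Subgroup.relIndex_mul_relIndex ⊥ (M ⊓ centralizer (H : Set G)) M bot_le inf_le_left
        rw [Subgroup.relIndex_bot_left, Subgroup.relIndex_bot_left] at h8 h9
        have h10 : Nat.card (M ⊓ centralizer (H : Set G) : Subgroup G) = Nat.card (M ⊓ centralizer (H₀ : Set G) : Subgroup G) := by
          rw [h4, CfsgH1.card_conj_smul]
        rw [h10] at h9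
        exact Nat.eq_of_mul_eq_mul_left Nat.card_pos (h8.trans h9.symm)
      rw [h3, ← card_conj_orbit (hdisj H hHm)]
      apply Nat.card_congr
      have key : ∀ H' : Subgroup G, Nat.card H' = m → (H'.map (QuotientGroup.mk' M) = K ↔ ∃ x ∈ M, MulAut.conj x • H = H') := by
        intro H' hH'
        constructor
        · intro h4
          have h5 : M ⊔ H = M ⊔ H' := by
            have e1 : ∀ L : Subgroup G, (L.map (QuotientGroup.mk' M)).comap (QuotientGroup.mk' M) = M ⊔ L := by
              intro L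
              rw [comap_map_eq, QuotientGroup.ker_mk', sup_comm]
            rw [← e1, ← e1, hHK, h4]
          exact CfsgH1.sz_conj_internal_left (by rw [normalizer_eq_top]; exact le_top) (by rw [normalizer_eq_top]; exact le_top) 
            (by rw [hHm]; exact hcop) (Group.isSolvable_of_comm (fun a b => Subtype.ext (hMc a a.2 b b.2))) h5 (hdisj H' hH')
        · rintro ⟨x, hx, rfl⟩
          rw [← hHK]
          have hx1 : QuotientGroup.mk' M x = 1 := (QuotientGroup.eq_one_iff x).2 hx
          ext y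
          constructor
          · rintro ⟨z, hz, rfl⟩
            rw [SetLike.mem_coe, CfsgH1.mem_conj_smul] at hz
            refine ⟨_, hz, ?_⟩
            rw [map_mul, map_mul, map_inv, hx1]; simp
          · rintro ⟨z, hz, rfl⟩
            refine ⟨x * z * x⁻¹, ?_, ?_⟩
            · rw [SetLike.mem_coe, CfsgH1.mem_conj_smul]
              have : x⁻¹ * (x * z * x⁻¹) * x = z := by group
              rw [this]; exact hz
            · rw [map_mul, map_mul, map_inv, hx1]; simp
      refine
        { toFun := fun H' => ⟨H'.1.1, (key H'.1.1 H'.1.2).1 (congrArg Subtype.val H'.2)⟩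
          invFun := fun H' => ⟨⟨H'.1, ?_⟩, Subtype.ext ((key H'.1 ?_).2 H'.2)⟩
          left_inv := fun _ => rfl
          right_inv := fun _ => rfl }
      · obtain ⟨x, hx, h4⟩ := H'.2
        rw [← h4, CfsgH1.card_conj_smul, hHm]
      · obtain ⟨x, hx, h4⟩ := H'.2
        rw [← h4, CfsgH1.card_conj_smul, hHm]
    rw [h2]
    apply mul_mem
    · refine Submonoid.closure_mono ?_ h1
      intro x hx
      exact HallFac.lift (dvd_refl _) hx
    · have h3 := cent_factors hMpg m H₀ hH₀ (inferInstance) (by rw [normalizer_eq_top]; exact le_top) (by rw [hH₀]; exact hpm)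
      refine Submonoid.closure_mono ?_ h3
      rintro x ⟨⟨e, he⟩, h4, q, hq, hqm, hq1⟩
      refine ⟨⟨p, e, hp, he⟩, ⟨⊥, M, inferInstance, hMn, bot_lt_iff_ne_bot.2 hM1, fun K hK _ hKM => hMmin K hK hKM, ?_⟩, q, hq, ?_, hq1⟩
      · rw [Subgroup.relIndex_bot_left]; exact h4
      · rw [← hH₀]; exact hqm

end CfsgH3
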