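import Mathlib

set_option autoImplicit false

/-!
Conjugacy classes of symmetric and alternating groups.
-/

namespace CfsgH3

open Equiv.Perm

/-- cycle types of degree `n` -/
def cyc (n : ℕ) : Set (Multiset ℕ) := {m | m.sum ≤ n ∧ ∀ a ∈ m, 2 ≤ a}

theorem cyc_small {n : ℕ} (hn : n ≤ 1) : cyc n ⊆ {0} := by
  rintro m ⟨h1, h2⟩
  rw [Set.mem_singleton_iff]
  by_contra h
  obtain ⟨a, ha⟩ := Multiset.exists_mem_of_ne_zero h
  have h3 := h2 a ha
  have h4 := Multiset.single_le_sum (fun x _ => Nat.zero_le x) a ha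
  omega

theorem cyc_succ (n : ℕ) : cyc (n + 2) ⊆ cyc (n + 1) ∪ (fun m : Multiset ℕ => (n + 2 - m.sum) ::ₘ m) '' cyc n := by
  rintro m ⟨h1, h2⟩
  by_cases h : m.sum ≤ n + 1
  · left; exact ⟨h, h2⟩
  right
  have hm : m.sum = n + 2 := by omega
  have hne : m ≠ 0 := by
    rintro rfl
    rw [Multiset.sum_zero] at hm; omega
  obtain ⟨a, ha⟩ := Multiset.exists_mem_of_ne_zero hne
  obtain ⟨t, rfl⟩ := Multiset.exists_cons_of_mem ha
  have h3 := h2 a ha
  rw [Multiset.sum_cons] at hm
  refine ⟨t, ⟨by omega, fun b hb => h2 b (Multiset.mem_cons_of_mem hb)⟩, ?_⟩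
  show (n + 2 - t.sum) ::ₘ t = a ::ₘ t
  have : n + 2 - t.sum = a := by omega
  rw [this]

theorem cyc_ncard (n : ℕ) : (cyc n).Finite ∧ (cyc (n + 1)).Finite ∧ (cyc (n + 2)).ncard ≤ (cyc (n + 1)).ncard + (cyc n).ncard := by
  have key : ∀ n, (cyc n).Finite → (cyc (n + 1)).Finite → (cyc (n + 2)).Finite ∧ (cyc (n + 2)).ncard ≤ (cyc (n + 1)).ncard + (cyc n).ncard := by
    intro n h1 h2
    have h3 : (cyc (n + 1) ∪ (fun m : Multiset ℕ => (n + 2 - m.sum) ::ₘ m) '' cyc n).Finite := h2.union (h1.image _)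
    refine ⟨h3.subset (cyc_succ n), (Set.ncard_le_ncard (cyc_succ n) h3).trans ?_⟩
    exact (Set.ncard_union_le _ _).trans (Nat.add_le_add_left (Set.ncard_image_le h1) _)
  have hfin : ∀ n, (cyc n).Finite ∧ (cyc (n + 1)).Finite := by
    intro n
    induction n with
    | zero => exact ⟨(Set.finite_singleton _).subset (cyc_small (by omega)), (Set.finite_singleton _).subset (cyc_small (by omega))⟩
    | succ n ih => exact ⟨ih.2, (key n ih.1 ih.2).1⟩
  exact ⟨(hfin n).1, (hfin n).2, (key n (hfin n).1 (hfin n).2).2⟩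

theorem cyc_bound (n : ℕ) (hn : 5 ≤ n) : (cyc n).ncard ≤ 2 ^ (n - 2) := by
  have h0 : (cyc 0).ncard ≤ 1 := (Set.ncard_le_ncard (cyc_small (by omega)) (Set.finite_singleton _)).trans (by rw [Set.ncard_singleton])
  have h1 : (cyc 1).ncard ≤ 1 := (Set.ncard_le_ncard (cyc_small (by omega)) (Set.finite_singleton _)).trans (by rw [Set.ncard_singleton])
  have h2 := (cyc_ncard 0).2.2
  have h3 := (cyc_ncard 1).2.2
  have h4 := (cyc_ncard 2).2.2
  have h5 := (cyc_ncard 3).2.2
  have h6 := (cyc_ncard 4).2.2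
  norm_num at h2 h3 h4 h5 h6
  have main : ∀ k : ℕ, (cyc (k + 5)).ncard ≤ 2 ^ (k + 3) ∧ (cyc (k + 6)).ncard ≤ 2 ^ (k + 4) := by
    intro k
    induction k with
    | zero => constructor <;> norm_num <;> omega
    | succ k ih =>
      obtain ⟨i1, i2⟩ := ih
      have := (cyc_ncard (k + 5)).2.2
      have e1 : k + 1 + 5 = k + 6 := by ring
      have e2 : k + 1 + 6 = k + 5 + 2 := by ring
      have e3 : k + 1 + 3 = k + 4 := by ring
      have e4 : k + 5 + 1 = k + 6 := by ring
      rw [e4] at this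
      rw [e1, e2, e3]
      refine ⟨i2, ?_⟩
      have e5 : (2 : ℕ) ^ (k + 1 + 4) = 2 ^ (k + 4) + 2 ^ (k + 4) := by ring
      have e6 : (2 : ℕ) ^ (k + 4) = 2 ^ (k + 3) + 2 ^ (k + 3) := by ring
      omega
  have := (main (n - 5)).1
  have e1 : n - 5 + 5 = n := by omega
  have e2 : n - 5 + 3 = n - 2 := by omega
  rwa [e1, e2] at this

variable {n : ℕ}

theorem card_conj_perm (hn : 5 ≤ n) : Nat.card (ConjClasses (Equiv.Perm (Fin n))) ≤ 2 ^ (n - 2) := by
  classical
  refine le_trans ?_ (cyc_bound n hn)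
  haveI : Finite (cyc n) := (cyc_ncard n).1
  rw [← Nat.card_coe_set_eq]
  let f : ConjClasses (Equiv.Perm (Fin n)) → cyc n := fun c => ⟨(Quotient.out c : Equiv.Perm (Fin n)).cycleType, by
    have := (exists_with_cycleType_iff (Fin n)).1 ⟨(Quotient.out c : Equiv.Perm (Fin n)), rfl⟩
    rwa [Fintype.card_fin] at this⟩
  apply Nat.card_le_card_of_injective f
  intro c d hcd
  have h1 : (Quotient.out c : Equiv.Perm (Fin n)).cycleType = (Quotient.out d : Equiv.Perm (Fin n)).cycleType := congrArg Subtype.val hcd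
  have h2 := isConj_iff_cycleType_eq.2 h1
  rw [← Quotient.out_eq c, ← Quotient.out_eq d]
  exact Quotient.sound h2

theorem alt_conj_two {x y z : alternatingGroup (Fin n)} (h1 : (x : Equiv.Perm (Fin n)).cycleType = (y : Equiv.Perm (Fin n)).cycleType) 
    (h2 : (x : Equiv.Perm (Fin n)).cycleType = (z : Equiv.Perm (Fin n)).cycleType) (hxy : ¬ IsConj x y) (hxz : ¬ IsConj x z) : IsConj y z := by
  obtain ⟨g, hg⟩ := isConj_iff.1 (isConj_iff_cycleType_eq.2 h1)
  obtain ⟨h, hh⟩ := isConj_iff.1 (isConj_iff_cycleType_eq.2 h2)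
  have hgs : sign g = -1 := by
    rcases Int.units_eq_one_or (sign g) with h | h
    · exfalso; apply hxy
      rw [isConj_iff]
      exact ⟨⟨g, h⟩, Subtype.ext hg⟩
    · exact h
  have hhs : sign h = -1 := by
    rcases Int.units_eq_one_or (sign h) with h' | h'
    · exfalso; apply hxz
      rw [isConj_iff]
      exact ⟨⟨h, h'⟩, Subtype.ext hh⟩
    · exact h'
  rw [isConj_iff]
  refine ⟨⟨h * g⁻¹, ?_⟩, Subtype.ext ?_⟩
  · rw [mem_alternatingGroup, map_mul, map_inv, hgs, hhs]; decide
  · show (h * g⁻¹) * (y : Equiv.Perm (Fin n)) * (h * g⁻¹)⁻¹ = z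
    rw [← hg, ← hh]; group

theorem alt_centralizer {x y : alternatingGroup (Fin n)} (h1 : (x : Equiv.Perm (Fin n)).cycleType = (y : Equiv.Perm (Fin n)).cycleType) 
    (hxy : ¬ IsConj x y) : Subgroup.centralizer {(x : Equiv.Perm (Fin n))} ≤ alternatingGroup (Fin n) := by
  intro c hc
  rw [Subgroup.mem_centralizer_singleton_iff] at hc
  obtain ⟨g, hg⟩ := isConj_iff.1 (isConj_iff_cycleType_eq.2 h1)
  have hgs : sign g = -1 := by
    rcases Int.units_eq_one_or (sign g) with h | h
    · exfalso; apply hxy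
      rw [isConj_iff]
      exact ⟨⟨g, h⟩, Subtype.ext hg⟩
    · exact h
  rw [mem_alternatingGroup]
  rcases Int.units_eq_one_or (sign c) with h | h
  · exact h
  · exfalso; apply hxy
    rw [isConj_iff]
    refine ⟨⟨g * c, by rw [mem_alternatingGroup, map_mul, h, hgs]; decide⟩, Subtype.ext ?_⟩
    show (g * c) * (x : Equiv.Perm (Fin n)) * (g * c)⁻¹ = y
    rw [← hg]
    calc (g * c) * (x : Equiv.Perm (Fin n)) * (g * c)⁻¹ = g * (c * x) * c⁻¹ * g⁻¹ := by group
      _ = g * (x * c) * c⁻¹ * g⁻¹ := by rw [hc]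
      _ = _ := by group

theorem filter_even_eq {m : Multiset ℕ} {a : ℕ} (hm : ∀ c ∈ m, Odd c) (ha : a ∈ m) : 
    (((a - 1) ::ₘ m.erase a).filter Even) = {a - 1} := by
  have h1 : Even (a - 1) := by
    obtain ⟨k, hk⟩ := hm a ha
    rw [hk, Nat.add_sub_cancel]; exact even_two_mul k
  rw [Multiset.filter_cons_of_pos _ h1]
  have : (m.erase a).filter Even = 0 := by
    rw [Multiset.filter_eq_nil]
    intro b hb
    rw [Nat.not_even_iff_odd]
    exact hm b (Multiset.mem_of_mem_erase hb)
  rw [this]; rfl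

theorem card_conj_alt (hn : 5 ≤ n) : Nat.card (ConjClasses (alternatingGroup (Fin n))) < Nat.card (ConjClasses (Equiv.Perm (Fin n))) := by
  classical
  let out : ConjClasses (alternatingGroup (Fin n)) → alternatingGroup (Fin n) := fun c => Quotient.out c
  have hout : ∀ c, ConjClasses.mk (out c) = c := fun c => Quotient.out_eq c
  let ct : ConjClasses (alternatingGroup (Fin n)) → Multiset ℕ := fun c => (out c : Equiv.Perm (Fin n)).cycleType
  let rep : ConjClasses (alternatingGroup (Fin n)) → ConjClasses (alternatingGroup (Fin n)) := fun c => 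
    (show ∃ d, ct d = ct c from ⟨c, rfl⟩).choose
  have hrep : ∀ c, ct (rep c) = ct c := fun c => (show ∃ d, ct d = ct c from ⟨c, rfl⟩).choose_spec
  have hrep' : ∀ c d, ct c = ct d → rep c = rep d := by
    intro c d h
    show (show ∃ e, ct e = ct c from ⟨c, rfl⟩).choose = (show ∃ e, ct e = ct d from ⟨d, rfl⟩).choose
    congr 1
    rw [h]
  have hnc : ∀ c d, c ≠ d → ¬ IsConj (out c) (out d) := by
    intro c d hcd h
    apply hcd
    rw [← hout c, ← hout d]
    exact ConjClasses.mk_eq_mk_iff_isConj.2 h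
  have hsplit : ∀ c, rep c ≠ c → (∀ a ∈ ct c, Odd a) ∧ n ≤ (ct c).sum + 1 := by
    intro c hc
    have h1 := (centralizer_le_alternating_iff).1 (alt_centralizer (x := out c) (y := out (rep c)) (hrep c).symm (hnc _ _ (Ne.symm hc)))
    rw [Fintype.card_fin] at h1
    exact ⟨h1.1, h1.2.1⟩
  have hctX : ∀ c, ct c ∈ cyc n := by
    intro c
    have := (exists_with_cycleType_iff (Fin n)).1 ⟨(out c : Equiv.Perm (Fin n)), rfl⟩
    rwa [Fintype.card_fin] at this
  have hpar : ∀ c, Even ((ct c).sum + Multiset.card (ct c)) := by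
    intro c
    have h1 : sign (out c : Equiv.Perm (Fin n)) = 1 := (out c).2
    rw [sign_of_cycleType] at h1
    by_contra h
    rw [Nat.not_even_iff_odd] at h
    have : (-1 : ℤˣ) ^ ((ct c).sum + Multiset.card (ct c)) = -1 := Odd.neg_one_pow h
    rw [this] at h1
    exact absurd h1 (by decide)
  let pick : Multiset ℕ → ℕ := fun m => if h : ∃ a, a ∈ m then h.choose else 0
  have hpick : ∀ m : Multiset ℕ, m ≠ 0 → pick m ∈ m := by
    intro m hm
    have h : ∃ a, a ∈ m := Multiset.exists_mem_of_ne_zero hm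
    show (if h : ∃ a, a ∈ m then h.choose else 0) ∈ m
    rw [dif_pos h]; exact h.choose_spec
  let Ψ : ConjClasses (alternatingGroup (Fin n)) → Multiset ℕ := fun c => 
    if rep c = c then ct c else (pick (ct c) - 1) ::ₘ (ct c).erase (pick (ct c))
  have hΨ1 : ∀ c, rep c = c → Ψ c = ct c := fun c h => if_pos h
  have hΨ2 : ∀ c, rep c ≠ c → Ψ c = (pick (ct c) - 1) ::ₘ (ct c).erase (pick (ct c)) := fun c h => if_neg h
  have hne0 : ∀ c, rep c ≠ c → ct c ≠ 0 := by
    intro c hc h
    have := (hsplit c hc).2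
    rw [h, Multiset.sum_zero] at this
    omega
  have hsum : ∀ c, rep c ≠ c → (Ψ c).sum + 1 = (ct c).sum ∧ Multiset.card (Ψ c) = Multiset.card (ct c) ∧ 3 ≤ pick (ct c) := by
    intro c hc
    have h1 := hpick _ (hne0 c hc)
    have h2 := (hctX c).2 _ h1
    have h3 := (hsplit c hc).1 _ h1
    have h4 : 3 ≤ pick (ct c) := by
      obtain ⟨k, hk⟩ := h3
      omega
    have h5 : (ct c).sum = pick (ct c) + ((ct c).erase (pick (ct c))).sum := by
      rw [← Multiset.sum_cons, Multiset.cons_erase h1]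
    have h6 := Multiset.card_erase_add_one h1
    rw [hΨ2 c hc, Multiset.sum_cons, Multiset.card_cons]
    refine ⟨by omega, by omega, h4⟩
  have hΨX : ∀ c, Ψ c ∈ cyc n := by
    intro c
    by_cases hc : rep c = c
    · rw [hΨ1 c hc]; exact hctX c
    · obtain ⟨h1, h2, h3⟩ := hsum c hc
      refine ⟨by have := (hctX c).1; omega, ?_⟩
      intro a ha
      rw [hΨ2 c hc, Multiset.mem_cons] at ha
      rcases ha with rfl | ha
      · omega
      · exact (hctX c).2 a (Multiset.mem_of_mem_erase ha)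
  have hex : ∀ c, ∃ τ : Equiv.Perm (Fin n), τ.cycleType = Ψ c := by
    intro c
    apply (exists_with_cycleType_iff (Fin n)).2
    rw [Fintype.card_fin]; exact hΨX c
  choose τ hτ using hex
  have hinjΨ : Function.Injective Ψ := by
    have mixed : ∀ c d, rep c = c → rep d ≠ d → Ψ c ≠ Ψ d := by
      intro c d hc hd h
      obtain ⟨h1, h2, h3⟩ := hsum d hd
      have h4 := hpar d
      have h5 := hpar c
      rw [← hΨ1 c hc, h] at h5
      rw [← h1, ← h2] at h4
      rw [Nat.even_iff] at h4 h5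
      omega
    intro c d hcd
    by_cases hc : rep c = c
    · by_cases hd : rep d = d
      · rw [hΨ1 c hc, hΨ1 d hd] at hcd
        rw [← hc, ← hd]; exact hrep' c d hcd
      · exact absurd hcd (mixed c d hc hd)
    · by_cases hd : rep d = d
      · exact absurd hcd.symm (mixed d c hd hc)
      · have hcd' := hcd
        rw [hΨ2 c hc, hΨ2 d hd] at hcd
        have h1 := filter_even_eq (hsplit c hc).1 (hpick _ (hne0 c hc))
        have h2 := filter_even_eq (hsplit d hd).1 (hpick _ (hne0 d hd))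
        rw [hcd, h2] at h1
        have h3 := Multiset.singleton_inj.1 h1
        have h4 := (hsum c hc).2.2
        have h5 := (hsum d hd).2.2
        have h6 : pick (ct c) = pick (ct d) := by omega
        rw [h6] at hcd
        have h7 := (Multiset.cons_inj_right _).1 hcd
        have h8 : ct c = ct d := by
          rw [← Multiset.cons_erase (hpick _ (hne0 c hc)), ← Multiset.cons_erase (hpick _ (hne0 d hd)), h6, h7]
        by_contra hne
        have h9 := alt_conj_two (x := out (rep c)) (y := out c) (z := out d) (hrep c) (by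
          exact (hrep c).trans h8) (hnc _ _ hc) (hnc _ _ (by rw [hrep' c d h8]; exact hd))
        exact hnc _ _ hne h9
  haveI : Fintype (ConjClasses (alternatingGroup (Fin n))) := Fintype.ofFinite _
  haveI : Fintype (ConjClasses (Equiv.Perm (Fin n))) := Fintype.ofFinite _
  rw [Nat.card_eq_fintype_card, Nat.card_eq_fintype_card]
  obtain ⟨σ, hσ⟩ := (exists_with_cycleType_iff (α := Fin n) (m := {2})).2 (by
    rw [Fintype.card_fin, Multiset.sum_singleton]
    refine ⟨by omega, fun a ha => ?_⟩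
    rw [Multiset.mem_singleton.1 ha])
  apply Fintype.card_lt_of_injective_of_notMem (fun c => ConjClasses.mk (τ c)) _ (b := ConjClasses.mk σ)
  · rintro ⟨c, hc⟩
    have h1 := isConj_iff_cycleType_eq.1 (ConjClasses.mk_eq_mk_iff_isConj.1 hc)
    rw [hσ, hτ] at h1
    by_cases hcc : rep c = c
    · have h2 := hpar c
      rw [← hΨ1 c hcc, h1] at h2
      simp at h2
      exact absurd h2 (by decide)
    · obtain ⟨h3, h4, h5⟩ := hsum c hcc
      rw [h1, Multiset.sum_singleton] at h3
      have h6 := (hsplit c hcc).2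
      omega
  · intro c d hcd
    apply hinjΨ
    rw [← hτ, ← hτ]
    exact isConj_iff_cycleType_eq.1 (ConjClasses.mk_eq_mk_iff_isConj.1 hcd)

end CfsgH3
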