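import Mathlib
import Cfsg.Agent.H1.Basic
import Cfsg.Agent.H1.CopExtra

set_option autoImplicit false

/-!
The Krull-Schmidt theorem for finite groups.
-/

namespace CfsgH3

open Subgroup

/-- directly indecomposable -/
def DirIndec (A : Type*) [Group A] : Prop := ∀ H K : Subgroup A, H.Normal → K.Normal → H ⊓ K = ⊥ → H ⊔ K = ⊤ → H = ⊥ ∨ K = ⊥

/-- iterates of an endomorphism -/
def iterHom {A : Type*} [Group A] (θ : A →* A) : ℕ → (A →* A)
  | 0 => MonoidHom.id A
  | n + 1 => θ.comp (iterHom θ n)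

theorem iterHom_add {A : Type*} [Group A] (θ : A →* A) (n m : ℕ) (a : A) : iterHom θ (n + m) a = iterHom θ n (iterHom θ m a) := by
  induction n with
  | zero => rw [Nat.zero_add]; rfl
  | succ n ih => 
    rw [Nat.succ_add]
    show θ (iterHom θ (n + m) a) = θ (iterHom θ n (iterHom θ m a))
    rw [ih]

theorem ks_fix {A : Type*} [Group A] [Finite A] (hA : DirIndec A) (θ : A →* A) (hθ : ∀ x a : A, θ (x * a * x⁻¹) = x * θ a * x⁻¹) 
    {x : A} (hx : x ≠ 1) (hfx : θ x = x) : Function.Injective θ := by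
  have hmono : Monotone (fun n : ℕ => (iterHom θ n).ker) := by
    apply monotone_nat_of_le_succ
    intro n a ha
    rw [MonoidHom.mem_ker] at ha ⊢
    show θ (iterHom θ n a) = 1
    rw [ha, map_one]
  obtain ⟨N, hN⟩ := WellFoundedGT.monotone_chain_condition (⟨_, hmono⟩ : ℕ →o Subgroup A)
  have hN' : ∀ m, N ≤ m → (iterHom θ N).ker = (iterHom θ m).ker := hN
  have hpow : ∀ n : ℕ, ∀ x a : A, (iterHom θ n) (x * a * x⁻¹) = x * (iterHom θ n) a * x⁻¹ := by
    intro n
    induction n with
    | zero => intro x a; rfl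
    | succ n ih =>
      intro x a
      show θ ((iterHom θ n) (x * a * x⁻¹)) = x * θ ((iterHom θ n) a) * x⁻¹
      rw [ih, hθ]
  have hfix : ∀ n : ℕ, (iterHom θ n) x = x := by
    intro n
    induction n with
    | zero => rfl
    | succ n ih =>
      show θ ((iterHom θ n) x) = x
      rw [ih, hfx]
  set φ : A →* A := iterHom θ N with hφ
  haveI hIn : φ.range.Normal := by
    constructor
    rintro _ ⟨a, rfl⟩ y
    exact ⟨y * a * y⁻¹, hpow N y a⟩
  have hdisj : φ.ker ⊓ φ.range = ⊥ := by
    rw [eq_bot_iff]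
    rintro _ ⟨ha, ⟨y, rfl⟩⟩
    rw [mem_bot]
    have h1 : y ∈ (iterHom θ (N + N)).ker := by
      rw [MonoidHom.mem_ker, iterHom_add]
      exact ha
    rw [← hN' (N + N) (by omega)] at h1
    exact h1
  have hsup : φ.ker ⊔ φ.range = ⊤ := by
    apply Subgroup.eq_top_of_card_eq
    rw [CfsgH1.card_sup_of_disjoint (CfsgH1.le_normalizer_of_normal _ _) hdisj]
    have h1 := Subgroup.card_mul_index φ.ker
    rw [Subgroup.index_ker] at h1
    exact h1
  rcases hA _ _ inferInstance hIn hdisj hsup with h | h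
  · rw [← MonoidHom.ker_eq_bot_iff, eq_bot_iff]
    intro a ha
    have h1 : a ∈ (iterHom θ (N + 1)).ker := by
      rw [MonoidHom.mem_ker, iterHom_add]
      show (iterHom θ N) (θ a) = 1
      have : θ a = 1 := ha
      rw [this, map_one]
    rw [← hN' (N + 1) (by omega)] at h1
    rw [← h]; exact h1
  · exfalso
    apply hx
    rw [← mem_bot, ← h]
    exact ⟨x, hfix N⟩

theorem ks_sum {A : Type*} [Group A] [Finite A] (hA : DirIndec A) (f g α : A →* A) (hf : ∀ x a : A, f (x * a * x⁻¹) = x * f a * x⁻¹) 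
    (hg : ∀ x a : A, g (x * a * x⁻¹) = x * g a * x⁻¹) (hα : ∀ x a : A, α (x * a * x⁻¹) = x * α a * x⁻¹) (hsum : ∀ a, f a * g a = α a)
    (hinj : Function.Injective α) : Function.Injective f ∨ Function.Injective g := by
  by_cases hfi : Function.Injective f
  · exact Or.inl hfi
  right
  rw [injective_iff_map_eq_one] at hfi
  push Not at hfi
  obtain ⟨x, hx1, hx2⟩ := hfi
  let α' : A ≃* A := MulEquiv.ofBijective α (Finite.injective_iff_bijective.1 hinj)
  have hα' : ∀ a, α' a = α a := fun a => rfl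
  let θ : A →* A := α'.symm.toMonoidHom.comp g
  have hθ : ∀ x a : A, θ (x * a * x⁻¹) = x * θ a * x⁻¹ := by
    intro x a
    show α'.symm (g (x * a * x⁻¹)) = x * α'.symm (g a) * x⁻¹
    rw [MulEquiv.symm_apply_eq, hα', hα, ← hα', MulEquiv.apply_symm_apply, hg]
  have h1 : θ x = x := by
    show α'.symm (g x) = x
    rw [MulEquiv.symm_apply_eq, hα', ← hsum, hx1, one_mul]
  have h2 := ks_fix hA θ hθ hx2 h1
  intro a b hab
  apply h2
  show α'.symm (g a) = α'.symm (g b)
  rw [hab]

theorem ks_exchange {A B' : Type*} [Group A] [Group B'] [Finite A] [Finite B'] {κ : Type} [Fintype κ] [DecidableEq κ] {K : κ → Type*}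
    [∀ j, Group (K j)] [∀ j, Finite (K j)] [Nontrivial A] (hA : DirIndec A) (hK : ∀ j, DirIndec (K j)) (e : A × B' ≃* ∀ j, K j) : 
    ∃ j, Nonempty (A ≃* K j) ∧ Nonempty (B' ≃* ∀ k : {k // k ≠ j}, K k) := by
  classical
  let mask : Finset κ → ((∀ j, K j) →* (∀ j, K j)) := fun s => 
    { toFun := fun y j => if j ∈ s then y j else 1
      map_one' := by funext j; simp
      map_mul' := by intro y z; funext j; by_cases h : j ∈ s <;> simp [h] }
  have hmask : ∀ s y j, mask s y j = if j ∈ s then y j else 1 := fun s y j => rfl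
  have hmaskn : ∀ s y z, mask s (y * z * y⁻¹) = y * mask s z * y⁻¹ := by
    intro s y z
    funext j
    rw [hmask, Pi.mul_apply, Pi.mul_apply, Pi.inv_apply, Pi.mul_apply, Pi.mul_apply, Pi.inv_apply, hmask]
    by_cases h : j ∈ s <;> simp [h]
  let S : Finset κ → (A →* A) := fun s => (MonoidHom.fst A B').comp (e.symm.toMonoidHom.comp ((mask s).comp (e.toMonoidHom.comp (MonoidHom.inl A B'))))
  have hS : ∀ s a, S s a = (e.symm (mask s (e (a, 1)))).1 := fun s a => rfl
  have hSn : ∀ s, ∀ x a : A, S s (x * a * x⁻¹) = x * S s a * x⁻¹ := by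
    intro s x a
    rw [hS, hS]
    have h1 : ((x * a * x⁻¹, 1) : A × B') = (x, 1) * (a, 1) * (x, 1)⁻¹ := by
      ext <;> simp
    have h2 : e (x, 1) * e (a, 1) * (e (x, 1))⁻¹ = e ((x, 1) * (a, 1) * (x, 1)⁻¹) := by rw [map_mul, map_mul, map_inv]
    rw [h1, ← h2, hmaskn, map_mul, map_mul, map_inv, MulEquiv.symm_apply_apply]
    rfl
  have hSadd : ∀ s j, j ∉ s → ∀ a, S s a * S {j} a = S (insert j s) a := by
    intro s j hj a
    rw [hS, hS, hS, ← Prod.fst_mul, ← map_mul]
    congr 2
    funext i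
    rw [Pi.mul_apply, hmask, hmask, hmask]
    by_cases hi : i = j
    · subst hi; simp [hj]
    · simp [hi]
  have hSuniv : ∀ a, S Finset.univ a = a := by
    intro a
    rw [hS]
    have : mask Finset.univ (e (a, 1)) = e (a, 1) := by
      funext j; rw [hmask]; simp
    rw [this, MulEquiv.symm_apply_apply]
  have hex : ∀ s : Finset κ, Function.Injective (S s) → ∃ j ∈ s, Function.Injective (S {j}) := by
    intro s
    induction s using Finset.induction_on with
    | empty =>
      intro h
      exfalso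
      obtain ⟨a, ha⟩ := exists_ne (1 : A)
      apply ha
      apply h
      rw [hS, hS]
      congr 1
    | insert j s hj ih =>
      intro h
      rcases ks_sum hA _ _ _ (hSn s) (hSn {j}) (hSn (insert j s)) (hSadd s j hj) h with h1 | h1
      · obtain ⟨i, hi, hi'⟩ := ih h1
        exact ⟨i, Finset.mem_insert_of_mem hi, hi'⟩
      · exact ⟨j, Finset.mem_insert_self _ _, h1⟩
  obtain ⟨j, -, hj⟩ := hex Finset.univ (fun a b hab => by rwa [hSuniv, hSuniv] at hab)
  let u : A →* K j := (Pi.evalMonoidHom K j).comp (e.toMonoidHom.comp (MonoidHom.inl A B'))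
  let p : K j →* A := (MonoidHom.fst A B').comp (e.symm.toMonoidHom.comp (MonoidHom.mulSingle K j))
  have hu : ∀ a, u a = e (a, 1) j := fun a => rfl
  have hp : ∀ k, p k = (e.symm (Pi.mulSingle j k)).1 := fun k => rfl
  have hpu : ∀ a, p (u a) = S {j} a := by
    intro a
    rw [hp, hu, hS]
    congr 2
    funext i
    rw [hmask]
    by_cases hi : i = j
    · subst hi; simp
    · simp [hi]
  have hpui : Function.Injective (fun a => p (u a)) := by
    intro a b hab
    simp only [hpu] at hab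
    exact hj hab
  have hpus : Function.Surjective (fun a => p (u a)) := Finite.injective_iff_surjective.1 hpui
  haveI hun : u.range.Normal := by
    constructor
    rintro _ ⟨a, rfl⟩ k
    set xb := e.symm (Pi.mulSingle j k) with hxb
    have hk : e xb = Pi.mulSingle j k := by rw [hxb, MulEquiv.apply_symm_apply]
    refine ⟨xb.1 * a * xb.1⁻¹, ?_⟩
    rw [hu]
    have h1 : ((xb.1 * a * xb.1⁻¹, 1) : A × B') = xb * (a, 1) * xb⁻¹ := by
      ext <;> simp
    rw [h1, map_mul, map_mul, map_inv, hk, Pi.mul_apply, Pi.mul_apply, Pi.inv_apply, Pi.mulSingle_eq_same, hu]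
  have hdisj : u.range ⊓ p.ker = ⊥ := by
    rw [eq_bot_iff]
    rintro _ ⟨⟨a, rfl⟩, ha⟩
    have ha' : p (u a) = 1 := ha
    have : a = 1 := hpui (by simp only; rw [ha', map_one, map_one])
    rw [mem_bot, this, map_one]
  have hsup : u.range ⊔ p.ker = ⊤ := by
    rw [eq_top_iff]
    intro k _
    obtain ⟨a, ha⟩ := hpus (p k)
    simp only at ha
    have e1 : k = u a * ((u a)⁻¹ * k) := by group
    have h1 : u a ∈ u.range := ⟨a, rfl⟩
    have h2 : (u a)⁻¹ * k ∈ p.ker := by
      rw [MonoidHom.mem_ker, map_mul, map_inv, ha, inv_mul_cancel]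
    rw [e1]
    exact Subgroup.mul_mem_sup h1 h2
  have hpi : Function.Injective p := by
    rw [← MonoidHom.ker_eq_bot_iff]
    rcases hK j _ _ hun inferInstance hdisj hsup with h | h
    · exfalso
      obtain ⟨a, ha⟩ := exists_ne (1 : A)
      apply ha
      apply hpui
      have h1 : u a = 1 := by rw [← mem_bot, ← h]; exact ⟨a, rfl⟩
      simp only
      rw [h1, map_one, map_one, map_one]
    · exact h
  have hps : Function.Surjective p := fun a => by
    obtain ⟨b, hb⟩ := hpus a
    exact ⟨u b, hb⟩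
  refine ⟨j, ⟨(MulEquiv.ofBijective p ⟨hpi, hps⟩).symm⟩, ?_⟩
  let ψ : B' →* (∀ k : {k // k ≠ j}, K k) := 
    { toFun := fun b k => e (1, b) k
      map_one' := by
        funext k
        show e ((1, 1) : A × B') k = 1
        have : ((1, 1) : A × B') = 1 := rfl
        rw [this, map_one]; rfl
      map_mul' := by
        intro b c
        funext k
        have : ((1, b * c) : A × B') = (1, b) * (1, c) := by ext <;> simp
        show e (1, b * c) k = e (1, b) k * e (1, c) k
        rw [this, map_mul]; rfl }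
  have hψ : ∀ b (k : {k // k ≠ j}), ψ b k = e (1, b) k := fun b k => rfl
  have hψi : Function.Injective ψ := by
    rw [injective_iff_map_eq_one]
    intro b hb
    have h1 : e (1, b) = Pi.mulSingle j (e (1, b) j) := by
      funext k
      by_cases hk : k = j
      · subst hk; rw [Pi.mulSingle_eq_same]
      · rw [Pi.mulSingle_eq_of_ne hk]
        have := congrFun hb ⟨k, hk⟩
        rw [hψ] at this
        exact this
    have h2 : p (e (1, b) j) = 1 := by
      rw [hp, ← h1, MulEquiv.symm_apply_apply]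
    have h3 : e (1, b) j = 1 := hpi (by rw [h2, map_one])
    rw [h3, Pi.mulSingle_one] at h1
    have h4 : ((1, b) : A × B') = 1 := e.injective (by rw [h1, map_one])
    exact congrArg Prod.snd h4
  have hcard : Nat.card B' = Nat.card (∀ k : {k // k ≠ j}, K k) := by
    have h1 : Nat.card A * Nat.card B' = Nat.card (K j) * Nat.card (∀ k : {k // k ≠ j}, K k) := by
      rw [← Nat.card_prod, ← Nat.card_prod, Nat.card_congr e.toEquiv, Nat.card_congr (Equiv.piSplitAt j K)]
    have h2 : Nat.card (K j) = Nat.card A := Nat.card_congr (MulEquiv.ofBijective p ⟨hpi, hps⟩).toEquiv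
    rw [h2] at h1
    exact Nat.eq_of_mul_eq_mul_left Nat.card_pos h1
  haveI : Finite (∀ k : {k // k ≠ j}, K k) := inferInstance
  exact ⟨MulEquiv.ofBijective ψ ((Nat.bijective_iff_injective_and_card ψ).2 ⟨hψi, hcard⟩)⟩

theorem krull_schmidt (n : ℕ) : ∀ {ι κ : Type} [Fintype ι] [Fintype κ] (_ : Fintype.card ι = n) {A : ι → Type*} {B : κ → Type*} [∀ i, Group (A i)] [∀ j, Group (B j)] 
    [∀ i, Finite (A i)] [∀ j, Finite (B j)] (_ : ∀ i, Nontrivial (A i) ∧ DirIndec (A i)) (_ : ∀ j, Nontrivial (B j) ∧ DirIndec (B j)) 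
    (_ : (∀ i, A i) ≃* (∀ j, B j)), ∃ σ : ι ≃ κ, ∀ i, Nonempty (A i ≃* B (σ i)) := by
  induction n with
  | zero =>
    intro ι κ _ _ hn A B _ _ _ _ hA hB e
    classical
    haveI : IsEmpty ι := Fintype.card_eq_zero_iff.1 hn
    haveI : IsEmpty κ := by
      constructor
      intro j
      haveI := (hB j).1
      obtain ⟨b, hb⟩ := exists_ne (1 : B j)
      apply hb
      have h1 : e.symm (Pi.mulSingle j b) = e.symm 1 := Subsingleton.elim _ _
      have h2 := congrFun (e.symm.injective h1) j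
      rwa [Pi.mulSingle_eq_same, Pi.one_apply] at h2
    exact ⟨Equiv.equivOfIsEmpty ι κ, fun i => isEmptyElim i⟩
  | succ n ih =>
    intro ι κ _ _ hn A B _ _ _ _ hA hB e
    classical
    obtain ⟨i₀⟩ : Nonempty ι := Fintype.card_pos_iff.1 (by omega)
    haveI := (hA i₀).1
    let s : (∀ i, A i) ≃* A i₀ × (∀ i : {i // i ≠ i₀}, A i) := { Equiv.piSplitAt i₀ A with map_mul' := fun _ _ => rfl }
    obtain ⟨j, ⟨e1⟩, ⟨e2⟩⟩ := ks_exchange (hA i₀).2 (fun j => (hB j).2) (s.symm.trans e)
    obtain ⟨σ', hσ'⟩ := ih (ι := {i // i ≠ i₀}) (κ := {k // k ≠ j}) (by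
      rw [Fintype.card_subtype_compl, Fintype.card_subtype_eq, hn]; omega) (A := fun i => A i) (B := fun k => B k) (fun i => hA i) (fun k => hB k) e2
    refine ⟨(Equiv.optionSubtypeNe i₀).symm.trans ((Equiv.optionCongr σ').trans (Equiv.optionSubtypeNe j)), ?_⟩
    intro i
    by_cases hi : i = i₀
    · subst hi
      have : ((Equiv.optionSubtypeNe i).symm.trans ((Equiv.optionCongr σ').trans (Equiv.optionSubtypeNe j))) i = j := by
        simp
      rw [this]
      exact ⟨e1⟩
    · have : ((Equiv.optionSubtypeNe i₀).symm.trans ((Equiv.optionCongr σ').trans (Equiv.optionSubtypeNe j))) i = σ' ⟨i, hi⟩ := by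
        simp [Equiv.optionSubtypeNe_symm_of_ne hi]
      rw [this]
      exact hσ' ⟨i, hi⟩

end CfsgH3
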