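import Mathlib
import Cfsg.Agent.S0120
import Cfsg.Agent.H2.CopGen
import Cfsg.Agent.H1.PGrp2
import Cfsg.Agent.H1.CopExtra

set_option autoImplicit false

/-!
Coprime action, centralizing the elements of order `p`.
-/

namespace CfsgH3

open Subgroup

theorem omega_cent {G : Type*} [Group G] [Finite G] {p : ℕ} [hp : Fact p.Prime] (hp2 : p ≠ 2) {H A : Subgroup G}
    (hH : IsPGroup p H) (hA : A ≤ normalizer (H : Set G)) (hcop : (Nat.card A).Coprime p)
    (h : ∀ x ∈ H, x ^ p = 1 → ∀ a ∈ A, a * x = x * a) : A ≤ centralizer (H : Set G) := by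
  intro a ha
  have h1 : H.normalizerMonoidHom ⟨a, hA ha⟩ = 1 := by
    apply Cfsg.Agent.S0120.result hp2 hH
    · refine Nat.Coprime.coprime_dvd_left (orderOf_map_dvd _ _) ?_
      rw [Subgroup.orderOf_mk]
      exact Nat.Coprime.coprime_dvd_left (Subgroup.orderOf_dvd_natCard A ha) hcop
    · intro x hx
      apply Subtype.ext
      change a * (x : G) * a⁻¹ = x
      have hx' : (x : G) ^ p = 1 := by
        have := congrArg Subtype.val hx
        exact this
      rw [h x x.2 hx' a ha, mul_inv_cancel_right]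
  rw [mem_centralizer_iff]
  intro x hx
  have h2 := congrArg (fun f : MulAut H => ((f ⟨x, hx⟩ : H) : G)) h1
  have h3 : a * x * a⁻¹ = x := h2
  rw [mul_inv_eq_iff_eq_mul] at h3
  exact h3.symm

/-- stabilizing a chain -/
theorem chain_cent {G : Type*} [Group G] [Finite G] {H A P : Subgroup G} (hH : Group.IsSolvable H)
    (hPA : P ≤ A) (hcop : (Nat.card P).Coprime (Nat.card H)) (hA : A ≤ normalizer (H : Set G))
    (n : ℕ) (c : Fin (n + 1) → Subgroup G) (hc0 : c 0 = H) (hcn : c (Fin.last n) = ⊥)
    (htriv : ∀ i : Fin n, ⁅c i.castSucc, A⁆ ≤ c i.succ) : P ≤ centralizer (H : Set G) := by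
  have hPH : P ≤ normalizer (H : Set G) := hPA.trans hA
  have hidem := CfsgH1.coprime_commutator_idem hPH hcop (Or.inr hH)
  have key : ∀ i : Fin (n + 1), ⁅H, P⁆ ≤ c i := by
    intro i
    induction i using Fin.induction with
    | zero => rw [hc0, ← Subgroup.le_normalizer_iff_commutator_le_left]; exact hPH
    | succ i ih =>
      rw [← hidem]
      exact (commutator_mono ih hPA).trans (htriv i)
  have h1 : ⁅H, P⁆ = ⊥ := by
    rw [eq_bot_iff, ← hcn]
    exact key _
  rw [CfsgH1.le_centralizer_iff_commutator, commutator_comm]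
  exact h1

end CfsgH3
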