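import Mathlib
import Cfsg.Prelude.Def_OddOrderLocal
import Cfsg.Agent.H1.PGrp2
import Cfsg.Agent.H1.MinNormal

set_option autoImplicit false

/-!
Puig series.
-/

namespace CfsgH3

open Subgroup Cfsg

universe u

variable {G : Type u} [Group G]

theorem puigStep_anti {X Y : Subgroup G} (h : X ≤ Y) : puigStep Y ≤ puigStep X :=
  sSup_le_sSup fun _ hA => ⟨hA.1, h.trans hA.2⟩

theorem puig_zero : puigSeq G 0 = ⊥ := rfl

theorem puig_succ (n : ℕ) : puigSeq G (n + 1) = puigStep (puigSeq G n) := rfl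

theorem puig_one : puigSeq G 1 = ⊤ := by
  rw [puig_succ, puig_zero, eq_top_iff]
  intro x _
  have h : zpowers x ≤ puigStep (⊥ : Subgroup G) := le_sSup ⟨inferInstance, bot_le⟩
  exact h (mem_zpowers x)

theorem puig_mono (n : ℕ) : puigSeq G (2 * n) ≤ puigSeq G (2 * n + 2) ∧ puigSeq G (2 * n + 3) ≤ puigSeq G (2 * n + 1) := by
  induction n with
  | zero =>
    refine ⟨bot_le, ?_⟩
    rw [show 2 * 0 + 1 = 1 by ring, puig_one]
    exact le_top
  | succ n ih =>
    have h1 : puigSeq G (2 * (n + 1)) ≤ puigSeq G (2 * (n + 1) + 2) := by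
      rw [show 2 * (n + 1) = 2 * n + 1 + 1 by ring, show 2 * n + 1 + 1 + 2 = 2 * n + 3 + 1 by ring, puig_succ, puig_succ (2 * n + 3)]
      exact puigStep_anti ih.2
    refine ⟨h1, ?_⟩
    rw [show 2 * (n + 1) + 3 = 2 * (n + 1) + 2 + 1 by ring, puig_succ, puig_succ (2 * (n + 1))]
    exact puigStep_anti h1

theorem puig_even_mono : Monotone (fun n => puigSeq G (2 * n)) :=
  monotone_nat_of_le_succ fun n => (puig_mono n).1

theorem puig_odd_anti : Antitone (fun n => puigSeq G (2 * n + 1)) :=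
  antitone_nat_of_succ_le fun n => (puig_mono n).2

theorem puig_le_succ (n : ℕ) : puigSeq G (2 * n) ≤ puigSeq G (2 * n + 1) ∧ puigSeq G (2 * n + 2) ≤ puigSeq G (2 * n + 1) := by
  induction n with
  | zero =>
    refine ⟨bot_le, ?_⟩
    rw [show 2 * 0 + 1 = 1 by ring, puig_one]
    exact le_top
  | succ n ih =>
    have h1 : puigSeq G (2 * (n + 1)) ≤ puigSeq G (2 * (n + 1) + 1) := by
      rw [show 2 * (n + 1) = 2 * n + 1 + 1 by ring, puig_succ, puig_succ (2 * n + 1 + 1)]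
      exact puigStep_anti ih.2
    refine ⟨h1, ?_⟩
    rw [show 2 * (n + 1) + 2 = 2 * (n + 1) + 1 + 1 by ring, puig_succ (2 * (n + 1) + 1), puig_succ (2 * (n + 1))]
    exact puigStep_anti h1

theorem puig_even_le_odd (n m : ℕ) : puigSeq G (2 * n) ≤ puigSeq G (2 * m + 1) := by
  have h1 : puigSeq G (2 * n) ≤ puigSeq G (2 * max n m) := puig_even_mono (le_max_left n m)
  have h2 : puigSeq G (2 * max n m + 1) ≤ puigSeq G (2 * m + 1) := puig_odd_anti (le_max_right n m)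
  exact h1.trans ((puig_le_succ _).1.trans h2)

theorem exists_const_of_monotone [Finite G] (a : ℕ → Subgroup G) (h : ∀ i j, i ≤ j → a i ≤ a j) :
    ∃ k, ∀ n, k ≤ n → a n = a k := by
  obtain ⟨_, ⟨k, rfl⟩, hk⟩ := Set.exists_max_image (Set.range a) (fun L => Nat.card L) (Set.toFinite _) ⟨a 0, 0, rfl⟩
  exact ⟨k, fun n hn => (Subgroup.eq_of_le_of_card_ge (h k n hn) (hk _ ⟨n, rfl⟩)).symm⟩

theorem exists_const_of_antitone [Finite G] (a : ℕ → Subgroup G) (h : ∀ i j, i ≤ j → a j ≤ a i) :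
    ∃ k, ∀ n, k ≤ n → a n = a k := by
  obtain ⟨_, ⟨k, rfl⟩, hk⟩ := Set.exists_min_image (Set.range a) (fun L => Nat.card L) (Set.toFinite _) ⟨a 0, 0, rfl⟩
  exact ⟨k, fun n hn => Subgroup.eq_of_le_of_card_ge (h k n hn) (hk _ ⟨n, rfl⟩)⟩

theorem puig_stable [Finite G] : ∃ k : ℕ, ∀ n : ℕ, k ≤ n → puigSeq G (2 * n) = puigLower G ∧ puigSeq G (2 * n + 1) = puigSubgroup G := by
  obtain ⟨k1, hk1⟩ := exists_const_of_monotone (fun n => puigSeq G (2 * n)) (fun i j h => puig_even_mono h)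
  obtain ⟨k2, hk2⟩ := exists_const_of_antitone (fun n => puigSeq G (2 * n + 1)) (fun i j h => puig_odd_anti h)
  have hk1' : ∀ m, k1 ≤ m → puigSeq G (2 * m) = puigSeq G (2 * k1) := hk1
  have hk2' : ∀ m, k2 ≤ m → puigSeq G (2 * m + 1) = puigSeq G (2 * k2 + 1) := hk2
  refine ⟨max k1 k2, fun n hn => ⟨?_, ?_⟩⟩
  · apply le_antisymm
    · exact le_iSup (fun n => puigSeq G (2 * n)) n
    · apply iSup_le
      intro m
      rw [hk1' n ((le_max_left _ _).trans hn), ← hk1' (max k1 m) (le_max_left _ _)]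
      exact puig_even_mono (le_max_right k1 m)
  · apply le_antisymm
    · apply le_iInf
      intro m
      rw [hk2' n ((le_max_right _ _).trans hn), ← hk2' (max k2 m) (le_max_left _ _)]
      exact puig_odd_anti (le_max_right k2 m)
    · exact iInf_le (fun n => puigSeq G (2 * n + 1)) n

theorem exists_selfcent [Finite G] [Group.IsNilpotent G] : ∃ A : Subgroup G, A.Normal ∧ IsMulCommutative A ∧ centralizer (A : Set G) = A := by
  obtain ⟨A, ⟨hAn, hAc⟩, hmax⟩ := CfsgH1.exists_maximal_of_set {A : Subgroup G | A.Normal ∧ ∀ x ∈ A, ∀ y ∈ A, x * y = y * x}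
    ⟨⊥, inferInstance, by
      intro x hx y hy
      rw [mem_bot.1 hx, mem_bot.1 hy]⟩
  haveI := hAn
  refine ⟨A, hAn, ⟨⟨fun a b => Subtype.ext (hAc a a.2 b b.2)⟩⟩, ?_⟩
  exact CfsgH1.centralizer_eq_of_max_abelian_normal hAc fun M h1 h2 h3 => hmax M ⟨h1, h2⟩ h3

theorem le_puigSeq {A : Subgroup G} (hA : A.Normal) (hc : IsMulCommutative A) (n : ℕ) : A ≤ puigSeq G (n + 1) := by
  rw [puig_succ]
  refine le_sSup ⟨hc, ?_⟩
  rw [Subgroup.normalizer_eq_top_iff.2 hA]
  exact le_top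

end CfsgH3
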