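import Cfsg.Agent.H3.OddStab
import Cfsg.Agent.S1466
import Cfsg.Agent.S1467

set_option autoImplicit false

/-! The Puig subgroup. -/

namespace CfsgH3

open Subgroup Cfsg CfsgH7
open scoped commutatorElement

section basic
variable {G : Type*} [Group G]

/-- The Puig step inside `H`. -/
def pS (H X : Subgroup G) : Subgroup G :=
  sSup {A : Subgroup G | A ≤ H ∧ IsMulCommutative A ∧ X ≤ Subgroup.normalizer (A : Set G)}

/-- The Puig series inside `H`. -/
def pSeq (H : Subgroup G) : ℕ → Subgroup G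
  | 0 => ⊥
  | n + 1 => pS H (pSeq H n)

theorem pS_anti {H X Y : Subgroup G} (h : X ≤ Y) : pS H Y ≤ pS H X :=
  sSup_le_sSup fun _ hA => ⟨hA.1, hA.2.1, h.trans hA.2.2⟩

theorem pS_le {H X : Subgroup G} : pS H X ≤ H := sSup_le fun _ hA => hA.1

theorem pS_mono {H K X : Subgroup G} (h : H ≤ K) : pS H X ≤ pS K X :=
  sSup_le_sSup fun _ hA => ⟨hA.1.trans h, hA.2⟩

theorem pS_eq {H K X : Subgroup G} (h : H ≤ K) (h' : pS K X ≤ H) : pS H X = pS K X := by
  apply le_antisymm (pS_mono h)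
  exact sSup_le fun A hA => le_sSup ⟨(le_sSup (α := Subgroup G) hA).trans h', hA.2⟩

theorem comm_map_iff {Q : Type*} [Group Q] (f : Q →* G) (hf : Function.Injective f) (A : Subgroup Q) :
    IsMulCommutative (A.map f) ↔ IsMulCommutative A := by
  rw [isMulComm_iff, isMulComm_iff]
  constructor
  · intro h a ha b hb
    apply hf
    rw [map_mul, map_mul]
    exact h _ ⟨a, ha, rfl⟩ _ ⟨b, hb, rfl⟩
  · rintro h _ ⟨a, ha, rfl⟩ _ ⟨b, hb, rfl⟩
    rw [← map_mul, h a ha b hb, map_mul]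

theorem le_normalizer_map_iff {Q : Type*} [Group Q] (f : Q →* G) (hf : Function.Injective f) (A X : Subgroup Q) :
    X.map f ≤ Subgroup.normalizer ((A.map f : Subgroup G) : Set G) ↔ X ≤ Subgroup.normalizer (A : Set Q) := by
  constructor
  · intro h x hx
    rw [Subgroup.mem_normalizer_iff]
    intro a
    have h1 := Subgroup.mem_normalizer_iff.1 (h ⟨x, hx, rfl⟩) (f a)
    have h2 : ∀ b : Q, f b ∈ A.map f ↔ b ∈ A := by
      intro b
      constructor
      · rintro ⟨c, hc, hcb⟩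
        rwa [← hf hcb]
      · intro hb
        exact ⟨b, hb, rfl⟩
    rw [← map_inv, ← map_mul, ← map_mul, h2, h2] at h1
    exact h1
  · rintro h _ ⟨x, hx, rfl⟩
    exact Subgroup.le_normalizer_map f ⟨x, h hx, rfl⟩

theorem exists_map_of_le {Q : Type*} [Group Q] (f : Q →* G) {H : Subgroup Q} {B : Subgroup G} (hB : B ≤ H.map f) :
    ∃ B' : Subgroup Q, B'.map f = B ∧ ((∀ x, f x ∈ B → x ∈ B')) := by
  refine ⟨B.comap f, ?_, fun x hx => hx⟩
  rw [Subgroup.map_comap_eq, inf_eq_right.mpr]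
  exact hB.trans (Subgroup.map_le_range f H)

theorem map_pS {Q : Type*} [Group Q] (f : Q →* G) (hf : Function.Injective f) (H X : Subgroup Q) :
    (pS H X).map f = pS (H.map f) (X.map f) := by
  apply le_antisymm
  · rw [Subgroup.map_le_iff_le_comap]
    refine sSup_le fun A hA => ?_
    rw [← Subgroup.map_le_iff_le_comap]
    exact le_sSup ⟨Subgroup.map_mono hA.1, (comm_map_iff f hf A).2 hA.2.1, (le_normalizer_map_iff f hf A X).2 hA.2.2⟩
  · refine sSup_le fun B hB => ?_
    obtain ⟨B', rfl, -⟩ := exists_map_of_le f hB.1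
    exact Subgroup.map_mono (le_sSup ⟨(Subgroup.map_le_map_iff_of_injective hf).mp hB.1, (comm_map_iff f hf B').1 hB.2.1,
      (le_normalizer_map_iff f hf B' X).1 hB.2.2⟩)

theorem map_pSeq {Q : Type*} [Group Q] (f : Q →* G) (hf : Function.Injective f) (H : Subgroup Q) (n : ℕ) :
    (pSeq H n).map f = pSeq (H.map f) n := by
  induction n with
  | zero => exact Subgroup.map_bot f
  | succ n ih => rw [pSeq, pSeq, map_pS f hf, ih]

theorem puigStep_eq {G : Type*} [Group G] (X : Subgroup G) : puigStep X = pS ⊤ X := by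
  unfold puigStep pS
  congr 1
  ext A
  exact ⟨fun h => ⟨le_top, h⟩, fun h => h.2⟩

theorem puigSeq_eq {G : Type*} [Group G] (n : ℕ) : puigSeq G n = pSeq ⊤ n := by
  induction n with
  | zero => rfl
  | succ n ih => rw [puigSeq, pSeq, ih, puigStep_eq]

theorem map_puigSeq (H : Subgroup G) (n : ℕ) : (puigSeq ↥H n).map H.subtype = pSeq H n := by
  rw [puigSeq_eq, map_pSeq _ H.subtype_injective, ← MonoidHom.range_eq_map, Subgroup.range_subtype]

/-- The lower Puig subgroup. -/
def pLow (H : Subgroup G) : Subgroup G := (puigLower ↥H).map H.subtype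
/-- The Puig subgroup. -/
def pUp (H : Subgroup G) : Subgroup G := (puigSubgroup ↥H).map H.subtype

theorem map_inj_iInf {Q : Type*} [Group Q] (f : Q →* G) (hf : Function.Injective f) (A : ℕ → Subgroup Q) :
    (⨅ n, A n).map f = ⨅ n, (A n).map f := by
  apply le_antisymm
  · exact le_iInf fun n => Subgroup.map_mono (iInf_le _ n)
  · intro y hy
    rw [Subgroup.mem_iInf] at hy
    obtain ⟨x, -, rfl⟩ := hy 0
    refine ⟨x, ?_, rfl⟩
    refine Subgroup.mem_iInf.2 fun n => ?_
    obtain ⟨z, hz, hzx⟩ := hy n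
    rwa [← hf hzx]

theorem pLow_eq (H : Subgroup G) : pLow H = ⨆ n, pSeq H (2 * n) := by
  unfold pLow puigLower
  rw [Subgroup.map_iSup]
  simp only [map_puigSeq]

theorem pUp_eq (H : Subgroup G) : pUp H = ⨅ n, pSeq H (2 * n + 1) := by
  unfold pUp puigSubgroup
  rw [map_inj_iInf _ H.subtype_injective]
  simp only [map_puigSeq]

theorem pUp_map {Q : Type*} [Group Q] (f : Q →* G) (hf : Function.Injective f) (H : Subgroup Q) :
    (pUp H).map f = pUp (H.map f) := by
  rw [pUp_eq, pUp_eq, map_inj_iInf f hf]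
  simp only [map_pSeq f hf]

theorem pSeq_le_pLow (H : Subgroup G) (n : ℕ) : pSeq H (2 * n) ≤ pLow H := by
  rw [pLow_eq]; exact le_iSup (fun n => pSeq H (2 * n)) n

theorem pUp_le_pSeq (H : Subgroup G) (n : ℕ) : pUp H ≤ pSeq H (2 * n + 1) := by
  rw [pUp_eq]; exact iInf_le (fun n => pSeq H (2 * n + 1)) n

theorem map_puigStep (H : Subgroup G) (X : Subgroup ↥H) : (puigStep X).map H.subtype = pS H (X.map H.subtype) := by
  rw [puigStep_eq, map_pS _ H.subtype_injective, ← MonoidHom.range_eq_map, Subgroup.range_subtype]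

end basic

section fin
universe u
variable {G : Type u} [Group G] [Finite G]

theorem pLow_le_pUp (H : Subgroup G) : pLow H ≤ pUp H :=
  Subgroup.map_mono (Cfsg.Agent.S1467.result (G := ↥H)).2.2.2.2.1

theorem pS_pLow (H : Subgroup G) : pS H (pLow H) = pUp H := by
  unfold pLow pUp
  rw [← map_puigStep, (Cfsg.Agent.S1467.result (G := ↥H)).2.2.2.2.2.1]

theorem pS_pUp (H : Subgroup G) : pS H (pUp H) = pLow H := by
  unfold pLow pUp
  rw [← map_puigStep, (Cfsg.Agent.S1467.result (G := ↥H)).2.2.2.2.2.2]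

theorem pUp_le (H : Subgroup G) : pUp H ≤ H := by
  unfold pUp
  exact Subgroup.map_subtype_le _

theorem cent_transfer {H : Subgroup G} {Y : Subgroup ↥H} (h : Subgroup.centralizer (Y : Set ↥H) ≤ Y) :
    H ⊓ Subgroup.centralizer ((Y.map H.subtype : Subgroup G) : Set G) ≤ Y.map H.subtype := by
  intro x hx
  obtain ⟨h1, h2⟩ := Subgroup.mem_inf.1 hx
  refine ⟨⟨x, h1⟩, h ?_, rfl⟩
  rw [Subgroup.mem_centralizer_iff]
  intro y hy
  exact Subtype.ext (Subgroup.mem_centralizer_iff.1 h2 y ⟨y, hy, rfl⟩)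

theorem cent_pSeq {p : ℕ} [Fact p.Prime] {H : Subgroup G} (hH : IsPGroup p H) {i : ℕ} (hi : 0 < i) :
    H ⊓ Subgroup.centralizer ((pSeq H i : Subgroup G) : Set G) ≤ pSeq H i := by
  by_cases h : H = ⊥
  · rw [h, bot_inf_eq]; exact bot_le
  · haveI := (Subgroup.nontrivial_iff_ne_bot H).2 h
    rw [← map_puigSeq]
    exact cent_transfer ((Cfsg.Agent.S1466.result (R := ↥H) p hH).1 i hi).2

theorem cent_pLow {p : ℕ} [Fact p.Prime] {H : Subgroup G} (hH : IsPGroup p H) :
    H ⊓ Subgroup.centralizer ((pLow H : Subgroup G) : Set G) ≤ pLow H := by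
  by_cases h : H ≠ ⊥
  · haveI := (Subgroup.nontrivial_iff_ne_bot H).2 h
    exact cent_transfer (Cfsg.Agent.S1466.result (R := ↥H) p hH).2.1.2
  · rw [not_not] at h
    have : H ⊓ Subgroup.centralizer ((pLow H : Subgroup G) : Set G) ≤ ⊥ := inf_le_left.trans h.le
    exact this.trans bot_le

/-- A subgroup between `L(S)` and `S` has the same Puig subgroup. -/
theorem pUp_eq_of_le {R S : Subgroup G} (h1 : pUp S ≤ R) (h2 : R ≤ S) : pUp R = pUp S := by
  have hL : pLow S ≤ R := (pLow_le_pUp S).trans h1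
  have e1 : pS R (pLow S) = pUp S := by
    rw [← pS_pLow S] at h1 ⊢
    exact pS_eq h2 h1
  have e2 : pS R (pUp S) = pLow S := by
    rw [← pS_pUp S] at hL ⊢
    exact pS_eq h2 hL
  -- first comparison
  have a1 : ∀ n, pSeq S (2 * n) ≤ pSeq R (2 * n) ∧ pSeq R (2 * n + 1) ≤ pSeq S (2 * n + 1) := by
    intro n
    induction n with
    | zero =>
      refine ⟨bot_le, ?_⟩
      show pS R ⊥ ≤ pS S ⊥
      exact pS_mono h2
    | succ n ih =>
      have b1 : pSeq S (2 * (n + 1)) ≤ pSeq R (2 * (n + 1)) := by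
        show pS S (pSeq S (2 * n + 1)) ≤ pS R (pSeq R (2 * n + 1))
        have c1 : pS S (pSeq S (2 * n + 1)) ≤ R := (pSeq_le_pLow S (n + 1)).trans hL
        rw [← pS_eq h2 c1]
        exact pS_anti ih.2
      refine ⟨b1, ?_⟩
      show pS R (pSeq R (2 * (n + 1))) ≤ pS S (pSeq S (2 * (n + 1)))
      exact (pS_mono h2).trans (pS_anti b1)
  have a2 : ∀ n, pSeq R (2 * n) ≤ pLow S ∧ pUp S ≤ pSeq R (2 * n + 1) := by
    intro n
    induction n with
    | zero =>
      refine ⟨bot_le, ?_⟩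
      show pUp S ≤ pS R ⊥
      rw [← e1]
      exact pS_anti bot_le
    | succ n ih =>
      have b1 : pSeq R (2 * (n + 1)) ≤ pLow S := by
        show pS R (pSeq R (2 * n + 1)) ≤ pLow S
        rw [← e2]
        exact pS_anti ih.2
      refine ⟨b1, ?_⟩
      show pUp S ≤ pS R (pSeq R (2 * (n + 1)))
      conv_lhs => rw [← e1]
      exact pS_anti b1
  apply le_antisymm
  · rw [pUp_eq, pUp_eq]
    exact iInf_mono fun n => (a1 n).2
  · rw [pUp_eq R]
    exact le_iInf fun n => (a2 n).2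

theorem pSeq_normal {H : Subgroup G} (hH : H.Normal) (n : ℕ) : (pSeq H n).Normal := by
  rw [← Subgroup.normalizer_eq_top_iff, eq_top_iff]
  intro g _
  rw [mem_normalizer_iff_cj]
  have h1 : cj g H = H := cj_of_mem_normalizer (by rw [Subgroup.normalizer_eq_top_iff.mpr hH]; trivial)
  have h2 := map_pSeq (MulAut.conj g).toMonoidHom (MulAut.conj g).injective H n
  have h3 : H.map (MulAut.conj g).toMonoidHom = H := h1
  rw [h3] at h2
  exact h2

theorem normalizer_le_pUp (H : Subgroup G) :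
    Subgroup.normalizer (H : Set G) ≤ Subgroup.normalizer ((pUp H : Subgroup G) : Set G) := by
  intro g hg
  rw [mem_normalizer_iff_cj] at hg ⊢
  have h2 := pUp_map (MulAut.conj g).toMonoidHom (MulAut.conj g).injective H
  have h3 : H.map (MulAut.conj g).toMonoidHom = H := hg
  rw [h3] at h2
  exact h2

variable {p : ℕ} [hp : Fact p.Prime]

theorem puig_compare (hst : IsNormalizerPStable p G) (hc : Subgroup.centralizer (pCore p G : Set G) ≤ pCore p G) (S : Sylow p G) :
    pLow (S : Subgroup G) ≤ pLow (pCore p G) ∧ pUp (pCore p G) ≤ pUp (S : Subgroup G) := by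
  have hTn := pCore_normal' p G
  have hTp : IsPGroup p ↥(pCore p G) := CfsgH2.isPGroup_pCore p
  have hTS : pCore p G ≤ (S : Subgroup G) := pCore_le_sylow S
  have key : ∀ n, pSeq (S : Subgroup G) (2 * n) ≤ pSeq (pCore p G) (2 * n) ∧
      pSeq (pCore p G) (2 * n + 1) ≤ pSeq (S : Subgroup G) (2 * n + 1) := by
    intro n
    induction n with
    | zero =>
      refine ⟨bot_le, ?_⟩
      show pS (pCore p G) ⊥ ≤ pS (S : Subgroup G) ⊥
      exact pS_mono hTS
    | succ n ih =>
      have b1 : pSeq (S : Subgroup G) (2 * (n + 1)) ≤ pSeq (pCore p G) (2 * (n + 1)) := by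
        show pS (S : Subgroup G) (pSeq (S : Subgroup G) (2 * n + 1)) ≤ pS (pCore p G) (pSeq (pCore p G) (2 * n + 1))
        refine sSup_le fun A hA => le_sSup ⟨?_, hA.2.1, ih.2.trans hA.2.2⟩
        have hPn := pSeq_normal hTn (2 * n + 1)
        have hPT : pSeq (pCore p G) (2 * n + 1) ≤ pCore p G := pS_le
        intro a ha
        exact quad_mem_pCore hst hc (pSeq (pCore p G) (2 * n + 1)) (hTp.to_le hPT) (cent_pSeq hTp (by omega))
          (quad_of_le (isMulComm_iff.1 hA.2.1) (ih.2.trans hA.2.2) ha)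
      refine ⟨b1, ?_⟩
      show pS (pCore p G) (pSeq (pCore p G) (2 * (n + 1))) ≤ pS (S : Subgroup G) (pSeq (S : Subgroup G) (2 * (n + 1)))
      exact (pS_mono hTS).trans (pS_anti b1)
  constructor
  · rw [pLow_eq, pLow_eq]
    exact iSup_mono fun n => (key n).1
  · rw [pUp_eq, pUp_eq]
    exact iInf_mono fun n => (key n).2

/-- Centre of the Puig subgroup. -/
def zPuig (H : Subgroup G) : Subgroup G := pUp H ⊓ Subgroup.centralizer ((pUp H : Subgroup G) : Set G)

theorem zPuig_normal (hst : IsNormalizerPStable p G) (hc : Subgroup.centralizer (pCore p G : Set G) ≤ pCore p G) (S : Sylow p G) :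
    (zPuig (S : Subgroup G)).Normal := by
  have hTn := pCore_normal' p G
  have hTp : IsPGroup p ↥(pCore p G) := CfsgH2.isPGroup_pCore p
  have hTS : pCore p G ≤ (S : Subgroup G) := pCore_le_sylow S
  obtain ⟨h1, h2⟩ := puig_compare hst hc S
  have hLS : pLow (S : Subgroup G) ≤ pUp (pCore p G) := h1.trans (pLow_le_pUp _)
  set Y := zPuig (pCore p G) with hY
  set Z := zPuig (S : Subgroup G) with hZ
  have hYS : Y ≤ pLow (S : Subgroup G) := by
    refine le_trans (le_inf ?_ ?_) (cent_pLow S.isPGroup')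
    · exact inf_le_left.trans ((pUp_le _).trans hTS)
    · exact inf_le_right.trans (Subgroup.centralizer_le hLS)
  have hZS : Z ≤ pLow (S : Subgroup G) := by
    refine le_trans (le_inf ?_ ?_) (cent_pLow S.isPGroup')
    · exact inf_le_left.trans (pUp_le _)
    · exact inf_le_right.trans (Subgroup.centralizer_le (pLow_le_pUp _))
  have hZY : Z ≤ Y := le_inf (hZS.trans hLS) (inf_le_right.trans (Subgroup.centralizer_le h2))
  have hYn : Y.Normal := by
    rw [← Subgroup.normalizer_eq_top_iff, eq_top_iff]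
    have h3 : (⊤ : Subgroup G) ≤ Subgroup.normalizer ((pUp (pCore p G) : Subgroup G) : Set G) := by
      refine le_trans ?_ (normalizer_le_pUp _)
      rw [Subgroup.normalizer_eq_top_iff.mpr hTn]
    have h4 := h3.trans (normalizer_le_cent _)
    intro g hg
    rw [mem_normalizer_iff_cj, hY, zPuig, cj_inf, cj_of_mem_normalizer (h3 hg), cj_of_mem_normalizer (h4 hg)]
  have hYp : IsPGroup p ↥Y := hTp.to_le (inf_le_left.trans (pUp_le _))
  have hYst := pStableOn_of_normalizer hst Y hYp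
  -- the normal subgroup `X`
  let π : G →* G ⧸ Subgroup.centralizer (Y : Set G) := QuotientGroup.mk' _
  have hn : (pCore p (G ⧸ Subgroup.centralizer (Y : Set G))).Normal := pCore_normal' p _
  set X := (pCore p (G ⧸ Subgroup.centralizer (Y : Set G))).comap π with hX
  have hXn : X.Normal := hn.comap π
  have hXp : ∀ k ∈ X, (orderOf k).Coprime p → k ∈ Subgroup.centralizer (Y : Set G) := by
    intro k hk hkp
    have h2 : π k ∈ pCore p (G ⧸ Subgroup.centralizer (Y : Set G)) := hk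
    obtain ⟨n, hn'⟩ := isPGroup_pow_mem (CfsgH2.isPGroup_pCore p) h2
    have h3 : π k = 1 := CfsgH3.eq_one_of_coprime_of_pow (Nat.Coprime.coprime_dvd_left (orderOf_map_dvd π k) hkp) hn'
    exact (QuotientGroup.eq_one_iff k).mp h3
  have hUX : pUp (S : Subgroup G) ≤ X := by
    rw [← pS_pLow]
    refine sSup_le fun A hA a ha => ?_
    exact hYst a (quad_of_le (isMulComm_iff.1 hA.2.1) (hYS.trans hA.2.2) ha)
  have hUR : pUp ((S : Subgroup G) ⊓ X) = pUp (S : Subgroup G) :=
    pUp_eq_of_le (le_inf (pUp_le _) hUX) inf_le_left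
  have hSyl : IsSyl p ((S : Subgroup G) ⊓ X) X :=
    (isSyl_of_sylow S).inf le_top (by rw [Subgroup.normalizer_eq_top_iff.mpr hXn])
  have hfrat : ∀ g : G, ∃ n ∈ Subgroup.normalizer (((S : Subgroup G) ⊓ X : Subgroup G) : Set G), ∃ l ∈ X, g = n * l := by
    intro g
    obtain ⟨l, hl, y, hy, hgy⟩ := hSyl.frattini (H := ⊤) le_top (by rw [Subgroup.normalizer_eq_top_iff.mpr hXn]) (x := g⁻¹) trivial
    refine ⟨y⁻¹, inv_mem (Subgroup.mem_inf.mp hy).2, l⁻¹, inv_mem hl, ?_⟩
    rw [← mul_inv_rev, ← hgy, inv_inv]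
  have hNZ : ∀ K : Subgroup G, K ≤ Subgroup.normalizer ((pUp (S : Subgroup G) : Subgroup G) : Set G) →
      K ≤ Subgroup.normalizer (Z : Set G) := by
    intro K hK g hg
    have h4 := hK.trans (normalizer_le_cent _)
    rw [mem_normalizer_iff_cj, hZ, zPuig, cj_inf, cj_of_mem_normalizer (hK hg), cj_of_mem_normalizer (h4 hg)]
  have hXZ : X ≤ Subgroup.normalizer (Z : Set G) := by
    have hCn : (Subgroup.centralizer (Y : Set G)).Normal := inferInstance
    refine (le_sup_sylow hXn hCn S hXp).trans (sup_le ?_ ?_)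
    · intro c hc
      apply mem_normalizer_of_cj_le
      rintro _ ⟨w, hw, rfl⟩
      have h3 := Subgroup.mem_centralizer_iff.mp hc w (hZY hw)
      change c * w * c⁻¹ ∈ Z
      rw [← h3, mul_inv_cancel_right]; exact hw
    · exact hNZ _ (Subgroup.le_normalizer.trans (normalizer_le_pUp _))
  rw [← Subgroup.normalizer_eq_top_iff, eq_top_iff]
  intro g _
  obtain ⟨n, hn, l, hl, rfl⟩ := hfrat g
  refine mul_mem (hNZ _ ?_ hn) (hXZ hl)
  rw [← hUR]
  exact normalizer_le_pUp _

omit [Finite G] hp in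
theorem zPuig_eq (H : Subgroup G) :
    ((Subgroup.center ↥(Cfsg.puigSubgroup ↥H)).map (Cfsg.puigSubgroup ↥H).subtype).map H.subtype = zPuig H := by
  unfold zPuig pUp
  ext x
  constructor
  · rintro ⟨_, ⟨y, hy, rfl⟩, rfl⟩
    refine Subgroup.mem_inf.2 ⟨⟨y, y.2, rfl⟩, ?_⟩
    rw [Subgroup.mem_centralizer_iff]
    rintro _ ⟨z, hz, rfl⟩
    have h1 := Subgroup.mem_center_iff.1 hy ⟨z, hz⟩
    have h2 : z * (y : ↥H) = (y : ↥H) * z := congrArg Subtype.val h1
    exact congrArg Subtype.val h2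
  · intro hx
    obtain ⟨⟨y, hy, rfl⟩, h2⟩ := Subgroup.mem_inf.1 hx
    refine ⟨y, ⟨⟨y, hy⟩, Subgroup.mem_center_iff.2 fun z => ?_, rfl⟩, rfl⟩
    apply Subtype.ext
    apply Subtype.ext
    exact Subgroup.mem_centralizer_iff.1 h2 _ ⟨z, z.2, rfl⟩

omit [Finite G] hp in
theorem zPuig_map {Q : Type*} [Group Q] (f : Q →* G) (hf : Function.Injective f) (H : Subgroup Q) :
    (zPuig H).map f = zPuig (H.map f) := by
  unfold zPuig
  rw [← pUp_map f hf]
  ext y
  constructor
  · rintro ⟨x, hx, rfl⟩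
    obtain ⟨h1, h2⟩ := Subgroup.mem_inf.1 hx
    refine Subgroup.mem_inf.2 ⟨⟨x, h1, rfl⟩, ?_⟩
    rw [Subgroup.mem_centralizer_iff]
    rintro _ ⟨a, ha, rfl⟩
    rw [← map_mul, ← map_mul, Subgroup.mem_centralizer_iff.1 h2 a ha]
  · intro hy
    obtain ⟨⟨x, hx, rfl⟩, h2⟩ := Subgroup.mem_inf.1 hy
    refine ⟨x, Subgroup.mem_inf.2 ⟨hx, ?_⟩, rfl⟩
    rw [Subgroup.mem_centralizer_iff]
    intro a ha
    apply hf
    rw [map_mul, map_mul]
    exact Subgroup.mem_centralizer_iff.1 h2 (f a) ⟨a, ha, rfl⟩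

theorem sup_normalizer_eq_top (Z N : Subgroup G) [hNn : N.Normal] (hZ : IsPGroup p Z) (hN : (Nat.card N).Coprime p)
    (hn : (Z ⊔ N).Normal) : N ⊔ Subgroup.normalizer (Z : Set G) = ⊤ := by
  have hSyl : IsSyl p Z (Z ⊔ N) := by
    refine ⟨le_sup_left, hZ, fun hd => ?_⟩
    have h1 := CfsgH1.card_sup_mul_card_inf (H := Z) (K := N) (by rw [Subgroup.normalizer_eq_top_iff.mpr hNn]; exact le_top)
    have h2 : Nat.card Z * Z.relIndex (Z ⊔ N) = Nat.card ↥(Z ⊔ N) := by
      have := Subgroup.relIndex_mul_relIndex (⊥ : Subgroup G) Z (Z ⊔ N) bot_le le_sup_left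
      rwa [Subgroup.relIndex_bot_left, Subgroup.relIndex_bot_left] at this
    rw [← h2, mul_assoc] at h1
    have h3 := Nat.eq_of_mul_eq_mul_left Nat.card_pos h1
    have h4 : Z.relIndex (Z ⊔ N) ∣ Nat.card N := ⟨_, h3.symm⟩
    have h5 : p ∣ Nat.card N := hd.trans h4
    exact (hp.out.coprime_iff_not_dvd.1 hN.symm) h5
  rw [eq_top_iff]
  intro g _
  obtain ⟨l, hl, y, hy, hgy⟩ := hSyl.frattini (H := ⊤) le_top (by rw [Subgroup.normalizer_eq_top_iff.mpr hn]) (x := g) trivial
  rw [hgy]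
  refine mul_mem ?_ (Subgroup.mem_sup_right (Subgroup.mem_inf.1 hy).2)
  have h6 : Z ⊔ N ≤ N ⊔ Subgroup.normalizer (Z : Set G) := sup_le (Subgroup.le_normalizer.trans le_sup_right) le_sup_left
  exact h6 hl

end fin

end CfsgH3
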