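import Cfsg.Agent.H1.PLen
import Cfsg.Agent.H3.Puig2
import Cfsg.Agent.H1.SZ3

set_option autoImplicit false

/-! Groups of `p`-length one and the coprime extension lemma. -/

namespace CfsgH3

open Subgroup Cfsg
open scoped commutatorElement Pointwise

universe u
variable {G : Type u} [Group G] [Finite G] {p : ℕ}

theorem UU_one_eq [hp : Fact p.Prime] : CfsgH1.UU p G 1 = pPrimeCore p G := by
  have h0 : CfsgH1.UU p G 1 = (pPrimeCore p (G ⧸ CfsgH1.UU p G 0)).comap (QuotientGroup.mk' (CfsgH1.UU p G 0)) := CfsgH1.UU_odd 0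
  have hinj : Function.Injective (QuotientGroup.mk' (CfsgH1.UU p G 0)) := by
    rw [← MonoidHom.ker_eq_bot_iff, QuotientGroup.ker_mk']
    rfl
  have hn : (CfsgH1.UU p G 1).Normal := inferInstance
  apply le_antisymm
  · apply CfsgH2.le_pPrimeCore hn
    rw [h0]
    exact (CfsgH2.coprime_card_pPrimeCore p).coprime_dvd_left (Subgroup.card_comap_dvd_of_injective _ _ hinj)
  · rw [h0, ← Subgroup.map_le_iff_le_comap]
    refine CfsgH2.le_pPrimeCore (Subgroup.Normal.map inferInstance _ (QuotientGroup.mk'_surjective _)) ?_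
    exact (CfsgH2.coprime_card_pPrimeCore p).coprime_dvd_left (Subgroup.card_map_dvd _ _)

theorem plen_one [hp : Fact p.Prime] (h : PLengthLE p 1 G) (S : Sylow p G) : ((S : Subgroup G) ⊔ pPrimeCore p G).Normal := by
  set N := CfsgH1.UU p G 1 with hN
  have hNn : N.Normal := inferInstance
  have h2 : CfsgH1.UU p G 2 = (pCore p (G ⧸ N)).comap (QuotientGroup.mk' N) := CfsgH1.UU_even 0
  have h3 : (pPrimeCore p (G ⧸ CfsgH1.UU p G 2)).comap (QuotientGroup.mk' (CfsgH1.UU p G 2)) = ⊤ := by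
    rw [← show CfsgH1.UU p G 3 = _ from CfsgH1.UU_odd 1]
    exact h
  have h4 : (S : Subgroup G) ≤ CfsgH1.UU p G 2 := by
    intro s hs
    have h5 : QuotientGroup.mk' (CfsgH1.UU p G 2) s ∈ pPrimeCore p (G ⧸ CfsgH1.UU p G 2) := by
      rw [← Subgroup.mem_comap, h3]; trivial
    obtain ⟨k, hk⟩ := S.isPGroup' ⟨s, hs⟩
    have hk' : s ^ p ^ k = 1 := congrArg Subtype.val hk
    have h6 : QuotientGroup.mk' (CfsgH1.UU p G 2) s = 1 := by
      refine CfsgH3.eq_one_of_coprime_of_pow (p := p) (k := k) ?_ (by rw [← map_pow, hk', map_one])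
      have h7 : orderOf (⟨_, h5⟩ : ↥(pPrimeCore p (G ⧸ CfsgH1.UU p G 2))) ∣ _ := _root_.orderOf_dvd_natCard _
      rw [← Subgroup.orderOf_coe] at h7
      exact (CfsgH2.coprime_card_pPrimeCore (G := G ⧸ CfsgH1.UU p G 2) p).coprime_dvd_left h7
    exact (QuotientGroup.eq_one_iff s).1 h6
  have hsurj := QuotientGroup.mk'_surjective N
  have h5 : (S : Subgroup G).map (QuotientGroup.mk' N) = pCore p (G ⧸ N) := by
    apply le_antisymm
    · rw [Subgroup.map_le_iff_le_comap, ← h2]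
      exact h4
    · exact pCore_le_sylow (S.mapSurjective hsurj)
  have h6 : ((pCore p (G ⧸ N)).comap (QuotientGroup.mk' N)).Normal := inferInstance
  rw [← h5, Subgroup.comap_map_eq, QuotientGroup.ker_mk', hN, UU_one_eq] at h6
  exact h6

/-- Conjugation into `U` modulo a coprime normal subgroup. -/
theorem coprime_control [hs : Group.IsSolvable G] {K U H : Subgroup G} [hK : K.Normal] (hKU : K ⊔ U = ⊤) (hH : H ≤ U)
    (hcop : (Nat.card H).Coprime (Nat.card K)) (g : G) (hg : H.map (MulAut.conj g).toMonoidHom ≤ U) :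
    ∃ u ∈ U, ∃ c ∈ K ⊓ Subgroup.centralizer (H : Set G), g = u * c := by
  have h1 : g ∈ U ⊔ K := by rw [sup_comm, hKU]; trivial
  obtain ⟨u₀, hu₀, k, hk, rfl⟩ := Subgroup.mem_sup_of_normal_right.1 h1
  set N := K ⊓ U with hN
  have hkH : ∀ h ∈ H, k * h * k⁻¹ ∈ U := by
    intro h hh
    have h2 : (u₀ * k) * h * (u₀ * k)⁻¹ ∈ U := hg ⟨h, hh, rfl⟩
    have h3 := mul_mem (mul_mem (inv_mem hu₀) h2) hu₀
    have e : u₀⁻¹ * (u₀ * k * h * (u₀ * k)⁻¹) * u₀ = k * h * k⁻¹ := by group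
    rwa [e] at h3
  have hcomm : ∀ h ∈ H, k * h * k⁻¹ * h⁻¹ ∈ N := by
    intro h hh
    refine Subgroup.mem_inf.2 ⟨?_, mul_mem (hkH h hh) (inv_mem (hH hh))⟩
    have := hK.conj_mem k⁻¹ (inv_mem hk) h
    have e : k * h * k⁻¹ * h⁻¹ = k * (h * k⁻¹ * h⁻¹) := by group
    rw [e]
    exact mul_mem hk this
  have hHN : H ≤ normalizer (N : Set G) := by
    intro h hh
    rw [Subgroup.mem_normalizer_iff]
    intro n
    constructor
    · intro hn
      exact Subgroup.mem_inf.2 ⟨hK.conj_mem _ (Subgroup.mem_inf.1 hn).1 h, mul_mem (mul_mem (hH hh) (Subgroup.mem_inf.1 hn).2) (inv_mem (hH hh))⟩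
    · intro hn
      have h2 := hK.conj_mem _ (Subgroup.mem_inf.1 hn).1 h⁻¹
      have h3 := mul_mem (mul_mem (inv_mem (hH hh)) (Subgroup.mem_inf.1 hn).2) (hH hh)
      have e : h⁻¹ * (h * n * h⁻¹) * h = n := by group
      have e' : h⁻¹ * (h * n * h⁻¹) * h⁻¹⁻¹ = n := by group
      rw [e] at h3
      rw [e'] at h2
      exact Subgroup.mem_inf.2 ⟨h2, h3⟩
  have hUN : U ≤ normalizer (N : Set G) := by
    intro h hh
    rw [Subgroup.mem_normalizer_iff]
    intro n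
    constructor
    · intro hn
      exact Subgroup.mem_inf.2 ⟨hK.conj_mem _ (Subgroup.mem_inf.1 hn).1 h, mul_mem (mul_mem (hh) (Subgroup.mem_inf.1 hn).2) (inv_mem (hh))⟩
    · intro hn
      have h2 := hK.conj_mem _ (Subgroup.mem_inf.1 hn).1 h⁻¹
      have h3 := mul_mem (mul_mem (inv_mem (hh)) (Subgroup.mem_inf.1 hn).2) (hh)
      have e : h⁻¹ * (h * n * h⁻¹) * h = n := by group
      have e' : h⁻¹ * (h * n * h⁻¹) * h⁻¹⁻¹ = n := by group
      rw [e] at h3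
      rw [e'] at h2
      exact Subgroup.mem_inf.2 ⟨h2, h3⟩
  have hH'U : MulAut.conj k • H ≤ U := by
    rintro _ ⟨h, hh, rfl⟩
    exact hkH h hh
  have hcopN : (Nat.card N).Coprime (Nat.card H) := (hcop.symm).coprime_dvd_left (Subgroup.card_dvd_of_le inf_le_left)
  have he : N ⊔ H = N ⊔ MulAut.conj k • H := by
    apply le_antisymm
    · refine sup_le le_sup_left ?_
      intro h hh
      have h2 : k * h * k⁻¹ ∈ N ⊔ MulAut.conj k • H := Subgroup.mem_sup_right ⟨h, hh, rfl⟩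
      have h3 : k * h * k⁻¹ * h⁻¹ ∈ N ⊔ MulAut.conj k • H := Subgroup.mem_sup_left (hcomm h hh)
      have e : h = (k * h * k⁻¹ * h⁻¹)⁻¹ * (k * h * k⁻¹) := by group
      rw [e]
      exact mul_mem (inv_mem h3) h2
    · refine sup_le le_sup_left ?_
      rintro _ ⟨h, hh, rfl⟩
      have h2 : k * h * k⁻¹ * h⁻¹ ∈ N ⊔ H := Subgroup.mem_sup_left (hcomm h hh)
      have e : k * h * k⁻¹ = (k * h * k⁻¹ * h⁻¹) * h := by group
      show k * h * k⁻¹ ∈ N ⊔ H
      rw [e]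
      exact mul_mem h2 (Subgroup.mem_sup_right hh)
  have hd : N ⊓ MulAut.conj k • H = ⊥ := by
    apply CfsgH1.inf_eq_bot_of_coprime
    rw [CfsgH1.card_conj_smul]
    exact hcopN
  obtain ⟨w, hw, hwH⟩ := CfsgH1.sz_conj_internal hHN (hH'U.trans hUN) hcopN (Or.inr inferInstance) he hd
  obtain ⟨hwK, hwU⟩ := Subgroup.mem_inf.1 hw
  refine ⟨u₀ * w, mul_mem hu₀ hwU, w⁻¹ * k, Subgroup.mem_inf.2 ⟨mul_mem (inv_mem hwK) hk, ?_⟩, by group⟩
  rw [Subgroup.mem_centralizer_iff]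
  intro h hh
  have h2 : k * h * k⁻¹ ∈ MulAut.conj w • H := by rw [hwH]; exact ⟨h, hh, rfl⟩
  rw [CfsgH1.mem_conj_smul] at h2
  have h3 : (w⁻¹ * k) * h * (w⁻¹ * k)⁻¹ ∈ H := by
    have e : (w⁻¹ * k) * h * (w⁻¹ * k)⁻¹ = w⁻¹ * (k * h * k⁻¹) * w := by group
    rw [e]; exact h2
  have h4 : (w⁻¹ * k) * h * (w⁻¹ * k)⁻¹ * h⁻¹ ∈ H ⊓ K := by
    refine Subgroup.mem_inf.2 ⟨mul_mem h3 (inv_mem hh), ?_⟩
    have h5 : w⁻¹ * k ∈ K := mul_mem (inv_mem hwK) hk
    have h6 := hK.conj_mem _ (inv_mem h5) h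
    have e : (w⁻¹ * k) * h * (w⁻¹ * k)⁻¹ * h⁻¹ = (w⁻¹ * k) * (h * (w⁻¹ * k)⁻¹ * h⁻¹) := by group
    rw [e]
    exact mul_mem h5 h6
  rw [CfsgH1.inf_eq_bot_of_coprime hcop, Subgroup.mem_bot] at h4
  have h5 : (w⁻¹ * k) * h = h * (w⁻¹ * k) := by
    have := mul_eq_one_iff_eq_inv.1 h4
    rw [inv_inv] at this
    exact mul_inv_eq_iff_eq_mul.1 this
  exact h5.symm

end CfsgH3
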