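import Mathlib
import Cfsg.Agent.H3.AlpFus
import Cfsg.Prelude.Def_CaseTheorems

/-! # p-rank and p-generated cores -/

namespace CfsgH3
open Subgroup
open CfsgH1 (mem_conj_smul conj_smul_eq_self_iff card_conj_smul conj_smul_mono)
open scoped Pointwise

universe u v
variable {G : Type u} [Group G] {p k : ℕ}

theorem PRankLE.of_injective {X : Type u} [Group X] {Y : Type v} [Group Y] (f : X →* Y) (hf : Function.Injective f) (h : Cfsg.PRankLE p k Y) : 
    Cfsg.PRankLE p k X := by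
  intro A hA hAp
  have h1 : Nat.card (A.map f) = Nat.card A := (Nat.card_congr (Subgroup.equivMapOfInjective A f hf).toEquiv).symm
  rw [← h1]
  apply h
  · refine ⟨⟨?_⟩⟩
    rintro ⟨_, x, hx, rfl⟩ ⟨_, y, hy, rfl⟩
    apply Subtype.ext
    show f x * f y = f y * f x
    rw [← map_mul, ← map_mul]
    congr 1
    exact congrArg Subtype.val (hA.is_comm.comm (⟨x, hx⟩ : A) ⟨y, hy⟩)
  · rintro _ ⟨x, hx, rfl⟩
    rw [← map_pow, hAp x hx, map_one]

theorem PRankLE.of_le {X Y : Subgroup G} (hXY : X ≤ Y) (h : Cfsg.PRankLE p k Y) : Cfsg.PRankLE p k X := 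
  PRankLE.of_injective (Subgroup.inclusion hXY) (Subgroup.inclusion_injective hXY) h

theorem PRankLE.conj {X : Subgroup G} (g : G) (h : Cfsg.PRankLE p k X) : Cfsg.PRankLE p k (MulAut.conj g • X : Subgroup G) := 
  PRankLE.of_injective (Subgroup.equivSMul (MulAut.conj g) X).symm.toMonoidHom (Subgroup.equivSMul (MulAut.conj g) X).symm.injective h

theorem PRankLE.conj_iff {X : Subgroup G} (g : G) : Cfsg.PRankLE p k (MulAut.conj g • X : Subgroup G) ↔ Cfsg.PRankLE p k X := by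
  refine ⟨fun h => ?_, fun h => PRankLE.conj g h⟩
  exact PRankLE.of_injective (Subgroup.equivSMul (MulAut.conj g) X).toMonoidHom (Subgroup.equivSMul (MulAut.conj g) X).injective h

/-- witness of large rank as a subgroup of `G` -/
theorem exists_elemAb {X : Subgroup G} (h : ¬ Cfsg.PRankLE p k X) : ∃ A : Subgroup G, A ≤ X ∧ (∀ a ∈ A, ∀ b ∈ A, a * b = b * a) ∧ (∀ a ∈ A, a ^ p = 1) ∧ 
    p ^ k < Nat.card A := by
  unfold Cfsg.PRankLE at h
  push Not at h
  obtain ⟨A, hA, hAp, hAc⟩ := h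
  refine ⟨A.map X.subtype, Subgroup.map_subtype_le _, ?_, ?_, ?_⟩
  · rintro _ ⟨x, hx, rfl⟩ _ ⟨y, hy, rfl⟩
    exact congrArg (fun z : A => ((z : X) : G)) (hA.is_comm.comm (⟨x, hx⟩ : A) ⟨y, hy⟩)
  · rintro _ ⟨x, hx, rfl⟩
    exact congrArg Subtype.val (hAp x hx)
  · rwa [← Nat.card_congr (Subgroup.equivMapOfInjective A X.subtype X.subtype_injective).toEquiv]

theorem not_pRankLE_of {X A : Subgroup G} (hAX : A ≤ X) (hA : ∀ a ∈ A, ∀ b ∈ A, a * b = b * a) (hAp : ∀ a ∈ A, a ^ p = 1) (hc : p ^ k < Nat.card A) : 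
    ¬ Cfsg.PRankLE p k X := by
  intro h
  have h1 := PRankLE.of_le hAX h
  have h2 := h1 ⊤ ⟨⟨fun x y => Subtype.ext (Subtype.ext (hA _ x.1.2 _ y.1.2))⟩⟩ (fun a _ => Subtype.ext (hAp _ a.2))
  rw [Subgroup.card_top] at h2
  omega

end CfsgH3
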