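import Mathlib
import Cfsg.Prelude.Def_RootSubgroups
import Cfsg.Agent.H7.Syl

set_option autoImplicit false
open Cfsg

namespace CfsgH3.R1

open CfsgH7 (cj)

variable {G : Type*} [Group G] {A B : Subgroup G}

theorem cj_cancel (g : G) (A : Subgroup G) : cj g (cj g⁻¹ A) = A := by
  rw [← CfsgH7.cj_mul, mul_inv_cancel, CfsgH7.cj_one]

theorem cj_cancel' (g : G) (A : Subgroup G) : cj g⁻¹ (cj g A) = A := by
  rw [← CfsgH7.cj_mul, inv_mul_cancel, CfsgH7.cj_one]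

theorem ex_b (h : IsRankOnePair A B) {a : G} (ha : a ∈ A) (ha1 : a ≠ 1) : ∃ b ∈ B, b ≠ 1 ∧ cj b⁻¹ A = cj a⁻¹ B :=
  h.cond_left a ha ha1

theorem ex_a (h : IsRankOnePair A B) {b : G} (hb : b ∈ B) (hb1 : b ≠ 1) : ∃ a ∈ A, a ≠ 1 ∧ cj b⁻¹ A = cj a⁻¹ B := by
  obtain ⟨a, ha, ha1, e⟩ := h.cond_right b hb hb1
  exact ⟨a, ha, ha1, e.symm⟩

theorem A_norm (h : IsRankOnePair A B) {a : G} (ha : a ∈ A) (hn : cj a B = B) : a = 1 := by
  by_contra ha1
  obtain ⟨b, hb, hb1, e⟩ := ex_b h ha ha1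
  have h1 : cj a⁻¹ B = B := by
    nth_rewrite 1 [← hn]; exact cj_cancel' a B
  rw [h1] at e
  apply h.ne
  have h2 : cj b (cj b⁻¹ A) = cj b B := by rw [e]
  rwa [cj_cancel, CfsgH7.cj_of_mem hb] at h2

theorem B_norm (h : IsRankOnePair A B) {b : G} (hb : b ∈ B) (hn : cj b A = A) : b = 1 :=
  A_norm (RankOnePair_symm h) hb hn

theorem A_inf (h : IsRankOnePair A B) : A ⊓ Subgroup.normalizer (B : Set G) = ⊥ := by
  rw [eq_bot_iff]
  intro a ha
  exact A_norm h ha.1 (CfsgH7.mem_normalizer_iff_cj.1 ha.2)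

theorem A_ne_bot (h : IsRankOnePair A B) : A ≠ ⊥ := by
  intro hA
  apply h.ne
  rw [hA]
  symm
  rw [eq_bot_iff]
  intro b hb
  by_contra hb1
  obtain ⟨a, ha, ha1, -⟩ := ex_a h hb hb1
  rw [hA] at ha
  exact ha1 ha

theorem uniq_b (h : IsRankOnePair A B) {b b' : G} (hb : b ∈ B) (hb' : b' ∈ B) (e : cj b⁻¹ A = cj b'⁻¹ A) : b = b' := by
  have h1 : cj (b' * b⁻¹) A = A := by
    rw [CfsgH7.cj_mul, e, cj_cancel]
  have h2 := B_norm h (B.mul_mem hb' (B.inv_mem hb)) h1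
  exact (mul_inv_eq_one.1 h2).symm

theorem exists_ne_one {A : Subgroup G} (h : A ≠ ⊥) : ∃ a ∈ A, a ≠ 1 := by
  obtain ⟨a, ha, ha1⟩ := (Subgroup.ne_bot_iff_exists_ne_one).1 h |> fun ⟨a, ha⟩ => (⟨a.1, a.2, fun h => ha (Subtype.ext h)⟩ : ∃ a ∈ A, a ≠ 1)
  exact ⟨a, ha, ha1⟩

/-- membership in the set of conjugates -/
def Q (A B C : Subgroup G) : Prop := C = A ∨ ∃ a ∈ A, C = cj a B

theorem Q_A {C : Subgroup G} {a : G} (ha : a ∈ A) (hC : Q A B C) : Q A B (cj a C) := by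
  rcases hC with rfl | ⟨a', ha', rfl⟩
  · exact Or.inl (CfsgH7.cj_of_mem ha)
  · exact Or.inr ⟨a * a', A.mul_mem ha ha', by rw [CfsgH7.cj_mul]⟩

theorem Q_B0 (h : IsRankOnePair A B) {b : G} (hb : b ∈ B) : Q A B (cj b A) := by
  by_cases hb1 : b = 1
  · subst hb1; rw [CfsgH7.cj_one]; exact Or.inl rfl
  · obtain ⟨a, ha, ha1, e⟩ := ex_a h (B.inv_mem hb) (inv_ne_one.2 hb1)
    rw [inv_inv] at e
    exact Or.inr ⟨a⁻¹, A.inv_mem ha, e⟩

theorem Q_B (h : IsRankOnePair A B) {C : Subgroup G} {b : G} (hb : b ∈ B) (hC : Q A B C) : Q A B (cj b C) := by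
  rcases hC with rfl | ⟨a, ha, rfl⟩
  · exact Q_B0 h hb
  · by_cases ha1 : a = 1
    · subst ha1
      rw [CfsgH7.cj_one, CfsgH7.cj_of_mem hb]
      exact Or.inr ⟨1, A.one_mem, (CfsgH7.cj_one _).symm⟩
    · obtain ⟨b', hb', hb1, e⟩ := ex_b h (A.inv_mem ha) (inv_ne_one.2 ha1)
      rw [inv_inv] at e
      rw [← e, ← CfsgH7.cj_mul]
      exact Q_B0 h (B.mul_mem hb (B.inv_mem hb'))

theorem Q_all (h : IsRankOnePair A B) {C : Subgroup G} {x : G} (hx : x ∈ A ⊔ B) (hC : Q A B C) : Q A B (cj x C) := by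
  let M : Subgroup G :=
    { carrier := {x | ∀ C, Q A B C → Q A B (cj x C) ∧ Q A B (cj x⁻¹ C)}
      one_mem' := fun C hC => by rw [inv_one, CfsgH7.cj_one]; exact ⟨hC, hC⟩
      mul_mem' := fun {x y} hx hy C hC => by
        rw [mul_inv_rev, CfsgH7.cj_mul, CfsgH7.cj_mul]
        exact ⟨(hx _ (hy _ hC).1).1, (hy _ (hx _ hC).2).2⟩
      inv_mem' := fun {x} hx C hC => by
        rw [inv_inv]; exact ⟨(hx _ hC).2, (hx _ hC).1⟩ }
  have h1 : A ⊔ B ≤ M := by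
    refine sup_le ?_ ?_
    · intro a ha C hC
      exact ⟨Q_A ha hC, Q_A (A.inv_mem ha) hC⟩
    · intro b hb C hC
      exact ⟨Q_B h hb hC, Q_B h (B.inv_mem hb) hC⟩
  exact (h1 hx C hC).1

theorem B_eq (h : IsRankOnePair A B) : ∃ x ∈ A ⊔ B, B = cj x A := by
  obtain ⟨a, ha, ha1⟩ := exists_ne_one (A_ne_bot h)
  obtain ⟨b, hb, hb1, e⟩ := ex_b h ha ha1
  refine ⟨a * b⁻¹, (A ⊔ B).mul_mem (le_sup_left (a := A) ha) (le_sup_right (a := A) (B.inv_mem hb)), ?_⟩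
  rw [CfsgH7.cj_mul, e, cj_cancel]

theorem mem_Om (h : IsRankOnePair A B) {C : Subgroup G} : C ∈ unipotentSubgroups A B ↔ Q A B C := by
  constructor
  · rintro ⟨x, hx, rfl⟩
    exact Q_all h hx (Or.inl rfl)
  · rintro (rfl | ⟨a, ha, rfl⟩)
    · exact ⟨1, Subgroup.one_mem _, (CfsgH7.cj_one _).symm⟩
    · obtain ⟨x, hx, e⟩ := B_eq h
      refine ⟨a * x, (A ⊔ B).mul_mem (le_sup_left (a := A) ha) hx, ?_⟩
      change cj a B = cj (a * x) A
      rw [CfsgH7.cj_mul, ← e]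

theorem Om_cj {C : Subgroup G} {x : G} (hx : x ∈ A ⊔ B) (hC : C ∈ unipotentSubgroups A B) : cj x C ∈ unipotentSubgroups A B := by
  obtain ⟨y, hy, rfl⟩ := hC
  refine ⟨x * y, (A ⊔ B).mul_mem hx hy, ?_⟩
  change cj x (cj y A) = cj (x * y) A
  rw [CfsgH7.cj_mul]

theorem A_mem : A ∈ unipotentSubgroups A B := ⟨1, Subgroup.one_mem _, (CfsgH7.cj_one _).symm⟩

theorem B_mem (h : IsRankOnePair A B) : B ∈ unipotentSubgroups A B := B_eq h

theorem ne_A (h : IsRankOnePair A B) {a : G} (ha : a ∈ A) : cj a B ≠ A := by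
  intro e
  apply h.ne
  have h1 : cj a⁻¹ (cj a B) = cj a⁻¹ A := by rw [e]
  rw [cj_cancel', CfsgH7.cj_of_mem (A.inv_mem ha)] at h1
  exact h1.symm

theorem form (h : IsRankOnePair A B) {C : Subgroup G} (hC : C ∈ unipotentSubgroups A B) (hCA : C ≠ A) : ∃ a ∈ A, C = cj a B := by
  rcases (mem_Om h).1 hC with h1 | h1
  · exact absurd h1 hCA
  · exact h1

theorem regular (h : IsRankOnePair A B) {C D : Subgroup G} (hC : C ∈ unipotentSubgroups A B) (hD : D ∈ unipotentSubgroups A B)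
    (hCA : C ≠ A) (hDA : D ≠ A) : ∃! a : G, a ∈ A ∧ cj a C = D := by
  obtain ⟨c, hc, rfl⟩ := form h hC hCA
  obtain ⟨d, hd, rfl⟩ := form h hD hDA
  refine ⟨d * c⁻¹, ⟨A.mul_mem hd (A.inv_mem hc), by rw [CfsgH7.cj_mul, cj_cancel']⟩, ?_⟩
  rintro a ⟨ha, e⟩
  have h1 : cj (d⁻¹ * a * c) B = B := by
    rw [mul_assoc, CfsgH7.cj_mul, CfsgH7.cj_mul, e, cj_cancel']
  have h2 := A_norm h (A.mul_mem (A.mul_mem (A.inv_mem hd) ha) hc) h1
  calc a = d * (d⁻¹ * a * c) * c⁻¹ := by group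
    _ = d * c⁻¹ := by rw [h2, mul_one]

theorem two_trans (h : IsRankOnePair A B) {C₁ C₂ D₁ D₂ : Subgroup G} (hC₁ : C₁ ∈ unipotentSubgroups A B) (hC₂ : C₂ ∈ unipotentSubgroups A B)
    (hD₁ : D₁ ∈ unipotentSubgroups A B) (hD₂ : D₂ ∈ unipotentSubgroups A B) (hC : C₁ ≠ C₂) (hD : D₁ ≠ D₂) :
    ∃ x ∈ A ⊔ B, cj x C₁ = D₁ ∧ cj x C₂ = D₂ := by
  obtain ⟨g, hg, rfl⟩ := hC₁
  obtain ⟨k, hk, rfl⟩ := hD₁
  have hC₁' : Cfsg.conjBy A g = cj g A := rfl
  have hD₁' : Cfsg.conjBy A k = cj k A := rfl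
  rw [hC₁'] at hC ⊢
  rw [hD₁'] at hD ⊢
  have h1 : cj g⁻¹ C₂ ≠ A := by
    intro e
    apply hC
    rw [← e, cj_cancel]
  have h2 : cj k⁻¹ D₂ ≠ A := by
    intro e
    apply hD
    rw [← e, cj_cancel]
  obtain ⟨a, ⟨ha, e⟩, -⟩ := regular h (Om_cj ((A ⊔ B).inv_mem hg) hC₂) (Om_cj ((A ⊔ B).inv_mem hk) hD₂) h1 h2
  refine ⟨k * a * g⁻¹, (A ⊔ B).mul_mem ((A ⊔ B).mul_mem hk (le_sup_left (a := A) ha)) ((A ⊔ B).inv_mem hg), ?_, ?_⟩
  · rw [CfsgH7.cj_mul, cj_cancel', CfsgH7.cj_mul, CfsgH7.cj_of_mem ha]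
  · rw [CfsgH7.cj_mul, CfsgH7.cj_mul, e, cj_cancel]

/-- elements normalizing `A` and `B` inside a normal subgroup are central -/
theorem central_of_norm {X : Type*} [Group X] {A B : Subgroup X} (h : IsRankOneGroup X A B) (N : Subgroup X) [hN : N.Normal]
    (hA : N ≤ Subgroup.normalizer (A : Set X)) (hB : N ≤ Subgroup.normalizer (B : Set X)) : N ≤ Subgroup.center X := by
  obtain ⟨hgen, h⟩ := h
  have key : ∀ C D : Subgroup X, IsRankOnePair C D → N ≤ Subgroup.normalizer (C : Set X) → N ≤ Subgroup.normalizer (D : Set X) →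
      ∀ n ∈ N, ∀ c ∈ C, n * c = c * n := by
    intro C D hCD hC hD n hn c hc
    have h1 : n * c * n⁻¹ * c⁻¹ ∈ C := C.mul_mem ((Subgroup.mem_normalizer_iff.1 (hC hn) c).1 hc) (C.inv_mem hc)
    have h2 : n * c * n⁻¹ * c⁻¹ ∈ N := by
      have := N.mul_mem hn (hN.conj_mem _ (N.inv_mem hn) c)
      simpa [mul_assoc] using this
    have h3 := A_norm hCD h1 (CfsgH7.mem_normalizer_iff_cj.1 (hD h2))
    rw [mul_inv_eq_one, mul_inv_eq_iff_eq_mul] at h3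
    exact h3
  intro n hn
  have h1 : A ⊔ B ≤ Subgroup.centralizer ({n} : Set X) := by
    refine sup_le ?_ ?_
    · intro a ha
      rw [Subgroup.mem_centralizer_singleton_iff]
      exact (key A B h hA hB n hn a ha).symm
    · intro b hb
      rw [Subgroup.mem_centralizer_singleton_iff]
      exact (key B A (RankOnePair_symm h) hB hA n hn b hb).symm
  rw [Subgroup.mem_center_iff]
  intro g
  have h2 : g ∈ A ⊔ B := by rw [hgen]; trivial
  exact Subgroup.mem_centralizer_singleton_iff.1 (h1 h2)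

theorem normal_cases {X : Type*} [Group X] {A B : Subgroup X} (h : IsRankOneGroup X A B) (N : Subgroup X) [hN : N.Normal] :
    N ⊔ A = ⊤ ∨ N ≤ Subgroup.center X := by
  by_cases hc : ∀ C ∈ unipotentSubgroups A B, ∀ n ∈ N, cj n C = C
  · right
    refine central_of_norm h N ?_ ?_
    · intro n hn
      exact CfsgH7.mem_normalizer_iff_cj.2 (hc A A_mem n hn)
    · intro n hn
      exact CfsgH7.mem_normalizer_iff_cj.2 (hc B (B_mem h.2) n hn)
  · left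
    push Not at hc
    obtain ⟨C, hC, n, hn, hne⟩ := hc
    have htop : ∀ x : X, x ∈ A ⊔ B := fun x => by rw [h.1]; trivial
    obtain ⟨x, -, e1, e2⟩ := two_trans h.2 hC (Om_cj (htop n) hC) A_mem (B_mem h.2) (Ne.symm hne) h.2.ne
    have hn' : x * n * x⁻¹ ∈ N := hN.conj_mem n hn x
    have e3 : cj (x * n * x⁻¹) A = B := by
      rw [← e1, ← CfsgH7.cj_mul, inv_mul_cancel_right, CfsgH7.cj_mul, e2]
    rw [eq_top_iff, ← h.1]
    refine sup_le le_sup_right ?_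
    intro b hb
    rw [← e3, CfsgH7.mem_cj] at hb
    set m := x * n * x⁻¹ with hm
    have e4 : b = m * ((m⁻¹ * b * m) * m⁻¹ * (m⁻¹ * b * m)⁻¹) * (m⁻¹ * b * m) := by group
    rw [e4]
    exact (N ⊔ A).mul_mem ((N ⊔ A).mul_mem (le_sup_left (a := N) hn') (le_sup_left (a := N) (hN.conj_mem _ (N.inv_mem hn') _))) (le_sup_right (a := N) hb)

theorem center_ne_top {X : Type*} [Group X] {A B : Subgroup X} (h : IsRankOneGroup X A B) : Subgroup.center X ≠ ⊤ := by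
  intro hc
  obtain ⟨a, ha, ha1⟩ := exists_ne_one (A_ne_bot h.2)
  apply ha1
  apply A_norm h.2 ha
  ext y
  rw [CfsgH7.mem_cj]
  have h1 : a ∈ Subgroup.center X := by rw [hc]; trivial
  have h2 : a⁻¹ * y * a = y := by
    rw [mul_assoc, (Subgroup.mem_center_iff.1 h1 y)]; group
  rw [h2]

theorem not_nilpotent {X : Type*} [Group X] {A B : Subgroup X} (h : IsRankOneGroup X A B) : ¬ Group.IsNilpotent X := by
  intro hnil
  have hnc := Group.normalizerCondition_of_isNilpotent (G := X)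
  set M := Subgroup.normalizer (A : Set X) with hM
  have hMt : M < ⊤ := by
    rw [lt_top_iff_ne_top]
    intro hMt
    obtain ⟨b, hb, hb1⟩ := exists_ne_one (A_ne_bot (RankOnePair_symm h.2))
    apply hb1
    apply B_norm h.2 hb
    have : b ∈ M := by rw [hMt]; trivial
    exact CfsgH7.mem_normalizer_iff_cj.1 this
  obtain ⟨g, hg, hgM⟩ := SetLike.exists_of_lt (hnc M hMt)
  have hgA : cj g A ≠ A := fun e => hgM (CfsgH7.mem_normalizer_iff_cj.2 e)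
  have htop : ∀ x : X, x ∈ A ⊔ B := fun x => by rw [h.1]; trivial
  obtain ⟨c, hc, e⟩ := form h.2 (Om_cj (htop g) A_mem) hgA
  obtain ⟨a, ha, ha1⟩ := exists_ne_one (A_ne_bot h.2)
  apply ha1
  -- a normalizes cj g A
  have h1 : cj a (cj g A) = cj g A := by
    have h2 : g⁻¹ * a * g ∈ M := by
      have := (Subgroup.mem_normalizer_iff.1 ((Subgroup.normalizer (M : Set X)).inv_mem hg) a).1 (Subgroup.le_normalizer ha)
      rwa [inv_inv] at this
    have h3 : cj (g⁻¹ * a * g) A = A := CfsgH7.mem_normalizer_iff_cj.1 h2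
    calc cj a (cj g A) = cj g (cj (g⁻¹ * a * g) A) := by rw [← CfsgH7.cj_mul, ← CfsgH7.cj_mul]; congr 1; group
      _ = cj g A := by rw [h3]
  rw [e] at h1
  have h2 : cj (c⁻¹ * a * c) B = B := by
    rw [mul_assoc, CfsgH7.cj_mul, CfsgH7.cj_mul, h1, cj_cancel']
  have h3 := A_norm h.2 (A.mul_mem (A.mul_mem (A.inv_mem hc) ha) hc) h2
  calc a = c * (c⁻¹ * a * c) * c⁻¹ := by group
    _ = 1 := by rw [h3]; group

end CfsgH3.R1
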