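import Mathlib
import Cfsg.Agent.H3.RankOne

set_option autoImplicit false
open Cfsg

namespace CfsgH3.R1

open CfsgH7 (cj)

variable {G : Type*} [Group G] {S : Set (Subgroup G)}

/-- a conjugate `A^y` commuting with `B ∋ y` forces `A` to commute with `B` -/
theorem comm_of_cj {A B : Subgroup G} (h : IsRankOnePair A B) {y : G} (hy : y ∈ B)
    (hc : ∀ u ∈ cj y A, ∀ b ∈ B, u * b = b * u) : False := by
  obtain ⟨a, ha, ha1⟩ := exists_ne_one (A_ne_bot h)
  apply ha1
  have h1 : y * a * y⁻¹ ∈ cj y A := CfsgH7.conj_mem_cj ha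
  apply A_norm h ha
  ext z
  rw [CfsgH7.mem_cj]
  constructor
  · intro hz
    have h2 := hc _ h1 _ (B.mul_mem (B.mul_mem hy hz) (B.inv_mem hy))
    -- a commutes with a⁻¹ z a
    have h3 : a * (a⁻¹ * z * a) = (a⁻¹ * z * a) * a := by
      have h4 : y * (a * (a⁻¹ * z * a)) * y⁻¹ = y * ((a⁻¹ * z * a) * a) * y⁻¹ := by
        calc y * (a * (a⁻¹ * z * a)) * y⁻¹ = (y * a * y⁻¹) * (y * (a⁻¹ * z * a) * y⁻¹) := by group
          _ = (y * (a⁻¹ * z * a) * y⁻¹) * (y * a * y⁻¹) := h2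
          _ = _ := by group
      exact mul_left_cancel (mul_right_cancel h4)
    have h5 : z = a⁻¹ * z * a := by
      have h6 : z * a = (a⁻¹ * z * a) * a := by rw [← h3]; group
      exact mul_right_cancel h6
    rw [h5]; exact hz
  · intro hz
    have h2 := hc _ h1 _ (B.mul_mem (B.mul_mem hy hz) (B.inv_mem hy))
    have h3 : a * z = z * a := by
      have h4 : y * (a * z) * y⁻¹ = y * (z * a) * y⁻¹ := by
        calc y * (a * z) * y⁻¹ = (y * a * y⁻¹) * (y * z * y⁻¹) := by group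
          _ = (y * z * y⁻¹) * (y * a * y⁻¹) := h2
          _ = _ := by group
      exact mul_left_cancel (mul_right_cancel h4)
    rw [mul_assoc, ← h3, inv_mul_cancel_left]; exact hz

theorem comm_A {A : Subgroup G} (hS : IsRootSubgroupSet S) (hA : A ∈ S) : ∀ x ∈ A, ∀ y ∈ A, x * y = y * x := fun x hx y hy =>
  congrArg Subtype.val ((hS.commutative A hA).is_comm.comm (⟨x, hx⟩ : A) ⟨y, hy⟩)

theorem bot_comm {A B : Subgroup G} (h : ⁅A, B⁆ = ⊥) : ∀ a ∈ A, ∀ b ∈ B, a * b = b * a := by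
  rw [Subgroup.commutator_eq_bot_iff_le_centralizer] at h
  intro a ha b hb
  exact (Subgroup.mem_centralizer_iff.1 (h ha) b hb).symm

/-- in the commutator case every conjugate of `B` by elements of `A` centralizes `B` -/
theorem comm_case {A B : Subgroup G} (hS : IsRootSubgroupSet S) (hB : B ∈ S) (h : RootCommutatorCase S A B) {x : G} (hx : x ∈ A) :
    ∀ u ∈ cj x B, ∀ b ∈ B, u * b = b * u := by
  intro u hu b hb
  rw [CfsgH7.mem_cj] at hu
  set v := x⁻¹ * u * x with hv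
  have h1 : x * v * x⁻¹ * v⁻¹ ∈ ⁅A, B⁆ := Subgroup.commutator_mem_commutator hx hu
  have h2 := h.2.1 _ h1 b (le_sup_right (a := A) hb)
  have h3 : u = (x * v * x⁻¹ * v⁻¹) * v := by rw [hv]; group
  rw [h3, mul_assoc, comm_A hS hB v hu b hb, ← mul_assoc, h2, mul_assoc]

/-- for a partner `B` of `A`: elements of `A` different from `1` do not centralize `B` -/
theorem A_comm {A B : Subgroup G} (h : IsRankOnePair A B) {a : G} (ha : a ∈ A) (hc : ∀ b ∈ B, a * b = b * a) : a = 1 := by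
  apply A_norm h ha
  ext y
  rw [CfsgH7.mem_cj]
  constructor
  · intro hy
    have h1 := hc _ hy
    have h2 : y = a⁻¹ * y * a := by
      have h6 : y * a = (a⁻¹ * y * a) * a := by rw [← h1]; group
      exact mul_right_cancel h6
    rw [h2]; exact hy
  · intro hy
    rw [mul_assoc, ← hc y hy, inv_mul_cancel_left]; exact hy

/-- distinct unipotent subgroups intersect trivially (abelian case) -/
theorem inter_cj {A B : Subgroup G} (h : IsRankOnePair A B) (hA : ∀ x ∈ A, ∀ y ∈ A, x * y = y * x) {y : G} (hy : y ∈ B) (hy1 : y ≠ 1)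
    {x : G} (hx : x ∈ A) (hx2 : x ∈ cj y A) : x = 1 := by
  obtain ⟨a, ha, ha1, e⟩ := ex_a h (B.inv_mem hy) (inv_ne_one.2 hy1)
  rw [inv_inv] at e
  rw [e, CfsgH7.mem_cj, inv_inv] at hx2
  have h1 : a * x * a⁻¹ = x := by rw [hA a ha x hx, mul_inv_cancel_right]
  rw [h1] at hx2
  exact A_norm h hx (CfsgH7.cj_of_mem hx2)

theorem meet_trivial (hS : IsRootSubgroupSet S) {A A' : Subgroup G} (hAS : A ∈ S) (hA'S : A' ∈ S) (h : IsRankOnePair A A') :
    ∀ B ∈ S, A ⊓ B = ⊥ ∨ A = B := by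
  intro B hB
  by_cases hbot : A ⊓ B = ⊥
  · exact Or.inl hbot
  right
  obtain ⟨x, hx, hx1⟩ := exists_ne_one hbot
  rcases hS.pair B hB A' hA'S with h1 | h1 | h1
  · exfalso
    exact hx1 (A_comm h hx.1 (fun b hb => bot_comm h1 x hx.2 b hb))
  · obtain ⟨y, hy, hy1, e⟩ := ex_b h hx.1 hx1
    obtain ⟨y', hy', hy1', e'⟩ := ex_b h1 hx.2 hx1
    -- cj y'⁻¹ B = cj y⁻¹ A
    have e2 : B = cj (y' * y⁻¹) A := by
      rw [CfsgH7.cj_mul, e, ← e', cj_cancel]
    by_cases hyy : y' * y⁻¹ = 1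
    · rw [hyy, CfsgH7.cj_one] at e2; exact e2.symm
    · exfalso
      apply hx1
      exact inter_cj h (comm_A hS hAS) (A'.mul_mem hy' (A'.inv_mem hy)) hyy hx.1 (e2 ▸ hx.2)
  · exfalso
    obtain ⟨y, hy, hy1, e⟩ := ex_b h hx.1 hx1
    apply comm_of_cj h (A'.inv_mem hy)
    rw [e]
    exact comm_case hS hA'S h1 (B.inv_mem hx.2)

theorem no_central (hS : IsRootSubgroupSet S) {A B : Subgroup G} (hA : A ∈ S) (hB : B ∈ S) (h : IsRankOnePair A B) {z : G}
    (hzA : ∀ a ∈ A, z * a = a * z) (hzB : ∀ b ∈ B, z * b = b * z) (hz1 : z ≠ 1) : ∀ a ∈ A, a ≠ 1 → z * a ∉ rootElements S := by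
  intro a ha ha1
  rintro ⟨hza1, C, hC, hzaC⟩
  have hcjB : cj (z * a)⁻¹ B = cj a⁻¹ B := by
    rw [mul_inv_rev, CfsgH7.cj_mul]
    congr 1
    ext y
    rw [CfsgH7.mem_cj, inv_inv]
    constructor
    · intro hy
      have h1 := hzB _ hy
      have h2 : y = z * y * z⁻¹ := by
        have h3 : z * y = z * (z * y * z⁻¹) := by rw [h1]; group
        exact mul_left_cancel h3
      rw [h2]; exact hy
    · intro hy
      rw [hzB y hy, mul_inv_cancel_right]; exact hy
  have hnc : ∀ (hc : ∀ b ∈ B, (z * a) * b = b * (z * a)), False := by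
    intro hc
    apply ha1
    apply A_comm h ha
    intro b hb
    have h1 := hc b hb
    have h2 : z * (a * b) = z * (b * a) := by
      rw [← mul_assoc, h1, ← mul_assoc, ← hzB b hb, mul_assoc]
    exact mul_left_cancel h2
  rcases hS.pair C hC B hB with h1 | h1 | h1
  · exact hnc (fun b hb => bot_comm h1 _ hzaC b hb)
  · obtain ⟨y, hy, hy1, e⟩ := ex_b h ha ha1
    obtain ⟨y', hy', hy1', e'⟩ := ex_b h1 hzaC hza1
    rw [hcjB] at e'
    have e2 : C = cj (y' * y⁻¹) A := by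
      rw [CfsgH7.cj_mul, e, ← e', cj_cancel]
    by_cases hyy : y' * y⁻¹ = 1
    · rw [hyy, CfsgH7.cj_one] at e2
      rw [e2] at hzaC
      apply hz1
      have hzA' : z ∈ A := (Subgroup.mul_mem_cancel_right A ha).1 hzaC
      exact A_comm h hzA' hzB
    · -- C = B^{a''}
      obtain ⟨a', ha', ha1', e3⟩ := ex_a h (B.inv_mem (B.mul_mem hy' (B.inv_mem hy))) (inv_ne_one.2 hyy)
      rw [inv_inv] at e3
      rw [e2, e3, CfsgH7.mem_cj, inv_inv] at hzaC
      have h4 : a' * (z * a) * a'⁻¹ = z * a := by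
        rw [← mul_assoc, ← hzA a' ha', mul_assoc z a' a, comm_A hS hA a' ha' a ha, ← mul_assoc, mul_inv_cancel_right]
      rw [h4] at hzaC
      exact hnc (fun b hb => comm_A hS hB _ hzaC b hb)
  · obtain ⟨y, hy, hy1, e⟩ := ex_b h ha ha1
    apply comm_of_cj h (B.inv_mem hy)
    rw [e, ← hcjB]
    exact comm_case hS hB h1 (C.inv_mem hzaC)

end CfsgH3.R1
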