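import Mathlib
import Cfsg.Agent.S0904
import Cfsg.Agent.H3.Simp
import Cfsg.Agent.H9.Dih

set_option autoImplicit false
open Cfsg

namespace CfsgH3.K168

open CfsgH3.Simp

variable {G : Type*} [Group G] [Finite G]

theorem cent_of_order {p : ℕ} [hp : Fact p.Prime] (hc : ∀ P : Sylow p G, Nat.card P = p)
    (hs : ∀ P : Sylow p G, Subgroup.centralizer ((P : Subgroup G) : Set G) = P) {g : G} (hg : orderOf g = p) :
    Subgroup.centralizer ({g} : Set G) = Subgroup.zpowers g := by
  have h1 : IsPGroup p (Subgroup.zpowers g) := IsPGroup.of_card (n := 1) (by rw [Nat.card_zpowers, hg, pow_one])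
  obtain ⟨P, hP⟩ := h1.exists_le_sylow
  have h2 : Subgroup.zpowers g = (P : Subgroup G) := by
    apply Subgroup.eq_of_le_of_card_ge hP
    rw [Nat.card_zpowers, hg]; exact (hc P).le
  rw [h2, ← hs P, ← h2]
  ext y
  rw [Subgroup.mem_centralizer_singleton_iff, Subgroup.mem_centralizer_iff]
  constructor
  · intro h z hz
    obtain ⟨n, rfl⟩ := Subgroup.mem_zpowers_iff.1 hz
    exact ((show Commute y g from h).zpow_right n).symm.eq
  · intro h
    exact (h g (Subgroup.mem_zpowers g)).symm

variable [IsSimpleGroup G] (h : Nat.card G = 168)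
include h

theorem nc : ¬ IsMulCommutative G := not_comm_of_card (by rw [h]; norm_num)

theorem c2 (P : Sylow 2 G) : Nat.card P = 8 := by
  rw [card_syl (a := 3) (m := 21) (by rw [h]; norm_num) (by norm_num) P]; norm_num

theorem c3 (P : Sylow 3 G) : Nat.card P = 3 := by
  haveI : Fact (Nat.Prime 3) := ⟨by norm_num⟩
  rw [card_syl (a := 1) (m := 56) (by rw [h]; norm_num) (by norm_num) P]; norm_num

theorem c7 (P : Sylow 7 G) : Nat.card P = 7 := by
  haveI : Fact (Nat.Prime 7) := ⟨by norm_num⟩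
  rw [card_syl (a := 1) (m := 24) (by rw [h]; norm_num) (by norm_num) P]; norm_num

theorem s3 (P : Sylow 3 G) : Subgroup.centralizer ((P : Subgroup G) : Set G) = P := by
  haveI : Fact (Nat.Prime 3) := ⟨by norm_num⟩
  exact Cfsg.Agent.S0904.result 2 7 3 3 1 (by norm_num) (by norm_num) (by norm_num) (by norm_num) (by norm_num) (by rw [h]; norm_num) P

theorem s7 (P : Sylow 7 G) : Subgroup.centralizer ((P : Subgroup G) : Set G) = P := by
  haveI : Fact (Nat.Prime 7) := ⟨by norm_num⟩
  exact Cfsg.Agent.S0904.result 2 3 7 3 1 (by norm_num) (by norm_num) (by norm_num) (by norm_num) (by norm_num) (by rw [h]; norm_num) P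

theorem cent3 {g : G} (hg : orderOf g = 3) : Subgroup.centralizer ({g} : Set G) = Subgroup.zpowers g := by
  haveI : Fact (Nat.Prime 3) := ⟨by norm_num⟩
  exact cent_of_order (c3 h) (s3 h) hg

theorem cent7 {g : G} (hg : orderOf g = 7) : Subgroup.centralizer ({g} : Set G) = Subgroup.zpowers g := by
  haveI : Fact (Nat.Prime 7) := ⟨by norm_num⟩
  exact cent_of_order (c7 h) (s7 h) hg

theorem ord_aux {p : ℕ} [hp : Fact p.Prime] (hc : ∀ g : G, orderOf g = p → Subgroup.centralizer ({g} : Set G) = Subgroup.zpowers g)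
    (g : G) (hd : p ∣ orderOf g) : orderOf g = p := by
  obtain ⟨k, hk⟩ := hd
  have hg0 := orderOf_pos g
  have hk0 : k ≠ 0 := by rintro rfl; omega
  have h1 : orderOf (g ^ k) = p := by
    rw [orderOf_pow_of_dvd hk0 (by rw [hk]; exact Dvd.intro_left _ rfl), hk]
    exact Nat.mul_div_cancel _ (Nat.pos_of_ne_zero hk0)
  have h2 : g ∈ Subgroup.centralizer ({g ^ k} : Set G) := by
    rw [Subgroup.mem_centralizer_singleton_iff]
    exact ((Commute.refl g).pow_right k).eq
  rw [hc _ h1] at h2
  have h3 := Subgroup.orderOf_dvd_natCard _ h2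
  rw [Nat.card_zpowers, h1] at h3
  rcases (Nat.dvd_prime hp.out).1 h3 with h4 | h4
  · rw [h4] at hk
    exact absurd (Nat.eq_one_of_mul_eq_one_right hk.symm) hp.out.one_lt.ne'
  · exact h4

theorem ord_cases (g : G) : orderOf g = 3 ∨ orderOf g = 7 ∨ orderOf g ∣ 8 := by
  haveI : Fact (Nat.Prime 3) := ⟨by norm_num⟩
  haveI : Fact (Nat.Prime 7) := ⟨by norm_num⟩
  by_cases h3 : 3 ∣ orderOf g
  · exact Or.inl (ord_aux h (fun g hg => cent3 h hg) g h3)
  by_cases h7 : 7 ∣ orderOf g
  · exact Or.inr (Or.inl (ord_aux h (fun g hg => cent7 h hg) g h7))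
  right; right
  have h1 : orderOf g ∣ 168 := by rw [← h]; exact orderOf_dvd_natCard g
  have h2 : Nat.Coprime (orderOf g) 21 := by
    rw [show (21 : ℕ) = 3 * 7 by norm_num]
    exact Nat.Coprime.mul_right ((Nat.Prime.coprime_iff_not_dvd (by norm_num)).2 h3).symm ((Nat.Prime.coprime_iff_not_dvd (by norm_num)).2 h7).symm
  exact h2.dvd_of_dvd_mul_right (by rw [show (8 : ℕ) * 21 = 168 by norm_num]; exact h1)

theorem n7 : Nat.card (Sylow 7 G) = 8 := by
  haveI : Fact (Nat.Prime 7) := ⟨by norm_num⟩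
  have h1 := syl_dvd (G := G) (p := 7) (a := 1) (m := 24) (by rw [h]; norm_num) (by norm_num)
  have h2 := syl_mod (G := G) (p := 7)
  have h3 := syl_ne_one (p := 7) (nc h) (by rw [h]; norm_num)
  have h5 := Nat.le_of_dvd (by norm_num) h1
  interval_cases Nat.card (Sylow 7 G) <;> omega

theorem n3 : Nat.card (Sylow 3 G) = 28 := by
  haveI : Fact (Nat.Prime 3) := ⟨by norm_num⟩
  have h1 := syl_dvd (G := G) (p := 3) (a := 1) (m := 56) (by rw [h]; norm_num) (by norm_num)
  have h2 := syl_mod (G := G) (p := 3)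
  obtain ⟨P⟩ : Nonempty (Sylow 3 G) := inferInstance
  have h3 := card_norm P
  have h4 := relIndex_dvd P (c3 h P)
  rw [s3 h P] at h4
  have h5 : Nat.card P * (P : Subgroup G).relIndex (Subgroup.normalizer ((P : Subgroup G) : Set G)) = Nat.card (Subgroup.normalizer ((P : Subgroup G) : Set G)) := by
    have h0 := Subgroup.relIndex_mul_relIndex ⊥ (P : Subgroup G) (Subgroup.normalizer ((P : Subgroup G) : Set G)) bot_le Subgroup.le_normalizer
    rwa [Subgroup.relIndex_bot_left, Subgroup.relIndex_bot_left] at h0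
  rw [c3 h P] at h5
  have h6 := Nat.le_of_dvd (by norm_num) h4
  have h7 := Nat.le_of_dvd (by norm_num) h1
  rw [h] at h3
  rw [← h5] at h3
  generalize (P : Subgroup G).relIndex (Subgroup.normalizer ((P : Subgroup G) : Set G)) = r at *
  have hr : r = 0 ∨ r = 1 ∨ r = 2 := by omega
  rcases hr with rfl | rfl | rfl <;> omega

theorem e3 : Nat.card {g : G // orderOf g = 3} = 56 := by
  haveI : Fact (Nat.Prime 3) := ⟨by norm_num⟩
  obtain ⟨P⟩ : Nonempty (Sylow 3 G) := inferInstance
  rw [card_orderOf P (c3 h P), n3 h]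

theorem e7 : Nat.card {g : G // orderOf g = 7} = 48 := by
  haveI : Fact (Nat.Prime 7) := ⟨by norm_num⟩
  obtain ⟨P⟩ : Nonempty (Sylow 7 G) := inferInstance
  rw [card_orderOf P (c7 h P), n7 h]

theorem e8 : Nat.card {g : G // orderOf g ∣ 8} = 64 := by
  classical
  haveI := Fintype.ofFinite G
  have h3 := e3 h
  have h7 := e7 h
  rw [Nat.card_eq_fintype_card, Fintype.card_subtype] at h3 h7 ⊢
  have h1 : (Finset.univ : Finset G) = (Finset.univ.filter (fun g : G => orderOf g = 3)) ∪ ((Finset.univ.filter (fun g : G => orderOf g = 7)) ∪ (Finset.univ.filter (fun g : G => orderOf g ∣ 8))) := by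
    ext g
    simp only [Finset.mem_univ, Finset.mem_union, Finset.mem_filter, true_and, true_iff]
    exact ord_cases h g
  have h2 := congrArg Finset.card h1
  rw [Finset.card_union_of_disjoint, Finset.card_union_of_disjoint, h3, h7, Finset.card_univ, ← Nat.card_eq_fintype_card, h] at h2
  · omega
  · rw [Finset.disjoint_filter]
    intro g _ h4 h5
    rw [h4] at h5; omega
  · rw [Finset.disjoint_left]
    intro g h4 h5
    simp only [Finset.mem_union, Finset.mem_filter, Finset.mem_univ, true_and] at h4 h5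
    rw [h4] at h5; omega

theorem mem_syl {g : G} (hg : orderOf g ∣ 8) : ∃ T : Sylow 2 G, g ∈ (T : Subgroup G) := by
  obtain ⟨k, -, hk⟩ := (Nat.dvd_prime_pow Nat.prime_two (m := 3)).1 (by norm_num; exact hg)
  have h1 : IsPGroup 2 (Subgroup.zpowers g) := IsPGroup.of_card (n := k) (by rw [Nat.card_zpowers, hk])
  obtain ⟨T, hT⟩ := h1.exists_le_sylow
  exact ⟨T, hT (Subgroup.mem_zpowers g)⟩

theorem e8' : Nat.card {g : G // orderOf g ∣ 8 ∧ g ≠ 1} = 63 := by
  classical
  haveI := Fintype.ofFinite G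
  have h3 := e8 h
  rw [Nat.card_eq_fintype_card, Fintype.card_subtype] at h3 ⊢
  have h1 : (Finset.univ.filter (fun g : G => orderOf g ∣ 8 ∧ g ≠ 1)) = (Finset.univ.filter (fun g : G => orderOf g ∣ 8)).erase 1 := by
    ext g
    simp only [Finset.mem_filter, Finset.mem_univ, true_and, Finset.mem_erase]
    exact and_comm
  rw [h1, Finset.card_erase_of_mem (by simp), h3]

theorem n2 : Nat.card (Sylow 2 G) = 21 := by
  classical
  have h1 := syl_dvd (G := G) (p := 2) (a := 3) (m := 21) (by rw [h]; norm_num) (by norm_num)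
  have h2 : 63 ≤ Nat.card (Sylow 2 G) * 7 := by
    rw [← e8' h]
    choose f hf using fun (g : {g : G // orderOf g ∣ 8 ∧ g ≠ 1}) => mem_syl h g.2.1
    have h3 := Nat.card_le_card_of_injective (fun g : {g : G // orderOf g ∣ 8 ∧ g ≠ 1} =>
      (⟨f g, ⟨⟨g.1, hf g⟩, fun h4 => g.2.2 (congrArg Subtype.val h4)⟩⟩ : Σ T : Sylow 2 G, {t : (T : Subgroup G) // t ≠ 1})) (by
        intro a b hab
        apply Subtype.ext
        exact congrArg (fun x : Σ T : Sylow 2 G, {t : (T : Subgroup G) // t ≠ 1} => (x.2.1 : G)) hab)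
    refine h3.trans ?_
    haveI := Fintype.ofFinite (Sylow 2 G)
    rw [Nat.card_sigma]
    have h4 : ∀ T : Sylow 2 G, Nat.card {t : (T : Subgroup G) // t ≠ 1} = 7 := by
      intro T
      haveI := Fintype.ofFinite (T : Subgroup G)
      have h7 : Fintype.card {g : (T : Subgroup G) // g ≠ 1} = Fintype.card (T : Subgroup G) - Fintype.card {g : (T : Subgroup G) // g = 1} := Fintype.card_subtype_compl _
      rw [Nat.card_eq_fintype_card, h7, Fintype.card_subtype_eq, ← Nat.card_eq_fintype_card, c2 h T]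
    rw [Finset.sum_congr rfl (fun T _ => h4 T), Finset.sum_const, smul_eq_mul, Finset.card_univ, Nat.card_eq_fintype_card]
  have h5 := Nat.le_of_dvd (by norm_num) h1
  interval_cases Nat.card (Sylow 2 G) <;> omega

theorem normT (T : Sylow 2 G) : Subgroup.normalizer ((T : Subgroup G) : Set G) = T := by
  have h1 := card_norm T
  rw [n2 h, h] at h1
  exact (Subgroup.eq_of_le_of_card_ge Subgroup.le_normalizer (by rw [c2 h T]; omega)).symm

theorem isPGroup_cent {z : G} (hz : orderOf z = 2) : IsPGroup 2 (Subgroup.centralizer ({z} : Set G)) := by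
  intro x
  rcases ord_cases h (x : G) with h1 | h1 | h1
  · exfalso
    have h2 : z ∈ Subgroup.centralizer ({(x : G)} : Set G) := by
      rw [Subgroup.mem_centralizer_singleton_iff]
      exact (Subgroup.mem_centralizer_singleton_iff.1 x.2).symm
    rw [cent3 h h1] at h2
    have h3 := Subgroup.orderOf_dvd_natCard _ h2
    rw [hz, Nat.card_zpowers, h1] at h3
    omega
  · exfalso
    have h2 : z ∈ Subgroup.centralizer ({(x : G)} : Set G) := by
      rw [Subgroup.mem_centralizer_singleton_iff]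
      exact (Subgroup.mem_centralizer_singleton_iff.1 x.2).symm
    rw [cent7 h h1] at h2
    have h3 := Subgroup.orderOf_dvd_natCard _ h2
    rw [hz, Nat.card_zpowers, h1] at h3
    omega
  · refine ⟨3, ?_⟩
    apply Subtype.ext
    rw [Subgroup.coe_pow]
    exact orderOf_dvd_iff_pow_eq_one.1 h1

theorem nonab (T : Sylow 2 G) : ¬ IsMulCommutative (T : Subgroup G) := by
  intro hc
  apply not_npc (p := 2) (nc h) (by rw [h]; norm_num)
  apply hasNPC_burnside T
  have h0 := normT h T
  rw [Sylow.coe_coe] at h0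
  rw [h0]
  intro a ha
  rw [Subgroup.mem_centralizer_iff]
  intro b hb
  have := mul_comm' (⟨b, hb⟩ : (T : Subgroup G)) ⟨a, ha⟩
  exact congrArg Subtype.val this

/-- the square of an element of order `4` is central -/
theorem sq_central (T : Sylow 2 G) {x : G} (hx : x ∈ (T : Subgroup G)) (ho : orderOf x = 4) :
    ∀ t ∈ (T : Subgroup G), t * x ^ 2 = x ^ 2 * t := by
  intro t ht
  -- ⟨x⟩ has index 2 in T, hence is normal
  have h1 : (Subgroup.zpowers (⟨x, hx⟩ : (T : Subgroup G))).index = 2 := by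
    have h2 := Subgroup.index_mul_card (Subgroup.zpowers (⟨x, hx⟩ : (T : Subgroup G)))
    rw [Nat.card_zpowers, Subgroup.orderOf_mk, ho, c2 h T] at h2
    omega
  have h2 := Subgroup.normal_of_index_eq_two h1
  have h3 := h2.conj_mem _ (Subgroup.mem_zpowers _) (⟨t, ht⟩ : (T : Subgroup G))
  obtain ⟨n, hn⟩ := Subgroup.mem_zpowers_iff.1 h3
  have hn' : t * x * t⁻¹ = x ^ n := by
    have := congrArg Subtype.val hn
    rw [Subgroup.coe_zpow] at this
    exact this.symm
  have h4 : x ^ (4 : ℤ) = 1 := by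
    have := pow_orderOf_eq_one x
    rw [ho] at this
    exact_mod_cast this
  have h5 : t * x ^ 2 * t⁻¹ = (x ^ 2) ^ n := by
    rw [← conj_pow, hn', ← zpow_natCast, ← zpow_natCast, ← zpow_mul, ← zpow_mul, mul_comm]
  have h6 : t * x ^ 2 * t⁻¹ = x ^ 2 := by
    rcases Int.even_or_odd' n with ⟨m, hm | hm⟩
    · exfalso
      rw [hm, ← zpow_natCast x 2, ← zpow_mul, show ((2 : ℕ) : ℤ) * (2 * m) = 4 * m by push_cast; ring, zpow_mul, h4, one_zpow] at h5
      have h7 : x ^ 2 = 1 := by
        calc x ^ 2 = t⁻¹ * (t * x ^ 2 * t⁻¹) * t := by group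
          _ = 1 := by
            rw [show t * x ^ 2 * t⁻¹ = 1 by rw [← zpow_natCast x 2]; exact h5]; group
      have h8 := orderOf_dvd_of_pow_eq_one h7
      rw [ho] at h8; omega
    · rw [h5, hm, zpow_add, zpow_mul, zpow_one]
      have h7 : (x ^ 2) ^ (2 : ℤ) = 1 := by
        rw [← zpow_natCast x 2, ← zpow_mul]; exact h4
      rw [h7, one_zpow, one_mul]
  exact mul_inv_eq_iff_eq_mul.1 h6

theorem cent_central (T : Sylow 2 G) {z : G} (hz : z ∈ (T : Subgroup G)) (hz1 : z ≠ 1) (hc : ∀ t ∈ (T : Subgroup G), t * z = z * t) :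
    Subgroup.centralizer ({z} : Set G) = T ∧ orderOf z = 2 := by
  have hle : (T : Subgroup G) ≤ Subgroup.centralizer ({z} : Set G) := by
    intro t ht
    rw [Subgroup.mem_centralizer_singleton_iff]
    exact hc t ht
  have h1 : orderOf z ∣ 8 := by
    have := Subgroup.orderOf_dvd_natCard _ hz
    rwa [c2 h T] at this
  have h2 : orderOf z = 2 := by
    have h3 := Nat.le_of_dvd (by norm_num) h1
    have h4 : orderOf z ≠ 1 := fun h5 => hz1 (orderOf_eq_one_iff.1 h5)
    -- order 4 or 8: T / ⟨z⟩ cyclic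
    have h5 : ¬ 4 ∣ orderOf z := by
      intro h6
      apply nonab h T
      -- T/Z(T) has order dividing 2
      have h7 : (⟨z, hz⟩ : (T : Subgroup G)) ∈ Subgroup.center (T : Subgroup G) := by
        rw [Subgroup.mem_center_iff]
        intro t
        exact Subtype.ext (hc t t.2)
      have h8 : 4 ∣ Nat.card (Subgroup.center (T : Subgroup G)) := by
        have := Subgroup.orderOf_dvd_natCard _ h7
        rw [Subgroup.orderOf_mk] at this
        exact h6.trans this
      have h9 : (Subgroup.center (T : Subgroup G)).index ∣ 2 := by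
        have h10 := Subgroup.index_mul_card (Subgroup.center (T : Subgroup G))
        rw [c2 h T] at h10
        obtain ⟨k, hk⟩ := h8
        rw [hk] at h10
        exact ⟨k, by nlinarith [h10]⟩
      have h11 : IsCyclic ((T : Subgroup G) ⧸ Subgroup.center (T : Subgroup G)) := by
        rcases (Nat.dvd_prime Nat.prime_two).1 h9 with h12 | h12
        · haveI : Subsingleton ((T : Subgroup G) ⧸ Subgroup.center (T : Subgroup G)) := (Nat.card_eq_one_iff_unique.1 h12).1
          infer_instance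
        · exact isCyclic_of_prime_card h12
      exact ⟨⟨commutative_of_cyclic_center_quotient (QuotientGroup.mk' (Subgroup.center (T : Subgroup G))) (by rw [QuotientGroup.ker_mk'])⟩⟩
    interval_cases orderOf z <;> omega
  refine ⟨?_, h2⟩
  exact T.3 (isPGroup_cent h h2) hle

theorem T_of_order4 (T : Sylow 2 G) {x : G} (hx : x ∈ (T : Subgroup G)) (ho : orderOf x = 4) :
    Subgroup.centralizer ({x ^ 2} : Set G) = T := by
  refine (cent_central h T ((T : Subgroup G).pow_mem hx 2) ?_ (fun t ht => sq_central h T hx ho t ht)).1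
  intro h1
  have := orderOf_dvd_of_pow_eq_one h1
  rw [ho] at this; omega

theorem ord_T (T : Sylow 2 G) {x : G} (hx : x ∈ (T : Subgroup G)) : orderOf x = 1 ∨ orderOf x = 2 ∨ orderOf x = 4 := by
  have h1 : orderOf x ∣ 8 := by
    have := Subgroup.orderOf_dvd_natCard _ hx
    rwa [c2 h T] at this
  have h2 : orderOf x ≠ 8 := by
    intro h3
    apply nonab h T
    have h4 : orderOf (⟨x, hx⟩ : (T : Subgroup G)) = Nat.card (T : Subgroup G) := by
      rw [Subgroup.orderOf_mk, h3, c2 h T]
    haveI := isCyclic_of_orderOf_eq_card _ h4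
    exact IsCyclic.isMulCommutative
  have h3 := Nat.le_of_dvd (by norm_num) h1
  interval_cases orderOf x <;> omega

theorem ord_all (g : G) : orderOf g = 1 ∨ orderOf g = 2 ∨ orderOf g = 3 ∨ orderOf g = 4 ∨ orderOf g = 7 := by
  rcases ord_cases h g with h1 | h1 | h1
  · tauto
  · tauto
  · obtain ⟨T, hT⟩ := mem_syl h h1
    have := ord_T h T hT
    tauto

theorem exists4 (T : Sylow 2 G) : ∃ x ∈ (T : Subgroup G), orderOf x = 4 := by
  by_contra hcon
  push Not at hcon
  apply nonab h T
  have h1 : ∀ t : (T : Subgroup G), t * t = 1 := by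
    intro t
    apply Subtype.ext
    rcases ord_T h T t.2 with h2 | h2 | h2
    · rw [Subgroup.coe_mul, orderOf_eq_one_iff.1 h2]; simp
    · have h3 := pow_orderOf_eq_one (t : G)
      rw [h2] at h3
      rw [Subgroup.coe_mul, ← pow_two, h3]; rfl
    · exact absurd h2 (hcon t t.2)
  refine ⟨⟨fun a b => ?_⟩⟩
  have h2 := h1 (a * b)
  calc a * b = a * (a * b * (a * b)) * b := by rw [h2, mul_one]
    _ = (a * a) * (b * a) * (b * b) := by group
    _ = b * a := by rw [h1, h1, one_mul, mul_one]

theorem exists_central (T : Sylow 2 G) : ∃ z ∈ (T : Subgroup G), orderOf z = 2 ∧ Subgroup.centralizer ({z} : Set G) = T := by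
  obtain ⟨x, hx, ho⟩ := exists4 h T
  refine ⟨x ^ 2, (T : Subgroup G).pow_mem hx 2, ?_, T_of_order4 h T hx ho⟩
  rw [orderOf_pow_of_dvd two_ne_zero (by rw [ho]; norm_num), ho]

theorem kT_ge (T : Sylow 2 G) : 2 ≤ Nat.card {t : (T : Subgroup G) // orderOf t = 4} := by
  obtain ⟨x, hx, ho⟩ := exists4 h T
  have hne : (⟨x, hx⟩ : (T : Subgroup G)) ≠ ⟨x, hx⟩⁻¹ := by
    intro h1
    have h2 : x ^ 2 = 1 := by
      have h3 : x = x⁻¹ := congrArg Subtype.val h1
      rw [pow_two]; nth_rewrite 1 [h3]; exact inv_mul_cancel x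
    have := orderOf_dvd_of_pow_eq_one h2
    rw [ho] at this; omega
  have h4 : orderOf (⟨x, hx⟩ : (T : Subgroup G)) = 4 := by rw [Subgroup.orderOf_mk]; exact ho
  refine le_trans (Nat.card_fin 2).ge ?_
  apply Nat.card_le_card_of_injective (fun i : Fin 2 => if i = 0 then (⟨⟨x, hx⟩, h4⟩ : {t : (T : Subgroup G) // orderOf t = 4}) else ⟨⟨x, hx⟩⁻¹, by rw [orderOf_inv, h4]⟩)
  intro i j hij
  fin_cases i <;> fin_cases j
  · rfl
  · exact absurd (congrArg Subtype.val hij) hne
  · exact absurd (congrArg Subtype.val hij) (Ne.symm hne)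
  · rfl

theorem sum_le : ∑ᶠ T : Sylow 2 G, Nat.card {t : (T : Subgroup G) // orderOf t = 4} ≤ Nat.card {g : G // orderOf g = 4} := by
  haveI := Fintype.ofFinite (Sylow 2 G)
  rw [finsum_eq_sum_of_fintype, ← Nat.card_sigma]
  apply Nat.card_le_card_of_injective (fun x : Σ T : Sylow 2 G, {t : (T : Subgroup G) // orderOf t = 4} =>
    (⟨(x.2.1 : G), by rw [Subgroup.orderOf_coe]; exact x.2.2⟩ : {g : G // orderOf g = 4}))
  rintro ⟨T, ⟨⟨t, ht⟩, ho⟩⟩ ⟨T', ⟨⟨t', ht'⟩, ho'⟩⟩ heq
  have h1 : t = t' := congrArg Subtype.val heq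
  subst h1
  rw [Subgroup.orderOf_mk] at ho
  have h2 := T_of_order4 h T ht ho
  have h3 := T_of_order4 h T' ht' ho
  have h4 : T = T' := Sylow.ext (h2.symm.trans h3)
  subst h4
  rfl

theorem e24 : Nat.card {g : G // orderOf g = 2} + Nat.card {g : G // orderOf g = 4} = 63 := by
  classical
  haveI := Fintype.ofFinite G
  rw [← e8' h, Nat.card_eq_fintype_card, Nat.card_eq_fintype_card, Nat.card_eq_fintype_card, Fintype.card_subtype, Fintype.card_subtype,
    Fintype.card_subtype, ← Finset.card_union_of_disjoint]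
  · congr 1
    ext g
    simp only [Finset.mem_union, Finset.mem_filter, Finset.mem_univ, true_and]
    constructor
    · rintro (h1 | h1)
      · exact ⟨by rw [h1]; norm_num, fun h2 => by rw [h2, orderOf_one] at h1; omega⟩
      · exact ⟨by rw [h1]; norm_num, fun h2 => by rw [h2, orderOf_one] at h1; omega⟩
    · rintro ⟨h1, h2⟩
      rcases ord_all h g with h3 | h3 | h3 | h3 | h3
      · exact absurd (orderOf_eq_one_iff.1 h3) h2
      · exact Or.inl h3
      · rw [h3] at h1; omega
      · exact Or.inr h3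
      · rw [h3] at h1; omega
  · rw [Finset.disjoint_filter]
    intro g _ h1 h2
    rw [h1] at h2; omega

theorem conj_ord {a b : G} (hab : ConjClasses.mk a = ConjClasses.mk b) : orderOf a = orderOf b := by
  obtain ⟨c, hc⟩ := isConj_iff.1 (ConjClasses.mk_eq_mk_iff_isConj.1 hab)
  rw [← hc]
  exact (MulEquiv.orderOf_eq (MulAut.conj c) a).symm

theorem class_inv (T : Sylow 2 G) {z : G} (hz : Subgroup.centralizer ({z} : Set G) = T) :
    Nat.card {k : G // ConjClasses.mk k = ConjClasses.mk z} = 21 := by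
  have h1 := card_class_mul' z
  rw [hz, c2 h T, h] at h1
  omega

theorem class_le {z : G} {n : ℕ} (hz : orderOf z = n) : Nat.card {k : G // ConjClasses.mk k = ConjClasses.mk z} ≤ Nat.card {g : G // orderOf g = n} := by
  apply Nat.card_le_card_of_injective (fun x : {k : G // ConjClasses.mk k = ConjClasses.mk z} => (⟨x.1, (conj_ord h x.2).trans hz⟩ : {g : G // orderOf g = n}))
  intro a b hab
  exact Subtype.ext (congrArg (fun t : {g : G // orderOf g = n} => t.1) hab)

theorem class_all {z : G} {n : ℕ} (hz : orderOf z = n) (hcard : Nat.card {g : G // orderOf g = n} ≤ Nat.card {k : G // ConjClasses.mk k = ConjClasses.mk z})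
    {t : G} (ht : orderOf t = n) : IsConj z t := by
  have h1 : Function.Injective (fun x : {k : G // ConjClasses.mk k = ConjClasses.mk z} => (⟨x.1, (conj_ord h x.2).trans hz⟩ : {g : G // orderOf g = n})) := by
    intro a b hab
    exact Subtype.ext (congrArg (fun t : {g : G // orderOf g = n} => t.1) hab)
  have h2 := Nat.bijective_iff_injective_and_card _ |>.2 ⟨h1, le_antisymm (class_le h hz) hcard⟩
  obtain ⟨y, hy⟩ := h2.2 ⟨t, ht⟩
  have h3 : y.1 = t := congrArg Subtype.val hy
  rw [← h3]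
  exact (ConjClasses.mk_eq_mk_iff_isConj.1 y.2).symm

theorem e2_ge : 21 ≤ Nat.card {g : G // orderOf g = 2} := by
  obtain ⟨T⟩ : Nonempty (Sylow 2 G) := inferInstance
  obtain ⟨z, hz, ho, hc⟩ := exists_central h T
  rw [← class_inv h T hc]
  exact class_le h ho

theorem sum_ge : 42 ≤ ∑ᶠ T : Sylow 2 G, Nat.card {t : (T : Subgroup G) // orderOf t = 4} := by
  haveI := Fintype.ofFinite (Sylow 2 G)
  rw [finsum_eq_sum_of_fintype]
  have h1 : ∑ _T : Sylow 2 G, 2 = 42 := by
    rw [Finset.sum_const, smul_eq_mul, Finset.card_univ, ← Nat.card_eq_fintype_card, n2 h]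
  rw [← h1]
  exact Finset.sum_le_sum fun T _ => kT_ge h T

theorem e4 : Nat.card {g : G // orderOf g = 4} = 42 := by
  have h1 := e24 h
  have h2 := e2_ge h
  have h3 := sum_ge h
  have h4 := sum_le h
  omega

theorem e2 : Nat.card {g : G // orderOf g = 2} = 21 := by
  have h1 := e24 h
  have h2 := e4 h
  omega

theorem kT (T : Sylow 2 G) : Nat.card {t : (T : Subgroup G) // orderOf t = 4} = 2 := by
  by_contra hne
  have h0 := kT_ge h T
  have h3 := sum_le h
  rw [e4 h] at h3
  haveI := Fintype.ofFinite (Sylow 2 G)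
  rw [finsum_eq_sum_of_fintype] at h3
  have h1 : ∑ _T : Sylow 2 G, 2 = 42 := by
    rw [Finset.sum_const, smul_eq_mul, Finset.card_univ, ← Nat.card_eq_fintype_card, n2 h]
  have h2 : ∑ _T : Sylow 2 G, 2 < ∑ T : Sylow 2 G, Nat.card {t : (T : Subgroup G) // orderOf t = 4} :=
    Finset.sum_lt_sum (fun T _ => kT_ge h T) ⟨T, Finset.mem_univ _, by omega⟩
  omega

theorem inv_conj {s t : G} (hs : orderOf s = 2) (ht : orderOf t = 2) : IsConj s t := by
  obtain ⟨T⟩ : Nonempty (Sylow 2 G) := inferInstance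
  obtain ⟨z, hz, ho, hc⟩ := exists_central h T
  have hle : Nat.card {g : G // orderOf g = 2} ≤ Nat.card {k : G // ConjClasses.mk k = ConjClasses.mk z} := by
    rw [class_inv h T hc, e2 h]
  exact (class_all h ho hle hs).symm.trans (class_all h ho hle ht)

/-- elements of order four of `T` -/
theorem four_eq (T : Sylow 2 G) {x y : (T : Subgroup G)} (hx : orderOf x = 4) (hy : orderOf y = 4) : y = x ∨ y = x⁻¹ := by
  classical
  by_contra hcon
  push Not at hcon
  have hne : x ≠ x⁻¹ := by
    intro h1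
    have h2 : x ^ 2 = 1 := by
      rw [pow_two]; nth_rewrite 1 [h1]; exact inv_mul_cancel x
    have := orderOf_dvd_of_pow_eq_one h2
    rw [hx] at this; omega
  haveI := Fintype.ofFinite (T : Subgroup G)
  have h1 := kT h T
  rw [Nat.card_eq_fintype_card, Fintype.card_subtype] at h1
  have h2 : ({x, x⁻¹, y} : Finset (T : Subgroup G)) ⊆ Finset.univ.filter (fun t : (T : Subgroup G) => orderOf t = 4) := by
    intro t ht
    simp only [Finset.mem_insert, Finset.mem_singleton] at ht
    simp only [Finset.mem_filter, Finset.mem_univ, true_and]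
    rcases ht with rfl | rfl | rfl
    · exact hx
    · rw [orderOf_inv]; exact hx
    · exact hy
  have h3 := Finset.card_le_card h2
  have h4 : ({x, x⁻¹, y} : Finset (T : Subgroup G)).card = 3 := by
    rw [Finset.card_insert_of_notMem, Finset.card_insert_of_notMem, Finset.card_singleton]
    · simp only [Finset.mem_singleton]; exact Ne.symm hcon.2
    · simp only [Finset.mem_insert, Finset.mem_singleton, not_or]
      exact ⟨hne, Ne.symm hcon.1⟩
  omega

theorem dih (T : Sylow 2 G) : ∃ c w : (T : Subgroup G), orderOf c = 4 ∧ w * w = 1 ∧ w ∉ Subgroup.zpowers c ∧ w * c * w = c⁻¹ ∧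
    ∀ t : (T : Subgroup G), (∃ k : ℕ, t = c ^ k) ∨ (∃ k : ℕ, t = w * c ^ k) := by
  obtain ⟨x, hx, ho⟩ := exists4 h T
  set c : (T : Subgroup G) := ⟨x, hx⟩ with hc
  have hco : orderOf c = 4 := by rw [hc, Subgroup.orderOf_mk]; exact ho
  have hidx : (Subgroup.zpowers c).index = 2 := by
    have h2 := Subgroup.index_mul_card (Subgroup.zpowers c)
    rw [Nat.card_zpowers, hco, c2 h T] at h2
    omega
  obtain ⟨w, hw⟩ : ∃ w : (T : Subgroup G), w ∉ Subgroup.zpowers c := by
    by_contra hcon
    push Not at hcon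
    have : Subgroup.zpowers c = ⊤ := by rw [eq_top_iff]; exact fun t _ => hcon t
    rw [this, Subgroup.index_top] at hidx
    omega
  have hw4 : orderOf w ≠ 4 := by
    intro h4
    rcases four_eq h T hco h4 with h5 | h5
    · exact hw (h5 ▸ Subgroup.mem_zpowers c)
    · exact hw (h5 ▸ Subgroup.inv_mem _ (Subgroup.mem_zpowers c))
  have hww : w * w = 1 := by
    have h3 := ord_T h T w.2
    rw [Subgroup.orderOf_coe] at h3
    rcases h3 with h3 | h3 | h3
    · rw [orderOf_eq_one_iff.1 h3, one_mul]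
    · have h4 := pow_orderOf_eq_one w
      rw [h3] at h4
      rw [← pow_two, h4]
    · exact absurd h3 hw4
  have hgen : ∀ t : (T : Subgroup G), (∃ k : ℕ, t = c ^ k) ∨ (∃ k : ℕ, t = w * c ^ k) := by
    intro t
    by_cases ht : t ∈ Subgroup.zpowers c
    · left
      obtain ⟨k, hk⟩ := mem_powers_iff_mem_zpowers.2 ht
      exact ⟨k, hk.symm⟩
    · right
      have h4 : w * t ∈ Subgroup.zpowers c := by
        rw [Subgroup.mul_mem_iff_of_index_two hidx]
        exact ⟨fun h5 => absurd h5 hw, fun h5 => absurd h5 ht⟩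
      obtain ⟨k, hk⟩ := mem_powers_iff_mem_zpowers.2 h4
      refine ⟨k, ?_⟩
      have hk' : c ^ k = w * t := hk
      rw [hk', ← mul_assoc, hww, one_mul]
  refine ⟨c, w, hco, hww, hw, ?_, hgen⟩
  have hwi : w⁻¹ = w := inv_eq_of_mul_eq_one_left hww
  have h5 : orderOf (w * c * w) = 4 := by
    nth_rewrite 2 [← hwi]
    rw [← MulAut.conj_apply, MulEquiv.orderOf_eq]; exact hco
  rcases four_eq h T hco h5 with h6 | h6
  · exfalso
    apply nonab h T
    have h7 : Commute w c := by
      change w * c = c * w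
      calc w * c = w * c * w * w := by rw [mul_assoc (w * c), hww, mul_one]
        _ = c * w := by rw [h6]
    refine ⟨⟨fun a b => ?_⟩⟩
    rcases hgen a with ⟨i, rfl⟩ | ⟨i, rfl⟩ <;> rcases hgen b with ⟨j, rfl⟩ | ⟨j, rfl⟩
    · exact ((Commute.refl c).pow_pow i j).eq
    · exact (((h7.symm.pow_left i)).mul_right ((Commute.refl c).pow_pow i j)).eq
    · exact (((h7.pow_right j)).mul_left ((Commute.refl c).pow_pow i j)).eq
    · exact ((((Commute.refl w).mul_right (h7.pow_right j))).mul_left ((h7.symm.pow_left i).mul_right ((Commute.refl c).pow_pow i j))).eq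
  · exact h6

theorem dihIso (T : Sylow 2 G) : Nonempty ((T : Subgroup G) ≃* DihedralGroup 4) := by
  obtain ⟨c, w, hc, hw, hwc, hcw, hgen⟩ := dih h T
  exact CfsgH9.Dih.dihedral_of (n := 4) (c := c) (w := w) (by rw [← hc, pow_orderOf_eq_one]) hw hcw (by rw [c2 h T]) hgen

end CfsgH3.K168
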