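import Mathlib
import Cfsg.Agent.H3.FrobCount
import Cfsg.Agent.H1.MinNormal

set_option autoImplicit false

/-!
Frobenius' conjecture for solvable groups.
-/

namespace CfsgH3

open Subgroup

universe u

/-- preimage counting for a quotient -/
theorem card_quot_preimage {G : Type u} [Group G] [Finite G] (M : Subgroup G) [M.Normal] (k : ℕ) : 
    Nat.card {x : G // x ^ k ∈ M} = Nat.card {y : G ⧸ M // y ^ k = 1} * Nat.card M := by
  apply card_fibres_const (fun x : {x : G // x ^ k ∈ M} => 
    (⟨QuotientGroup.mk x.1, by rw [← QuotientGroup.mk_pow, QuotientGroup.eq_one_iff]; exact x.2⟩ : {y : G ⧸ M // y ^ k = 1}))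
  rintro ⟨y, hy⟩
  obtain ⟨y, rfl⟩ := QuotientGroup.mk_surjective y
  rw [← QuotientGroup.mk_pow, QuotientGroup.eq_one_iff] at hy
  apply Nat.card_congr
  refine
    { toFun := fun x => ⟨y⁻¹ * x.1.1, QuotientGroup.eq.1 (congrArg Subtype.val x.2).symm⟩
      invFun := fun m => ⟨⟨y * m.1, ?_⟩, ?_⟩
      left_inv := ?_
      right_inv := ?_ }
  · rw [← QuotientGroup.eq_one_iff, QuotientGroup.mk_pow, QuotientGroup.mk_mul, (QuotientGroup.eq_one_iff m.1).2 m.2, mul_one,
      ← QuotientGroup.mk_pow, QuotientGroup.eq_one_iff]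
    exact hy
  · apply Subtype.ext
    show (QuotientGroup.mk (y * m.1) : G ⧸ M) = QuotientGroup.mk y
    rw [QuotientGroup.mk_mul, (QuotientGroup.eq_one_iff m.1).2 m.2, mul_one]
  · intro x
    apply Subtype.ext; apply Subtype.ext
    show y * (y⁻¹ * x.1.1) = x.1.1
    group
  · intro m
    apply Subtype.ext
    show y⁻¹ * (y * m.1) = m.1
    group

/-- a subgroup of order `n` contained in a set with `n` elements is the set -/
theorem eq_of_card_solutions {G : Type u} [Group G] [Finite G] {n : ℕ} (H : Subgroup G) (hH : Nat.card H = n) (h : ∀ x ∈ H, x ^ n = 1) 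
    (hcount : Nat.card {x : G // x ^ n = 1} = n) : (H : Set G) = {x : G | x ^ n = 1} := by
  apply Set.eq_of_subset_of_ncard_le
  · intro x hx; exact h x hx
  · rw [← Nat.card_coe_set_eq, ← Nat.card_coe_set_eq]
    exact le_of_eq (hcount.trans hH.symm)
  · exact Set.toFinite _

theorem solv_frob (N : ℕ) : ∀ (G : Type u) [Group G] [Finite G] [Group.IsSolvable G] (_ : Nat.card G = N) (n : ℕ), n ∣ Nat.card G → 
    Nat.card {x : G // x ^ n = 1} = n → ∃ H : Subgroup G, (H : Set G) = {x : G | x ^ n = 1} := by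
  induction N using Nat.strong_induction_on with
  | _ N ih =>
  intro G _ _ _ hN n hn hcount
  by_cases hnt : Nontrivial G
  swap
  · haveI := not_nontrivial_iff_subsingleton.1 hnt
    refine ⟨⊤, ?_⟩
    ext x
    simp only [coe_top, Set.mem_univ, true_iff]
    exact Subsingleton.elim _ _
  obtain ⟨M, hMn, hM1, -, hMc, p, hp, hMp, hMpg⟩ := CfsgH1.exists_minNormal_pgroup (G := G)
  haveI := Fact.mk hp
  have hcG : Nat.card (G ⧸ M) * Nat.card M = Nat.card G := by
    rw [mul_comm]; exact Subgroup.card_mul_index M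
  have hM0 : 0 < Nat.card M := Nat.card_pos
  have hM2 : 1 < Nat.card M := by
    rw [Subgroup.one_lt_card_iff_ne_bot]; exact hM1
  have hQ0 : 0 < Nat.card (G ⧸ M) := Nat.card_pos
  have hlt : Nat.card (G ⧸ M) < N := by
    rw [← hN, ← hcG]; nlinarith
  obtain ⟨i, hi⟩ := IsPGroup.iff_card.1 hMpg
  have hi0 : i ≠ 0 := by rintro rfl; rw [pow_zero] at hi; omega
  have hpM : p ∣ Nat.card M := by rw [hi]; exact dvd_pow_self p hi0
  haveI : Group.IsSolvable (G ⧸ M) := Group.isSolvable_of_surjective (f := QuotientGroup.mk' M) (QuotientGroup.mk'_surjective M)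
  have hsol_pos : ∀ k : ℕ, 0 < Nat.card {y : G ⧸ M // y ^ k = 1} := by
    intro k
    haveI : Nonempty {y : G ⧸ M // y ^ k = 1} := ⟨⟨1, one_pow k⟩⟩
    exact Nat.card_pos
  by_cases hpn : p ∣ n
  · -- first case
    set d := Nat.gcd n (Nat.card M) with hd
    have hd0 : 0 < d := Nat.gcd_pos_of_pos_right _ hM0
    obtain ⟨k, hk⟩ : d ∣ n := Nat.gcd_dvd_left _ _
    have hpd : p ∣ d := Nat.dvd_gcd hpn hpM
    have hkQ : k ∣ Nat.card (G ⧸ M) := by
      obtain ⟨l, hl⟩ : d ∣ Nat.card M := Nat.gcd_dvd_right _ _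
      have h1 : Nat.Coprime k l := by
        have h2 : Nat.gcd (d * k) (d * l) = d := by rw [← hk, ← hl]
        rw [Nat.gcd_mul_left] at h2
        exact Nat.eq_of_mul_eq_mul_left hd0 (by rw [h2, mul_one])
      have h3 : d * k ∣ Nat.card (G ⧸ M) * (d * l) := by rw [← hk, ← hl, hcG]; exact hn
      have h4 : d * k ∣ d * (Nat.card (G ⧸ M) * l) := by
        refine h3.trans (dvd_of_eq (by ring))
      exact h1.dvd_of_dvd_mul_right (Nat.dvd_of_mul_dvd_mul_left hd0 h4)
    have h1 : k ≤ Nat.card {y : G ⧸ M // y ^ k = 1} := Nat.le_of_dvd (hsol_pos k) (frobenius_dvd k hkQ)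
    have h2 := card_quot_preimage M k
    have hsub : ∀ x : G, x ^ k ∈ M → x ^ n = 1 := by
      intro x hx
      obtain ⟨l, hl⟩ := hpd
      rw [hk, hl, show p * l * k = k * p * l by ring, pow_mul, pow_mul, hMp _ hx, one_pow]
    have h3 : Nat.card {x : G // x ^ k ∈ M} ≤ n := by
      rw [← hcount]
      exact Nat.card_le_card_of_injective (fun x : {x : G // x ^ k ∈ M} => (⟨x.1, hsub x.1 x.2⟩ : {x : G // x ^ n = 1}))
        (fun x y hxy => Subtype.ext (by
          have := congrArg (fun z : {x : G // x ^ n = 1} => z.1) hxy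
          exact this))
    have hk0 : 0 < k := Nat.pos_of_ne_zero (by rintro rfl; rw [mul_zero] at hk; subst hk; rw [Nat.gcd_zero_left] at hd; 
                                               have := hsol_pos 0; rw [h2] at h3; nlinarith)
    have hdM : d = Nat.card M := by
      apply Nat.le_antisymm (Nat.le_of_dvd hM0 (Nat.gcd_dvd_right _ _))
      rw [h2] at h3
      have : k * Nat.card M ≤ k * d := by
        calc k * Nat.card M ≤ Nat.card {y : G ⧸ M // y ^ k = 1} * Nat.card M := Nat.mul_le_mul_right _ h1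
          _ ≤ n := h3
          _ = k * d := by rw [hk, mul_comm]
      exact Nat.le_of_mul_le_mul_left this hk0
    have h4 : Nat.card {y : G ⧸ M // y ^ k = 1} = k := by
      apply Nat.le_antisymm _ h1
      rw [h2, hk, hdM, mul_comm (Nat.card M) k] at h3
      exact Nat.le_of_mul_le_mul_right h3 hM0
    obtain ⟨H, hH⟩ := ih _ hlt (G ⧸ M) rfl k hkQ h4
    refine ⟨H.comap (QuotientGroup.mk' M), eq_of_card_solutions _ ?_ ?_ hcount⟩
    · have h5 : Nat.card (H.comap (QuotientGroup.mk' M)) = Nat.card {x : G // x ^ k ∈ M} := by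
        apply Nat.card_congr
        apply Equiv.subtypeEquivRight
        intro x
        rw [Subgroup.mem_comap, ← SetLike.mem_coe, hH]
        show (QuotientGroup.mk x : G ⧸ M) ^ k = 1 ↔ _
        rw [← QuotientGroup.mk_pow, QuotientGroup.eq_one_iff]
      rw [h5, h2, h4, hk, hdM, mul_comm]
    · intro x hx
      apply hsub
      rw [Subgroup.mem_comap, ← SetLike.mem_coe, hH] at hx
      have : (QuotientGroup.mk x : G ⧸ M) ^ k = 1 := hx
      rwa [← QuotientGroup.mk_pow, QuotientGroup.eq_one_iff] at this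
  · -- second case
    have hco : Nat.Coprime n (Nat.card M) := by
      rw [hi]; exact (Nat.Coprime.pow_left i ((Nat.Prime.coprime_iff_not_dvd hp).2 hpn)).symm
    have hnQ : n ∣ Nat.card (G ⧸ M) := hco.dvd_of_dvd_mul_right (by rw [hcG]; exact hn)
    have h1 : n ≤ Nat.card {y : G ⧸ M // y ^ n = 1} := Nat.le_of_dvd (hsol_pos n) (frobenius_dvd n hnQ)
    have h2 : Nat.card {y : G ⧸ M // y ^ n = 1} ≤ n := by
      conv_rhs => rw [← hcount]
      apply Nat.card_le_card_of_surjective (fun x : {x : G // x ^ n = 1} => 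
        (⟨QuotientGroup.mk x.1, by rw [← QuotientGroup.mk_pow, x.2]; rfl⟩ : {y : G ⧸ M // y ^ n = 1}))
      rintro ⟨y, hy⟩
      obtain ⟨x, rfl⟩ := QuotientGroup.mk_surjective y
      rw [← QuotientGroup.mk_pow, QuotientGroup.eq_one_iff] at hy
      have hpn' : Nat.Coprime p n := (Nat.Prime.coprime_iff_not_dvd hp).2 hpn
      obtain ⟨u, hu1, hu2⟩ := Nat.chineseRemainder hpn' 0 1
      obtain ⟨v, hv⟩ := (Nat.modEq_zero_iff_dvd).1 hu1
      refine ⟨⟨x ^ u, ?_⟩, ?_⟩
      · rw [← pow_mul, hv, show p * v * n = n * p * v by ring, pow_mul, pow_mul, hMp _ hy, one_pow]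
      · apply Subtype.ext
        show (QuotientGroup.mk (x ^ u) : G ⧸ M) = QuotientGroup.mk x
        rw [QuotientGroup.mk_pow]
        have h3 : (QuotientGroup.mk x : G ⧸ M) ^ n = 1 := by rw [← QuotientGroup.mk_pow, QuotientGroup.eq_one_iff]; exact hy
        have h4 : (QuotientGroup.mk x : G ⧸ M) ^ u = (QuotientGroup.mk x : G ⧸ M) ^ 1 := by
          rw [pow_eq_pow_iff_modEq]
          exact hu2.of_dvd (orderOf_dvd_of_pow_eq_one h3)
        rw [h4, pow_one]
    have h4 := le_antisymm h2 h1
    obtain ⟨H, hH⟩ := ih _ hlt (G ⧸ M) rfl n hnQ h4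
    have hcH : Nat.card H = n := by
      rw [← h4]
      apply Nat.card_congr
      apply Equiv.subtypeEquivRight
      intro x
      rw [← SetLike.mem_coe, hH]; rfl
    let K := H.comap (QuotientGroup.mk' M)
    have hMK : M ≤ K := by
      intro x hx
      rw [Subgroup.mem_comap]
      rw [show QuotientGroup.mk' M x = 1 from (QuotientGroup.eq_one_iff x).2 hx]
      exact one_mem _
    have hcK : Nat.card K = n * Nat.card M := by
      have h5 : Nat.card K = Nat.card {x : G // x ^ n ∈ M} := by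
        apply Nat.card_congr
        apply Equiv.subtypeEquivRight
        intro x
        rw [Subgroup.mem_comap, ← SetLike.mem_coe, hH]
        show (QuotientGroup.mk x : G ⧸ M) ^ n = 1 ↔ _
        rw [← QuotientGroup.mk_pow, QuotientGroup.eq_one_iff]
      rw [h5, card_quot_preimage M n, h4]
    have hcM : Nat.card (M.subgroupOf K) = Nat.card M := Nat.card_congr (Subgroup.subgroupOfEquivOfLe hMK).toEquiv
    have hidx : (M.subgroupOf K).index = n := by
      have := Subgroup.card_mul_index (M.subgroupOf K)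
      rw [hcM, hcK, mul_comm] at this
      exact Nat.eq_of_mul_eq_mul_right hM0 this
    obtain ⟨T, hT⟩ := Subgroup.exists_right_complement'_of_coprime (N := M.subgroupOf K) (by rw [hcM, hidx]; exact hco.symm)
    have hcT : Nat.card T = n := by
      have := hT.card_mul
      rw [hcM, hcK, mul_comm] at this
      exact Nat.eq_of_mul_eq_mul_right hM0 this
    have hcT' : Nat.card (T.map K.subtype) = n := by
      rw [Nat.card_congr (T.equivMapOfInjective _ K.subtype_injective).symm.toEquiv, hcT]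
    refine ⟨T.map K.subtype, eq_of_card_solutions _ hcT' ?_ hcount⟩
    intro x hx
    have : (⟨x, hx⟩ : T.map K.subtype) ^ Nat.card (T.map K.subtype) = 1 := pow_card_eq_one'
    rw [hcT'] at this
    exact congrArg Subtype.val this

end CfsgH3
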