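import Mathlib
import Cfsg.Agent.H3.SylNum
import Cfsg.Agent.H3.NoAct
import Cfsg.Agent.H3.NPC2

set_option autoImplicit false

/-! No finite group has exactly 15 Sylow 7-subgroups. -/

namespace CfsgH3

open Subgroup

universe u

section
variable {G : Type u} [Group G] [Finite G] [Fact (Nat.Prime 7)]

theorem s15_orbit (hcard : Nat.card (Sylow 7 G) = 15) {P Q : Sylow 7 G} (h : P ≠ Q) :
    Nat.card (MulAction.orbit (P : Subgroup G) Q) = 7 := by
  obtain ⟨k, hk1, hk⟩ := exists_card_orbit_sylow h
  have h1 := card_orbit_sylow_lt h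
  rw [hk, hcard] at h1
  rw [hk]
  have : k < 2 := by
    by_contra hcon
    push Not at hcon
    have := Nat.pow_le_pow_right (show 1 ≤ 7 by norm_num) hcon
    omega
  interval_cases k
  norm_num

theorem s15_three (hcard : Nat.card (Sylow 7 G) = 15) {P Q Q₂ : Sylow 7 G} (h : P ≠ Q) (h2 : P ≠ Q₂)
    (hQ : Q₂ ∉ MulAction.orbit (P : Subgroup G) Q) (R : Sylow 7 G) :
    R = P ∨ R ∈ MulAction.orbit (P : Subgroup G) Q ∨ R ∈ MulAction.orbit (P : Subgroup G) Q₂ := by
  have hd : Disjoint (MulAction.orbit (P : Subgroup G) Q) (MulAction.orbit (P : Subgroup G) Q₂) := by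
    rw [Set.disjoint_left]
    intro S hS1 hS2
    apply hQ
    rw [← MulAction.orbit_eq_iff] at hS1 hS2
    rw [← hS1, hS2]
    exact MulAction.mem_orbit_self Q₂
  have h3 : P ∉ MulAction.orbit (P : Subgroup G) Q ∪ MulAction.orbit (P : Subgroup G) Q₂ := by
    rintro (h3 | h3)
    · exact not_mem_orbit_self h h3
    · exact not_mem_orbit_self h2 h3
  have hc : (insert P (MulAction.orbit (P : Subgroup G) Q ∪ MulAction.orbit (P : Subgroup G) Q₂)).ncard = 15 := by
    rw [Set.ncard_insert_of_notMem h3 (Set.toFinite _), Set.ncard_union_eq hd (Set.toFinite _) (Set.toFinite _)]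
    rw [← Nat.card_coe_set_eq, ← Nat.card_coe_set_eq, s15_orbit hcard h, s15_orbit hcard h2]
  have huniv : insert P (MulAction.orbit (P : Subgroup G) Q ∪ MulAction.orbit (P : Subgroup G) Q₂) = Set.univ := by
    apply Set.eq_of_subset_of_ncard_le (Set.subset_univ _) _ (Set.toFinite _)
    rw [hc, Set.ncard_univ, hcard]
  have hR : R ∈ insert P (MulAction.orbit (P : Subgroup G) Q ∪ MulAction.orbit (P : Subgroup G) Q₂) := by
    rw [huniv]; trivial
  rcases hR with hR | hR | hR
  · exact Or.inl hR
  · exact Or.inr (Or.inl hR)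
  · exact Or.inr (Or.inr hR)

theorem s15_exists (hcard : Nat.card (Sylow 7 G) = 15) {P Q : Sylow 7 G} (h : P ≠ Q) :
    ∃ Q₂ : Sylow 7 G, P ≠ Q₂ ∧ Q₂ ∉ MulAction.orbit (P : Subgroup G) Q := by
  by_contra hcon
  push Not at hcon
  have h1 : insert P (MulAction.orbit (P : Subgroup G) Q) = Set.univ := by
    rw [Set.eq_univ_iff_forall]
    intro R
    by_cases hR : P = R
    · exact Or.inl hR.symm
    · exact Or.inr (hcon R hR)
  have h2 : (insert P (MulAction.orbit (P : Subgroup G) Q)).ncard = 8 := by
    rw [Set.ncard_insert_of_notMem (not_mem_orbit_self h) (Set.toFinite _), ← Nat.card_coe_set_eq, s15_orbit hcard h]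
  rw [h1, Set.ncard_univ, hcard] at h2
  omega

theorem s15_card (P Q : Sylow 7 G) : Nat.card (P : Subgroup G) = Nat.card (Q : Subgroup G) :=
  P.card_eq_multiplicity.trans Q.card_eq_multiplicity.symm

/-- the intersection of two distinct Sylow subgroups has index 7 -/
theorem s15_inter (hcard : Nat.card (Sylow 7 G) = 15) {P Q : Sylow 7 G} (h : P ≠ Q) :
    7 * Nat.card ↥((P : Subgroup G) ⊓ Q) = Nat.card P := by
  have h1 := card_orbit_sylow P Q
  rw [s15_orbit hcard h] at h1
  exact h1

/-- faithful action: distinct Sylow subgroups intersect trivially -/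
theorem s15_trivial (hcard : Nat.card (Sylow 7 G) = 15) (hfaith : ∀ g : G, (∀ P : Sylow 7 G, g • P = P) → g = 1)
    {P Q : Sylow 7 G} (h : P ≠ Q) : (P : Subgroup G) ⊓ Q = ⊥ := by
  classical
  by_contra hne
  haveI := Fintype.ofFinite (Sylow 7 G)
  have hne' : ∀ P Q : Sylow 7 G, P ≠ Q → (P : Subgroup G) ⊓ Q ≠ ⊥ := by
    intro P' Q' h' h0
    apply hne
    have h1 := s15_inter hcard h
    have h2 := s15_inter hcard h'
    rw [s15_card P P'] at h1
    rw [h0, Subgroup.card_bot] at h2
    apply Subgroup.eq_bot_of_card_eq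
    omega
  -- the number of Sylow subgroups containing an intersection is 8
  have key : ∀ P Q : Sylow 7 G, P ≠ Q →
      (Finset.univ.filter (fun R : Sylow 7 G => (P : Subgroup G) ⊓ Q ≤ (R : Subgroup G))).card = 8 := by
    intro P Q h
    set D := (P : Subgroup G) ⊓ Q with hD
    have hDn : ∀ u ∈ (P : Subgroup G), ∀ d ∈ D, u * d * u⁻¹ ∈ D := by
      have h1 : D.relIndex P = 7 := by
        have h2 : Nat.card D * D.relIndex P = Nat.card P := by
          have h20 := Subgroup.card_mul_index (D.subgroupOf (P : Subgroup G))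
          rw [Nat.card_congr (Subgroup.subgroupOfEquivOfLe (inf_le_left : D ≤ P)).toEquiv] at h20
          exact h20
        have h3 := s15_inter hcard h
        have h4 : 0 < Nat.card D := Nat.card_pos
        rw [← h3, mul_comm] at h2
        exact Nat.eq_of_mul_eq_mul_right h4 h2
      have hn : (D.subgroupOf P).Normal := by
        obtain ⟨n, hn⟩ := IsPGroup.iff_card.1 P.2
        apply Subgroup.normal_of_index_eq_minFac_card
        change D.relIndex P = _
        rw [h1, show Nat.card (P : Subgroup G) = 7 ^ n from hn]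
        have hn0 : n ≠ 0 := by
          rintro rfl
          have h3 := s15_inter hcard h
          rw [show Nat.card (P : Subgroup G) = 7 ^ 0 from hn, pow_zero] at h3
          omega
        rw [Nat.Prime.pow_minFac (by norm_num) hn0]
      intro u hu d hd
      exact hn.conj_mem ⟨d, (Subgroup.mem_inf.1 hd).1⟩ hd ⟨u, hu⟩
    have hclosed : ∀ R : Sylow 7 G, D ≤ (R : Subgroup G) → ∀ S ∈ MulAction.orbit (P : Subgroup G) R, D ≤ (S : Subgroup G) := by
      rintro R hR _ ⟨u, rfl⟩
      intro d hd
      change d ∈ (((u : G) • R : Sylow 7 G) : Subgroup G)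
      rw [mem_smul_coe]
      apply hR
      have := hDn (u : G)⁻¹ (inv_mem u.2) d hd
      rwa [inv_inv] at this
    have hset : Finset.univ.filter (fun R : Sylow 7 G => D ≤ (R : Subgroup G)) =
        (insert P (MulAction.orbit (P : Subgroup G) Q)).toFinset := by
      ext R
      rw [Finset.mem_filter, Set.mem_toFinset]
      constructor
      · rintro ⟨-, hR⟩
        by_contra hcon
        rw [Set.mem_insert_iff, not_or] at hcon
        obtain ⟨h1, h2⟩ := hcon
        -- then every Sylow subgroup contains D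
        have h3 : ∀ S : Sylow 7 G, D ≤ (S : Subgroup G) := by
          intro S
          rcases s15_three hcard h (Ne.symm h1) h2 S with h3 | h3 | h3
          · rw [h3]; exact inf_le_left
          · exact hclosed Q inf_le_right S h3
          · exact hclosed R hR S h3
        apply hne' P Q h
        rw [eq_bot_iff]
        intro d hd
        rw [Subgroup.mem_bot]
        apply hfaith
        intro S
        exact Sylow.smul_eq_iff_mem_normalizer.2 (Subgroup.le_normalizer (h3 S hd))
      · intro hR
        refine ⟨Finset.mem_univ _, ?_⟩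
        rcases hR with hR | hR
        · rw [hR]; exact inf_le_left
        · exact hclosed Q inf_le_right R hR
    rw [hset, ← Set.ncard_eq_toFinset_card', Set.ncard_insert_of_notMem (not_mem_orbit_self h) (Set.toFinite _),
      ← Nat.card_coe_set_eq, s15_orbit hcard h]
  -- double counting
  let X : Finset (Sylow 7 G × Sylow 7 G) := Finset.univ.offDiag
  have hX : X.card = 210 := by
    rw [Finset.offDiag_card, Finset.card_univ, ← Nat.card_eq_fintype_card, hcard]
  let f : Sylow 7 G × Sylow 7 G → Subgroup G := fun a => (a.1 : Subgroup G) ⊓ a.2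
  have h1 := Finset.card_eq_sum_card_image f X
  have h2 : ∀ D ∈ X.image f, (X.filter (fun a => f a = D)).card = 56 := by
    intro D hD
    obtain ⟨⟨P', Q'⟩, hPQ, rfl⟩ := Finset.mem_image.1 hD
    have hPQ' : P' ≠ Q' := (Finset.mem_offDiag.1 hPQ).2.2
    have h3 : X.filter (fun a => f a = f (P', Q')) =
        (Finset.univ.filter (fun R : Sylow 7 G => (P' : Subgroup G) ⊓ Q' ≤ (R : Subgroup G))).offDiag := by
      ext ⟨R, S⟩
      simp only [Finset.mem_filter, Finset.mem_offDiag, Finset.mem_univ, true_and, X, f]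
      constructor
      · rintro ⟨hRS, he⟩
        rw [← he]
        exact ⟨inf_le_left, inf_le_right, hRS⟩
      · rintro ⟨hR, hS, hRS⟩
        refine ⟨hRS, ?_⟩
        symm
        apply Subgroup.eq_of_le_of_card_ge (le_inf hR hS)
        have e1 := s15_inter hcard hRS
        have e2 := s15_inter hcard hPQ'
        rw [s15_card R P'] at e1
        omega
    rw [h3, Finset.offDiag_card, key P' Q' hPQ']
  rw [Finset.sum_congr rfl h2, Finset.sum_const, hX, smul_eq_mul] at h1
  omega

theorem s15_card7 (hcard : Nat.card (Sylow 7 G) = 15) (hfaith : ∀ g : G, (∀ P : Sylow 7 G, g • P = P) → g = 1)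
    (P : Sylow 7 G) : Nat.card (P : Subgroup G) = 7 := by
  haveI : Nontrivial (Sylow 7 G) := Finite.one_lt_card_iff_nontrivial.1 (by rw [hcard]; norm_num)
  obtain ⟨Q, hQ⟩ := exists_ne P
  have h1 := s15_inter hcard hQ.symm
  rw [s15_trivial hcard hfaith hQ.symm, Subgroup.card_bot] at h1
  omega

/-- an element centralizing `P` and fixing another Sylow subgroup is trivial -/
theorem s15_stab (hcard : Nat.card (Sylow 7 G) = 15) (hfaith : ∀ g : G, (∀ P : Sylow 7 G, g • P = P) → g = 1)
    {P Q : Sylow 7 G} (h : P ≠ Q) {c : G} (hc : c ∈ centralizer ((P : Subgroup G) : Set G)) (hcQ : c • Q = Q) : c = 1 := by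
  have hP7 := s15_card7 hcard hfaith P
  have hcomm : ∀ u ∈ (P : Subgroup G), ∀ R : Sylow 7 G, c • (u • R) = u • (c • R) := by
    intro u hu R
    rw [smul_smul, smul_smul, (Subgroup.mem_centralizer_iff.1 hc u hu)]
  have hcn : c ∈ normalizer ((P : Subgroup G) : Set G) := Subgroup.centralizer_le_normalizer _ hc
  have hcP : c • P = P := Sylow.smul_eq_iff_mem_normalizer.2 hcn
  obtain ⟨Q₂, hPQ₂, hQ₂⟩ := s15_exists hcard h
  obtain ⟨u, hu⟩ : c • Q₂ ∈ MulAction.orbit (P : Subgroup G) Q₂ := by
    rcases s15_three hcard h hPQ₂ hQ₂ (c • Q₂) with h1 | h1 | h1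
    · exfalso
      apply hPQ₂
      rw [← hcP] at h1
      exact (smul_left_cancel c h1).symm
    · exfalso
      apply hQ₂
      obtain ⟨v, hv⟩ := h1
      refine ⟨v, ?_⟩
      have hv' : (v : G) • Q = c • Q₂ := hv
      have h2 : c • ((v : G) • Q) = c • Q₂ := by rw [hcomm v v.2 Q, hcQ, hv']
      exact smul_left_cancel c h2
    · exact h1
  have hu' : (u : G) • Q₂ = c • Q₂ := hu
  have hPc : ∀ a ∈ (P : Subgroup G), ∀ b ∈ (P : Subgroup G), a * b = b * a := by
    haveI : IsCyclic (P : Subgroup G) := isCyclic_of_prime_card hP7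
    intro a ha b hb
    exact congrArg Subtype.val (IsCyclic.commGroup.mul_comm (⟨a, ha⟩ : (P : Subgroup G)) ⟨b, hb⟩)
  have hj : ∀ j : ℕ, c ^ j • Q₂ = (u : G) ^ j • Q₂ := by
    intro j
    induction j with
    | zero => simp
    | succ j ihj =>
      rw [pow_succ', mul_smul, ihj, hcomm _ (pow_mem u.2 j), ← hu', smul_smul, ← pow_succ]
  have hcommj : ∀ j : ℕ, ∀ u ∈ (P : Subgroup G), ∀ R : Sylow 7 G, c ^ j • (u • R) = u • (c ^ j • R) := by
    intro j
    induction j with
    | zero => intro u _ R; simp
    | succ j ihj =>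
      intro u hu R
      rw [pow_succ', mul_smul, mul_smul, ihj u hu, hcomm u hu]
  have hu7 : (u : G) ^ 7 = 1 := by
    have := congrArg Subtype.val (pow_card_eq_one' (x := u))
    rw [hP7] at this
    exact this
  have hc7 : c ^ 7 = 1 := by
    apply hfaith
    intro R
    rcases s15_three hcard h hPQ₂ hQ₂ R with h1 | h1 | h1
    · rw [h1]
      exact Sylow.smul_eq_iff_mem_normalizer.2 (pow_mem hcn 7)
    · obtain ⟨v, hv⟩ := h1
      have hv' : (v : G) • Q = R := hv
      rw [← hv', hcommj 7 v v.2]
      congr 1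
      have : ∀ j : ℕ, c ^ j • Q = Q := by
        intro j
        induction j with
        | zero => simp
        | succ j ihj => rw [pow_succ', mul_smul, ihj, hcQ]
      exact this 7
    · obtain ⟨v, hv⟩ := h1
      have hv' : (v : G) • Q₂ = R := hv
      rw [← hv', hcommj 7 v v.2, hj 7, hu7, one_smul]
  have hcPm : c ∈ (P : Subgroup G) := mem_sylow_of_normalizer P (k := 1) (by rw [pow_one]; exact hc7) hcn
  have hcQm : c ∈ (Q : Subgroup G) :=
    mem_sylow_of_normalizer Q (k := 1) (by rw [pow_one]; exact hc7) (Sylow.smul_eq_iff_mem_normalizer.1 hcQ)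
  have h5 := s15_trivial hcard hfaith h
  have h6 : c ∈ (P : Subgroup G) ⊓ Q := Subgroup.mem_inf.2 ⟨hcPm, hcQm⟩
  rw [h5, Subgroup.mem_bot] at h6
  exact h6

/-- the centralizer of a Sylow subgroup has order 7 or 14 -/
theorem s15_centralizer (hcard : Nat.card (Sylow 7 G) = 15)
    (hfaith : ∀ g : G, (∀ P : Sylow 7 G, g • P = P) → g = 1) (P : Sylow 7 G) :
    Nat.card (centralizer ((P : Subgroup G) : Set G)) = 7 ∨ Nat.card (centralizer ((P : Subgroup G) : Set G)) = 14 := by
  have hP7 := s15_card7 hcard hfaith P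
  haveI : Nontrivial (Sylow 7 G) := Finite.one_lt_card_iff_nontrivial.1 (by rw [hcard]; norm_num)
  obtain ⟨Q, hQ⟩ := exists_ne P
  set C := centralizer ((P : Subgroup G) : Set G) with hC
  have hcP : ∀ c ∈ C, c • P = P := fun c hc =>
    Sylow.smul_eq_iff_mem_normalizer.2 (Subgroup.centralizer_le_normalizer _ hc)
  have h14 : Nat.card {R : Sylow 7 G // R ≠ P} = 14 := by
    classical
    haveI := Fintype.ofFinite (Sylow 7 G)
    rw [Nat.card_eq_fintype_card, Fintype.card_subtype_compl, Fintype.card_subtype_eq, ← Nat.card_eq_fintype_card, hcard]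
  have hle : Nat.card C ≤ 14 := by
    rw [← h14]
    apply Nat.card_le_card_of_injective (fun c : C => (⟨(c : G) • Q, by
      intro h1
      have h2 := hcP (c : G) c.2
      rw [← h2] at h1
      exact hQ (smul_left_cancel (c : G) h1)⟩ : {R : Sylow 7 G // R ≠ P}))
    intro a b hab
    have h1 : (a : G) • Q = (b : G) • Q := congrArg Subtype.val hab
    have h2 : ((b : G)⁻¹ * a) • Q = Q := by rw [mul_smul, h1, inv_smul_smul]
    have h3 := s15_stab hcard hfaith hQ.symm (mul_mem (inv_mem b.2) a.2) h2
    apply Subtype.ext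
    rw [inv_mul_eq_one] at h3
    exact h3.symm
  have hdvd : 7 ∣ Nat.card C := by
    rw [← hP7]
    apply Subgroup.card_dvd_of_le
    haveI : IsCyclic (P : Subgroup G) := isCyclic_of_prime_card hP7
    intro a ha
    rw [hC, Subgroup.mem_centralizer_iff]
    intro b hb
    exact congrArg Subtype.val (IsCyclic.commGroup.mul_comm (⟨b, hb⟩ : (P : Subgroup G)) ⟨a, ha⟩)
  have hpos : 0 < Nat.card C := Nat.card_pos
  omega

end

theorem not_fifteen_aux (n : ℕ) : ∀ (G : Type u) [Group G] [Finite G], Nat.card G = n →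
    Nat.card (Sylow 7 G) ≠ 15 := by
  induction n using Nat.strong_induction_on with
  | _ n ih =>
  intro G _ _ hn hcard
  haveI : Fact (Nat.Prime 7) := ⟨by norm_num⟩
  haveI : Fact (Nat.Prime 5) := ⟨by norm_num⟩
  have hnorm : ∀ N : Subgroup G, N.Normal → ¬ 7 ∣ N.index → N = ⊤ := by
    intro N hN hidx
    by_contra hne
    have h1 := card_sylow_of_normal (p := 7) N hidx
    have hlt : Nat.card N < n := by
      rw [← hn]
      have := card_lt_card_of_lt (lt_top_iff_ne_top.2 hne)
      rwa [Subgroup.card_top] at this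
    exact ih _ hlt N rfl (h1.trans hcard)
  have hKbot : (MulAction.toPermHom G (Sylow 7 G)).ker = ⊥ := by
    by_contra hne
    have h1 := card_sylow_quotient (p := 7) (MulAction.toPermHom G (Sylow 7 G)).ker (fun P => ker_le_normalizer P)
    have hlt : Nat.card (G ⧸ (MulAction.toPermHom G (Sylow 7 G)).ker) < n := by
      rw [← hn]
      have h2 := Subgroup.card_mul_index (MulAction.toPermHom G (Sylow 7 G)).ker
      have h3 : 1 < Nat.card (MulAction.toPermHom G (Sylow 7 G)).ker := by
        by_contra hcon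
        apply hne
        apply Subgroup.eq_bot_of_card_le
        omega
      have h4 : 0 < (MulAction.toPermHom G (Sylow 7 G)).ker.index := Nat.pos_of_ne_zero Subgroup.index_ne_zero_of_finite
      change (MulAction.toPermHom G (Sylow 7 G)).ker.index < _
      rw [← h2]
      nlinarith
    exact ih _ hlt (G ⧸ (MulAction.toPermHom G (Sylow 7 G)).ker) rfl (h1.trans hcard)
  have hfaith : ∀ g : G, (∀ P : Sylow 7 G, g • P = P) → g = 1 := by
    intro g hg
    have h1 : g ∈ (MulAction.toPermHom G (Sylow 7 G)).ker := by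
      rw [MonoidHom.mem_ker]
      ext P : 1
      exact hg P
    rw [hKbot, Subgroup.mem_bot] at h1
    exact h1
  obtain ⟨P⟩ : Nonempty (Sylow 7 G) := inferInstance
  have hP7 := s15_card7 hcard hfaith P
  have hC7 : Nat.card (centralizer ((P : Subgroup G) : Set G)) = 7 := by
    rcases s15_centralizer hcard hfaith P with h | h
    · exact h
    exfalso
    obtain ⟨z, hz⟩ := exists_prime_orderOf_dvd_card' (G := centralizer ((P : Subgroup G) : Set G)) 2 (by rw [h]; norm_num)
    classical
    haveI := Fintype.ofFinite (Sylow 7 G)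
    let σ : Equiv.Perm (Sylow 7 G) := MulAction.toPermHom G (Sylow 7 G) (z : G)
    have hz2 : (z : G) ^ 2 = 1 := by
      have := congrArg Subtype.val (pow_orderOf_eq_one z)
      rwa [hz] at this
    have hσ2 : σ ^ 2 = 1 := by
      change (MulAction.toPermHom G (Sylow 7 G) (z : G)) ^ 2 = 1
      rw [← map_pow, hz2, map_one]
    have hfix : Fintype.card (Function.fixedPoints σ) = 1 := by
      rw [Fintype.card_eq_one_iff]
      refine ⟨⟨P, ?_⟩, ?_⟩
      · exact Sylow.smul_eq_iff_mem_normalizer.2 (Subgroup.centralizer_le_normalizer _ z.2)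
      · rintro ⟨Q, hQ⟩
        apply Subtype.ext
        by_contra hne
        have h1 : (z : G) • Q = Q := hQ
        have h2 := s15_stab hcard hfaith (fun h => hne h.symm) z.2 h1
        have h3 : z = 1 := Subtype.ext h2
        rw [h3, orderOf_one] at hz
        omega
    have hsign : Equiv.Perm.sign σ = -1 := by
      rw [Equiv.Perm.sign_of_pow_two_eq_one hσ2, hfix, ← Nat.card_eq_fintype_card, hcard]
      norm_num
    let f : G →* ℤˣ := Equiv.Perm.sign.comp (MulAction.toPermHom G (Sylow 7 G))
    have h1 : f.ker = ⊤ := by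
      apply hnorm _ inferInstance
      rw [Subgroup.index_ker]
      intro h7
      have h2 : Nat.card f.range ∣ Nat.card ℤˣ := Subgroup.card_subgroup_dvd_card _
      have h3 : Nat.card ℤˣ = 2 := by rw [Nat.card_eq_fintype_card]; rfl
      rw [h3] at h2
      have := Nat.le_of_dvd (by norm_num) (h7.trans h2)
      omega
    have h2 : (z : G) ∈ f.ker := by rw [h1]; trivial
    rw [MonoidHom.mem_ker] at h2
    have h3 : f (z : G) = -1 := hsign
    rw [h3] at h2
    exact absurd h2 (by decide)
  -- the order of the normalizer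
  set N := normalizer ((P : Subgroup G) : Set G) with hN
  obtain ⟨i, hi, hNi⟩ : ∃ i : ℕ, i ∣ 6 ∧ Nat.card N = 7 * i := by
    have key := Subgroup.card_dvd_of_injective _ (QuotientGroup.kerLift_injective (P : Subgroup G).normalizerMonoidHom)
    rw [Subgroup.normalizerMonoidHom_ker] at key
    haveI : IsCyclic (P : Subgroup G) := isCyclic_of_prime_card hP7
    have h6 : Nat.card (MulAut (P : Subgroup G)) = 6 := by
      rw [IsCyclic.card_mulAut, hP7]; decide
    rw [h6] at key
    refine ⟨_, key, ?_⟩
    have h1 := Subgroup.card_mul_index ((centralizer ((P : Subgroup G) : Set G)).subgroupOf N)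
    rw [Nat.card_congr (Subgroup.subgroupOfEquivOfLe (Subgroup.centralizer_le_normalizer _)).toEquiv, hC7] at h1
    exact h1.symm
  have hG : Nat.card G = 105 * i := by
    have h1 : N.index = 15 := by
      rw [← hcard, Sylow.card_eq_index_normalizer P]
      rfl
    rw [← Subgroup.card_mul_index N, hNi, h1]
    ring
  -- the order is odd
  have hodd : ¬ 2 ∣ Nat.card G := by
    intro h2
    obtain ⟨T⟩ : Nonempty (Sylow 2 G) := inferInstance
    obtain ⟨k, hk⟩ := IsPGroup.iff_card.1 T.2
    have hk1 : k ≤ 1 := by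
      by_contra hcon
      have h4 : 2 ^ 2 ∣ Nat.card G := by
        refine (pow_dvd_pow 2 (show 2 ≤ k by omega)).trans ?_
        rw [← hk]
        exact Subgroup.card_subgroup_dvd_card _
      rw [hG] at h4
      have h5 : i ≤ 6 := Nat.le_of_dvd (by norm_num) hi
      interval_cases i <;> omega
    have hNPC : HasNPC 2 G := by
      apply hasNPC_burnside T
      haveI : IsCyclic (T : Subgroup G) := by
        interval_cases k
        · exact isCyclic_of_card_dvd_prime (p := 2) (by rw [hk]; norm_num)
        · exact isCyclic_of_prime_card (p := 2) (by rw [hk]; norm_num)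
      apply normalizer_le_centralizer_of T inferInstance hk
      intro q hq hq2 _ j hj
      have hj0 : j = 0 := by omega
      have hk1' : k = 1 := by omega
      subst hj0 hk1'
      norm_num
      exact hq.ne_one
    obtain ⟨M, hM, hMcop, m, hm⟩ := hNPC
    have hMtop : M = ⊤ := by
      apply hnorm M hM
      rw [hm]
      intro h7
      have := (Nat.Prime.dvd_of_dvd_pow (by norm_num) h7)
      omega
    rw [hMtop, Subgroup.card_top] at hMcop
    exact absurd ((Nat.coprime_comm.1 hMcop)) (by
      rw [Nat.Prime.coprime_iff_not_dvd Nat.prime_two]; exact fun h => h h2)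
  -- Burnside at 5
  obtain ⟨T⟩ : Nonempty (Sylow 5 G) := inferInstance
  obtain ⟨k, hk⟩ := IsPGroup.iff_card.1 T.2
  have hk1 : k ≤ 1 := by
    by_contra hcon
    have h4 : 5 ^ 2 ∣ Nat.card G := by
      refine (pow_dvd_pow 5 (show 2 ≤ k by omega)).trans ?_
      rw [← hk]
      exact Subgroup.card_subgroup_dvd_card _
    rw [hG] at h4
    have h5 : i ≤ 6 := Nat.le_of_dvd (by norm_num) hi
    interval_cases i <;> omega
  have hNPC : HasNPC 5 G := by
    apply hasNPC_burnside T
    haveI : IsCyclic (T : Subgroup G) := by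
      interval_cases k
      · exact isCyclic_of_card_dvd_prime (p := 5) (by rw [hk]; norm_num)
      · exact isCyclic_of_prime_card (p := 5) (by rw [hk]; norm_num)
    apply normalizer_le_centralizer_of T inferInstance hk
    intro q hq hq5 hqd j hj hd
    have hj0 : j = 0 := by omega
    have hk1' : k = 1 := by omega
    subst hj0 hk1'
    norm_num at hd
    have h1 : q ∣ 2 ^ 2 := by norm_num; exact hd
    have h2 := (Nat.prime_dvd_prime_iff_eq hq Nat.prime_two).1 (hq.dvd_of_dvd_pow h1)
    rw [h2] at hqd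
    exact hodd hqd
  obtain ⟨M, hM, hMcop, m, hm⟩ := hNPC
  have hMtop : M = ⊤ := by
    apply hnorm M hM
    rw [hm]
    intro h7
    have := (Nat.Prime.dvd_of_dvd_pow (by norm_num) h7)
    omega
  rw [hMtop, Subgroup.card_top] at hMcop
  have h5 : 5 ∣ Nat.card G := by rw [hG]; exact ⟨21 * i, by ring⟩
  exact absurd ((Nat.coprime_comm.1 hMcop)) (by
    rw [Nat.Prime.coprime_iff_not_dvd (by norm_num)]; exact fun h => h h5)

theorem not_fifteen {G : Type u} [Group G] [Finite G] : Nat.card (Sylow 7 G) ≠ 15 :=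
  not_fifteen_aux _ G rfl

end CfsgH3
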