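import Mathlib
import Cfsg.Agent.H3.NPC
import Cfsg.Agent.H1.Basic

/-! # Transfer into a quotient, controlled elements -/

namespace CfsgH3
open Subgroup MonoidHom MulAction

universe u v
variable {G : Type u} [Group G] [Finite G]

theorem transfer_eq_of_ctrl {H : Subgroup G} {A : Type v} [CommGroup A] (ϕ : H →* A) {g : G} (hg : g ∈ H)
    (hctrl : ∀ (m : ℕ) (a : G) (ha : a⁻¹ * g ^ m * a ∈ H), ϕ ⟨_, ha⟩ = ϕ ⟨g, hg⟩ ^ m) : 
    MonoidHom.transfer ϕ g = ϕ ⟨g, hg⟩ ^ H.index := by
  classical
  letI := H.fintypeQuotientOfFiniteIndex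
  rw [transfer_eq_prod_quotient_orbitRel_zpowers_quot, index_eq_card, Nat.card_eq_fintype_card, 
    Fintype.card_congr (selfEquivSigmaOrbits (zpowers g) (G ⧸ H)), Fintype.card_sigma, ← Finset.prod_pow_eq_pow_sum]
  apply Finset.prod_congr rfl
  intro q _
  have e : Fintype.card (orbit (zpowers g) q.out) = Function.minimalPeriod (g • ·) q.out := by
    have := minimalPeriod_eq_card (a := g) (b := q.out)
    rw [this]
    exact Fintype.card_congr (Equiv.refl _)
  rw [e]
  exact hctrl _ _ _

theorem transfer_commutator {H : Subgroup G} {A : Type v} [CommGroup A] (ϕ : H →* A) {g : G} (hg : g ∈ _root_.commutator G) : MonoidHom.transfer ϕ g = 1 := by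
  have h1 : _root_.commutator G ≤ (MonoidHom.transfer ϕ).ker := Abelianization.commutator_subset_ker _
  exact h1 hg

end CfsgH3
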