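import Mathlib
import Cfsg.Agent.H3.InvCore
import Cfsg.Agent.H2.Signalizer

set_option autoImplicit false

/-! The transitivity theorem for `p`-constrained local subgroups. -/

namespace CfsgH3

open Subgroup Cfsg

variable {G : Type*} [Group G] {p : ℕ}

/-- maximal `E`-invariant `q`-subgroups -/
def MaxI (q : ℕ) (E Q : Subgroup G) : Prop :=
  (IsPGroup q Q ∧ E ≤ normalizer (Q : Set G)) ∧ ∀ R : Subgroup G, IsPGroup q R → E ≤ normalizer (R : Set G) → Q ≤ R → R = Q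

theorem exists_MaxI [Finite G] {q : ℕ} {E U : Subgroup G} (hU : IsPGroup q U) (hE : E ≤ normalizer (U : Set G)) :
    ∃ Q, MaxI q E Q ∧ U ≤ Q := by
  let s : Set (Subgroup G) := {R | IsPGroup q R ∧ E ≤ normalizer (R : Set G)}
  obtain ⟨Q, hQU, hQmax⟩ := (Set.toFinite s).exists_le_maximal (a := U) ⟨hU, hE⟩
  exact ⟨Q, ⟨hQmax.prop, fun R hRq hR hQR => le_antisymm (hQmax.le_of_ge ⟨hRq, hR⟩ hQR) hQR⟩, hQU⟩

theorem le_normalizer_map_of_centralizes {E Q : Subgroup G} {c : G} (hc : c ∈ centralizer (E : Set G))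
    (hE : E ≤ normalizer (Q : Set G)) : E ≤ normalizer ((Q.map (MulAut.conj c).toMonoidHom : Subgroup G) : Set G) := by
  intro e he
  have h1 : c * e * c⁻¹ = e := by
    rw [mul_inv_eq_iff_eq_mul]
    exact (Subgroup.mem_centralizer_iff.1 hc e he).symm
  have h2 : e ∈ (normalizer (Q : Set G)).map (MulAut.conj c).toMonoidHom := ⟨e, hE he, h1⟩
  exact Subgroup.le_normalizer_map (MulAut.conj c).toMonoidHom h2

theorem MaxI_conj [Finite G] {q : ℕ} {E Q : Subgroup G} (hQ : MaxI q E Q) {c : G} (hc : c ∈ centralizer (E : Set G)) :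
    MaxI q E (Q.map (MulAut.conj c).toMonoidHom) := by
  refine ⟨⟨hQ.1.1.map _, le_normalizer_map_of_centralizes hc hQ.1.2⟩, ?_⟩
  intro R hRq hR hle
  have h1 : Q ≤ R.map (MulAut.conj c⁻¹).toMonoidHom := by
    have := Subgroup.map_mono (f := (MulAut.conj c⁻¹).toMonoidHom) hle
    rwa [← CfsgH2.map_conj_mul, inv_mul_cancel, CfsgH2.map_conj_one] at this
  have h2 := hQ.2 _ (hRq.map _) (le_normalizer_map_of_centralizes (inv_mem hc) hR) h1
  have h3 := congrArg (Subgroup.map (MulAut.conj c).toMonoidHom) h2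
  rwa [← CfsgH2.map_conj_mul, mul_inv_cancel, CfsgH2.map_conj_one] at h3

theorem card_sup_coprime [Finite G] {p : ℕ} {D L : Subgroup G} (hD : (Nat.card D).Coprime p) (hL : (Nat.card L).Coprime p)
    (h : L ≤ normalizer (D : Set G)) : (Nat.card (D ⊔ L : Subgroup G)).Coprime p := by
  have h1 := CfsgH1.card_sup_mul_card_inf h
  have h2 : Nat.card (L ⊔ D : Subgroup G) ∣ Nat.card L * Nat.card D := Dvd.intro _ h1
  rw [sup_comm]
  exact Nat.Coprime.coprime_dvd_left h2 (Nat.Coprime.mul_left hL hD)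

set_option maxHeartbeats 1000000 in
theorem transit [Finite G] [hp : Fact p.Prime]
    (hloc : ∀ T : Subgroup G, IsPGroup p T → T ≠ ⊥ → Cfsg.IsPConstrained p ↥(normalizer (T : Set G)))
    (hcl : p ≠ 2 ∨ ∀ S : Subgroup G, IsPGroup p S → ∀ x ∈ S, ∀ y ∈ S, ∀ z ∈ S,
      (x * y * x⁻¹ * y⁻¹) * z = z * (x * y * x⁻¹ * y⁻¹))
    {E A : Subgroup G} (hE : IsPGroup p E) (hEc : ∀ a ∈ E, ∀ b ∈ E, a * b = b * a) (hAE : A ≤ E)
    (hA : IsElementaryAbelian p A) (hA3 : p ^ 3 ≤ Nat.card A)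
    (hfull : ∀ x ∈ centralizer (E : Set G), (∃ k, x ^ p ^ k = 1) → x ∈ E)
    {q : ℕ} [hq : Fact q.Prime] (hqp : q ≠ p) (n : ℕ) :
    ∀ Q₁ Q₂ : Subgroup G, Nat.card G - Nat.card ↥(Q₁ ⊓ Q₂) = n → MaxI q E Q₁ → MaxI q E Q₂ →
      ∃ c ∈ (Cfsg.pPrimeCore p (centralizer (E : Set G))).map (centralizer (E : Set G)).subtype,
        Q₁.map (MulAut.conj c).toMonoidHom = Q₂ := by
  set R0 := (Cfsg.pPrimeCore p (centralizer (E : Set G))).map (centralizer (E : Set G)).subtype with hR0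
  have hR0C : R0 ≤ centralizer (E : Set G) := Subgroup.map_subtype_le _
  induction n using Nat.strong_induction_on with
  | _ n ih =>
  intro Q₁ Q₂ hn hQ₁ hQ₂
  set D := Q₁ ⊓ Q₂ with hD
  by_cases hD₁ : D = Q₁
  · refine ⟨1, one_mem _, ?_⟩
    rw [CfsgH2.map_conj_one]
    have : Q₁ ≤ Q₂ := by rw [← hD₁]; exact inf_le_right
    exact (hQ₁.2 Q₂ hQ₂.1.1 hQ₂.1.2 this).symm
  by_cases hD₂ : D = Q₂
  · refine ⟨1, one_mem _, ?_⟩
    rw [CfsgH2.map_conj_one]
    have : Q₂ ≤ Q₁ := by rw [← hD₂]; exact inf_le_left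
    exact hQ₂.2 Q₁ hQ₁.1.1 hQ₁.1.2 this
  have hE₁ := hQ₁.1.2
  have hE₂ := hQ₂.1.2
  have hED : E ≤ normalizer (D : Set G) := CfsgH1.le_normalizer_inf hE₁ hE₂
  obtain ⟨a, haA, ha1, hx₁, hx₂⟩ := CfsgH2.exists_common_element hA hA3 hqp hQ₁.1.1 hQ₂.1.1 (hAE.trans hE₁)
    (hAE.trans hE₂) hD₁ hD₂
  have ha : a ∈ E := hAE haA
  have IH : ∀ R S : Subgroup G, MaxI q E R → MaxI q E S → Nat.card D < Nat.card ↥(R ⊓ S) →
      ∃ c ∈ R0, R.map (MulAut.conj c).toMonoidHom = S := by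
    intro R S hR hS hlt
    refine ih _ ?_ R S rfl hR hS
    have h1 : Nat.card ↥(R ⊓ S) ≤ Nat.card G := Subgroup.card_le_card_group _
    omega
  -- the local subgroup
  set N := normalizer ((zpowers a : Subgroup G) : Set G) with hN
  have hzp : IsPGroup p (zpowers a) := hE.to_le (by rw [zpowers_le]; exact ha)
  have hza : zpowers a ≠ ⊥ := by rw [Ne, Subgroup.zpowers_eq_bot]; exact ha1
  have hconstr := hloc (zpowers a) hzp hza
  have hCaN : centralizer ({a} : Set G) ≤ N := by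
    intro g hg
    rw [Subgroup.mem_centralizer_singleton_iff] at hg
    apply Subgroup.mem_normalizer_fintype
    rintro _ ⟨i, rfl⟩
    have h1 : g * a ^ i * g⁻¹ = a ^ i := by
      rw [mul_inv_eq_iff_eq_mul]
      exact ((show Commute g a from hg).zpow_right i).eq
    change g * a ^ i * g⁻¹ ∈ zpowers a
    rw [h1]; exact zpow_mem (mem_zpowers a) i
  have hEN : E ≤ N := by
    intro e he
    apply hCaN
    rw [Subgroup.mem_centralizer_singleton_iff]
    exact hEc e he a ha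
  set Oa := (Cfsg.pPrimeCore p N).map N.subtype with hOa
  have hOac : (Nat.card Oa).Coprime p := by
    rw [hOa, Subgroup.card_map_of_injective N.subtype_injective]
    exact CfsgH2.coprime_card_pPrimeCore p
  have hNOa : N ≤ normalizer (Oa : Set G) := by
    haveI := CfsgH7.pPrimeCore_normal' p N
    intro g hg
    apply Subgroup.mem_normalizer_fintype
    rintro _ ⟨x, hx, rfl⟩
    exact ⟨⟨g, hg⟩ * x * ⟨g, hg⟩⁻¹, (CfsgH7.pPrimeCore_normal' p N).conj_mem x hx _, rfl⟩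
  -- invariant `p'`-subgroups of `C(a)`
  have hkey : ∀ X : Subgroup G, X ≤ centralizer ({a} : Set G) → (Nat.card X).Coprime p → E ≤ normalizer (X : Set G) →
      X ≤ Oa := by
    intro X hXa hXc hEX
    have hXN : X ≤ N := hXa.trans hCaN
    have h1 : X.subgroupOf N ≤ Cfsg.pPrimeCore p N := by
      apply inv_le_pPrimeCore hconstr (E := E.subgroupOf N)
      · exact hE.comap_of_injective _ N.subtype_injective
      · intro x hx hxk
        rw [Subgroup.mem_subgroupOf]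
        apply hfull
        · rw [Subgroup.mem_centralizer_iff]
          intro e he
          have := Subgroup.mem_centralizer_iff.1 hx ⟨e, hEN he⟩ he
          exact congrArg Subtype.val this
        · obtain ⟨k, hk⟩ := hxk
          exact ⟨k, congrArg Subtype.val hk⟩
      · rw [Nat.card_congr (Subgroup.subgroupOfEquivOfLe hXN).toEquiv]; exact hXc
      · intro e he
        apply Subgroup.mem_normalizer_fintype
        intro x hx
        exact (Subgroup.mem_normalizer_iff.1 (hEX he) x).1 hx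
      · rcases hcl with h | h
        · exact Or.inl h
        · right
          intro S hS x hx y hy z hz
          apply Subtype.ext
          exact h (S.map N.subtype) (hS.map _) x ⟨x, hx, rfl⟩ y ⟨y, hy, rfl⟩ z ⟨z, hz, rfl⟩
    rw [hOa, ← Subgroup.map_subgroupOf_eq_of_le hXN]
    exact Subgroup.map_mono h1
  set L := Oa ⊓ normalizer (D : Set G) with hL
  set M := D ⊔ L with hM
  have hEL : E ≤ normalizer (L : Set G) :=
    CfsgH1.le_normalizer_inf (hEN.trans hNOa) (hED.trans Subgroup.le_normalizer)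
  have hEM : E ≤ normalizer (M : Set G) := CfsgH1.le_normalizer_sup hED hEL
  have hqcop : ∀ X : Subgroup G, IsPGroup q X → (Nat.card X).Coprime p := by
    intro X hX
    obtain ⟨k, hk⟩ := IsPGroup.iff_card.1 hX
    rw [hk]
    exact Nat.Coprime.pow_left k ((Nat.coprime_primes hq.out hp.out).2 hqp)
  have hDq : IsPGroup q D := hQ₁.1.1.to_le inf_le_left
  have hMc : (Nat.card M).Coprime p :=
    card_sup_coprime (hqcop D hDq) (Nat.Coprime.coprime_dvd_left (Subgroup.card_dvd_of_le inf_le_left) hOac) inf_le_right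
  have hcopM : (Nat.card E).Coprime (Nat.card M) := by
    obtain ⟨k, hk⟩ := IsPGroup.iff_card.1 hE
    rw [hk]; exact Nat.Coprime.pow_left k hMc.symm
  have hEs : Group.IsSolvable E := CfsgH1.isSolvable_of_isPGroup hE
  have hstep : ∀ Q : Subgroup G, MaxI q E Q → D ≤ Q →
      ¬ (normalizer (D : Set G) ⊓ Q ⊓ centralizer {a} ≤ D) →
      ∃ R S : Subgroup G, CfsgH1.IsSylowOf q R M ∧ E ≤ normalizer (R : Set G) ∧ MaxI q E S ∧ R ≤ S ∧
        Nat.card D < Nat.card ↥(Q ⊓ R) := by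
    intro Q hQ hDQ hX
    set X := normalizer (D : Set G) ⊓ Q ⊓ centralizer {a} with hXdef
    have hXQ : X ≤ Q := inf_le_left.trans inf_le_right
    have hEca : E ≤ normalizer ((centralizer ({a} : Set G) : Subgroup G) : Set G) := by
      refine le_trans ?_ Subgroup.le_normalizer
      intro b hb
      rw [Subgroup.mem_centralizer_singleton_iff]
      exact hEc b hb a ha
    have hXE : E ≤ normalizer (X : Set G) :=
      CfsgH1.le_normalizer_inf (CfsgH1.le_normalizer_inf (hED.trans Subgroup.le_normalizer) hQ.1.2) hEca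
    have hXO : X ≤ Oa := hkey X inf_le_right (hqcop X (hQ.1.1.to_le hXQ)) hXE
    have hXL : X ≤ L := le_inf hXO (inf_le_left.trans inf_le_left)
    have hDXM : D ⊔ X ≤ M := sup_le le_sup_left (hXL.trans le_sup_right)
    have hDXQ : D ⊔ X ≤ Q := sup_le hDQ hXQ
    obtain ⟨R, hR, hDXR, hRE⟩ := CfsgH1.coprime_sylow_contains hEM hcopM (Or.inl hEs) q (D ⊔ X) hDXM
      (hQ.1.1.to_le hDXQ) (CfsgH1.le_normalizer_sup hED hXE)
    obtain ⟨S, hS, hRS⟩ := exists_MaxI (CfsgH1.isSylowOf_isPGroup hR) hRE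
    refine ⟨R, S, hR, hRE, hS, hRS, ?_⟩
    refine CfsgH1.card_lt_card_of_lt (lt_of_lt_of_le ?_ (le_inf hDXQ hDXR))
    refine lt_of_le_of_ne le_sup_left ?_
    intro h
    apply hX
    rw [h]; exact le_sup_right
  obtain ⟨R₁, S₁, hR₁, hRE₁, hS₁, hRS₁, hlt₁⟩ := hstep Q₁ hQ₁ inf_le_left hx₁
  obtain ⟨R₂, S₂, hR₂, hRE₂, hS₂, hRS₂, hlt₂⟩ := hstep Q₂ hQ₂ inf_le_right hx₂
  obtain ⟨c, hc, hcR⟩ := (CfsgH1.coprime_sylow hEM hcopM (Or.inl hEs) q).2 R₁ R₂ hR₁ hRE₁ hR₂ hRE₂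
  have hcC : c ∈ centralizer (E : Set G) := (Subgroup.mem_inf.1 hc).2
  have hcI : c ∈ R0 := by
    refine ⟨⟨c, hcC⟩, mem_pPrimeCore_centralizer hfull _ ?_, rfl⟩
    rw [Subgroup.orderOf_mk]
    refine Nat.Coprime.coprime_dvd_left ?_ hMc
    have := orderOf_dvd_natCard (⟨c, (Subgroup.mem_inf.1 hc).1⟩ : M)
    rwa [Subgroup.orderOf_mk] at this
  have hcR' : R₁.map (MulAut.conj c).toMonoidHom = R₂ := hcR
  obtain ⟨c₁, hc₁, hc₁'⟩ := IH Q₁ S₁ hQ₁ hS₁ (lt_of_lt_of_le hlt₁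
    (Subgroup.card_le_of_le (inf_le_inf_left _ hRS₁)))
  have hRD : Nat.card D < Nat.card R₂ := lt_of_lt_of_le hlt₂ (Subgroup.card_le_of_le inf_le_right)
  obtain ⟨c₂, hc₂, hc₂'⟩ := IH (S₁.map (MulAut.conj c).toMonoidHom) S₂ (MaxI_conj hS₁ hcC) hS₂
    (lt_of_lt_of_le hRD (Subgroup.card_le_of_le (le_inf (by
      rw [← hcR']; exact Subgroup.map_mono hRS₁) hRS₂)))
  obtain ⟨c₃, hc₃, hc₃'⟩ := IH S₂ Q₂ hS₂ hQ₂ (lt_of_lt_of_le hlt₂
    (Subgroup.card_le_of_le (by rw [inf_comm]; exact inf_le_inf_right _ hRS₂)))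
  refine ⟨c₃ * (c₂ * (c * c₁)), mul_mem hc₃ (mul_mem hc₂ (mul_mem hcI hc₁)), ?_⟩
  rw [CfsgH2.map_conj_mul, CfsgH2.map_conj_mul, CfsgH2.map_conj_mul, hc₁', hc₂', hc₃']

end CfsgH3
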