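import Mathlib
import Cfsg.Agent.H3.Dih
import Cfsg.Agent.H3.SemiFrob
import Cfsg.Agent.H1.FrobEven
import Cfsg.Agent.S0034
import Cfsg.Agent.S0035
import Cfsg.Agent.S0039

set_option autoImplicit false

/-!
A quaternion action with central inversion on an abelian group of odd order forces the order to be a square.
-/

namespace CfsgH3

open scoped Pointwise

/-- `-1` is a sum of two squares modulo any odd number -/
theorem neg_one_two_squares {N : ℕ} (hN : Odd N) : ∃ a b : ℕ, N ∣ a ^ 2 + b ^ 2 + 1 := by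
  obtain ⟨k, hk⟩ := hN
  have hN0 : N ≠ 0 := by omega
  have hco : Nat.Coprime N 4 := by
    have : Nat.Coprime N 2 := by
      rw [Nat.coprime_comm, Nat.Prime.coprime_iff_not_dvd Nat.prime_two]
      omega
    have h2 := Nat.Coprime.pow_right 2 this
    exact h2
  obtain ⟨r, hr1, hr2⟩ := Nat.chineseRemainder hco (N - 1) 1
  have hNr : Nat.Coprime r N := by
    have h1 : (r + 1) ≡ 0 [MOD N] := by
      have : (r + 1) ≡ (N - 1) + 1 [MOD N] := Nat.ModEq.add_right 1 hr1
      rw [Nat.sub_add_cancel (Nat.one_le_iff_ne_zero.2 hN0)] at this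
      exact this.trans (by simp [Nat.ModEq])
    have h2 : N ∣ r + 1 := (Nat.modEq_zero_iff_dvd).1 h1
    rw [Nat.coprime_comm]
    apply Nat.Coprime.coprime_dvd_left h2
    simp
  have h4r : Nat.Coprime r 4 := by
    have : Nat.Coprime r 2 := by
      rw [Nat.coprime_comm, Nat.Prime.coprime_iff_not_dvd Nat.prime_two]
      unfold Nat.ModEq at hr2
      omega
    exact Nat.Coprime.pow_right 2 this
  have hu : IsUnit ((r : ℕ) : ZMod (N * 4)) := by
    rw [ZMod.isUnit_iff_coprime]
    exact Nat.Coprime.mul_right hNr h4r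
  haveI : NeZero (N * 4) := ⟨by omega⟩
  obtain ⟨p, -, hp, hpr⟩ := Nat.forall_exists_prime_gt_and_eq_mod hu 0
  rw [ZMod.natCast_eq_natCast_iff] at hpr
  haveI := Fact.mk hp
  have h1 : p ≡ 1 [MOD 4] := (Nat.ModEq.of_dvd (Dvd.intro_left N rfl) hpr).trans hr2
  have h2 : p ≡ N - 1 [MOD N] := (Nat.ModEq.of_dvd (Dvd.intro 4 rfl) hpr).trans hr1
  obtain ⟨a, b, hab⟩ := Nat.Prime.sq_add_sq (p := p) (by unfold Nat.ModEq at h1; omega)
  refine ⟨a, b, ?_⟩
  rw [hab]
  have h3 : (p + 1) ≡ (N - 1) + 1 [MOD N] := Nat.ModEq.add_right 1 h2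
  rw [Nat.sub_add_cancel (Nat.one_le_iff_ne_zero.2 hN0)] at h3
  exact (Nat.modEq_zero_iff_dvd).1 (h3.trans (by simp [Nat.ModEq]))

theorem card_square_of_quaternion {A : Type*} [CommGroup A] [Finite A] (hA : Odd (Nat.card A)) (i j : A →* A)
    (hi : ∀ x, i (i x) = x⁻¹) (hj : ∀ x, j (j x) = x⁻¹) (hij : ∀ x, i (j x) = (j (i x))⁻¹) : IsSquare (Nat.card A) := by
  obtain ⟨a, b, c, hab⟩ := neg_one_two_squares hA
  have hpow : ∀ x : A, x ^ (a ^ 2 + b ^ 2) = x⁻¹ := by
    intro x
    apply eq_inv_of_mul_eq_one_left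
    rw [← pow_succ, hab, pow_mul, pow_card_eq_one', one_pow]
  have hji : ∀ x, j (i x) = (i (j x))⁻¹ := by
    intro x; rw [hij, inv_inv]
  let t : A →* A := 
    { toFun := fun x => (i x) ^ a * (j x) ^ b
      map_one' := by simp
      map_mul' := by
        intro x y
        rw [map_mul, map_mul, mul_pow, mul_pow]
        rw [mul_mul_mul_comm] }
  have ht : ∀ x, t x = (i x) ^ a * (j x) ^ b := fun x => rfl
  have htt : ∀ x, t (t x) = x := by
    intro x
    rw [ht, ht, map_mul, map_mul, map_pow, map_pow, map_pow, map_pow, hi, hj, hij x]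
    rw [mul_pow, mul_pow, inv_pow, inv_pow, inv_pow, inv_pow, ← pow_mul, ← pow_mul, inv_pow, inv_pow, ← pow_mul, ← pow_mul, mul_comm b a]
    have : (x ^ (a * a))⁻¹ * ((j (i x)) ^ (a * b))⁻¹ * ((j (i x)) ^ (a * b) * (x ^ (b * b))⁻¹) = (x ^ (a ^ 2 + b ^ 2))⁻¹ := by
      rw [pow_add, mul_inv, pow_two, pow_two]
      group
    have h2 := hpow x
    rw [mul_comm ((x ^ (a * a))⁻¹)] at this ⊢
    rw [this, h2, inv_inv]
  -- the fixed and the inverted elements
  let f : A →* A := 
    { toFun := fun x => x * t x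
      map_one' := by simp
      map_mul' := by
        intro x y
        rw [map_mul, mul_mul_mul_comm] }
  have hf : ∀ x, f x = x * t x := fun x => rfl
  have hrange : ∀ x, x ∈ f.range ↔ t x = x := by
    intro x
    constructor
    · rintro ⟨y, rfl⟩
      rw [hf, map_mul, htt, mul_comm]
    · intro hx
      obtain ⟨k, hk⟩ := hA
      refine ⟨x ^ (k + 1), ?_⟩
      rw [hf, map_pow, hx, ← pow_add]
      have : k + 1 + (k + 1) = Nat.card A + 1 := by omega
      rw [this, pow_succ, pow_card_eq_one', one_mul]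
  have hker : ∀ x, x ∈ f.ker ↔ t x = x⁻¹ := by
    intro x
    rw [MonoidHom.mem_ker, hf]
    constructor
    · intro h; exact eq_inv_of_mul_eq_one_right h
    · intro h; rw [h, mul_inv_cancel]
  have hcard : Nat.card f.ker * Nat.card f.range = Nat.card A := by
    have h1 := Subgroup.card_mul_index f.ker
    rw [Subgroup.index_ker] at h1
    exact h1
  have htk : ∀ x, t (i (j x)) = (i (j (t x)))⁻¹ := by
    intro x
    rw [ht, ht, map_mul, map_mul, map_pow, map_pow, map_pow, map_pow, hi, hj]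
    have h1 : j (i (j x)) = i x := by rw [hji (j x), hj, map_inv, inv_inv]
    have h2 : i (j (i x)) = j x := by rw [hij (i x), hi, map_inv, inv_inv]
    rw [h1, h2, map_inv, inv_pow, inv_pow, mul_inv, inv_inv]
  have hkinj : Function.Injective (fun x => i (j x)) := by
    intro x y hxy
    have h1 : i (j (i (j x))) = i (j (i (j y))) := congrArg (fun z => i (j z)) hxy
    have h2 : ∀ z, i (j (i (j z))) = z⁻¹ := by
      intro z
      rw [hji (j z), hj, map_inv, hi, inv_inv]
    rw [h2, h2] at h1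
    exact inv_injective h1
  have hle1 : Nat.card f.ker ≤ Nat.card f.range := by
    apply Nat.card_le_card_of_injective (fun x : f.ker => (⟨i (j x), by
      rw [hrange, htk, (hker x).1 x.2, map_inv, map_inv, inv_inv]⟩ : f.range))
    intro x y hxy
    exact Subtype.ext (hkinj (congrArg Subtype.val hxy))
  have hle2 : Nat.card f.range ≤ Nat.card f.ker := by
    apply Nat.card_le_card_of_injective (fun x : f.range => (⟨i (j x), by
      rw [hker, htk, (hrange x).1 x.2]⟩ : f.ker))
    intro x y hxy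
    exact Subtype.ext (hkinj (congrArg Subtype.val hxy))
  rw [← hcard, le_antisymm hle1 hle2]
  exact ⟨_, rfl⟩

theorem frob_card_square {L : Type*} [Group L] [Finite L] (H : Subgroup L) (hF : Cfsg.IsFrobeniusComplement H)
    {i j z : L} (hi : i ∈ H) (hj : j ∈ H) (hii : i * i = z) (hjj : j * j = z) (hz : z * z = 1) (hz1 : z ≠ 1)
    (hji : j * i * j⁻¹ = i⁻¹) :
    Odd (Nat.card (Cfsg.frobeniusKernel H)) ∧ IsSquare (Nat.card (Cfsg.frobeniusKernel H)) := by
  obtain ⟨N, hN, hNn, hNc⟩ := Cfsg.Agent.S0035.result H hF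
  have hcard : Nat.card (Cfsg.frobeniusKernel H) = Nat.card N := by rw [← hN]; rfl
  obtain ⟨hidx, hmod⟩ := Cfsg.Agent.S0034.result H hF
  have hzH : z ∈ H := by rw [← hii]; exact H.mul_mem hi hi
  have h2 : 2 ∣ Nat.card H := by
    have h3 : orderOf (⟨z, hzH⟩ : H) = 2 := by
      apply orderOf_eq_prime
      · rw [pow_two]; exact Subtype.ext hz
      · intro h; exact hz1 (congrArg Subtype.val h)
    rw [← h3]; exact orderOf_dvd_natCard _
  have hodd : Odd (Nat.card N) := by
    rw [← hcard, hidx, Nat.odd_iff]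
    have h4 : H.index ≡ 1 [MOD Nat.card H] := hmod
    exact Nat.ModEq.of_dvd h2 h4
  rw [hcard]
  refine ⟨hodd, ?_⟩
  have hNbot : N ≠ ⊥ := by
    intro h
    apply hF.2.1
    rw [← Subgroup.index_eq_one, ← hidx, hcard, h, Subgroup.card_bot]
  have hfpf := (Cfsg.Agent.S0039.result N H hNc hNbot hF.1).1 hF
  have hinv := CfsgH1.inverts_of_fpf_involution hz (hfpf z hzH hz1)
  have hcomm : ∀ x ∈ N, ∀ y ∈ N, x * y = y * x := by
    intro x hx y hy
    have h1 := hinv (x * y) (N.mul_mem hx hy)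
    have h3 : z * (x * y) * z⁻¹ = (z * x * z⁻¹) * (z * y * z⁻¹) := by group
    rw [h3, hinv x hx, hinv y hy, mul_inv_rev] at h1
    have h4 := congrArg (fun w => w⁻¹) h1
    simp only [mul_inv_rev, inv_inv] at h4
    exact h4.symm
  letI : CommGroup N := { (inferInstance : Group N) with mul_comm := fun x y => Subtype.ext (hcomm x x.2 y y.2) }
  let ci : N →* N := (MulAut.conjNormal i).toMonoidHom
  let cj : N →* N := (MulAut.conjNormal j).toMonoidHom
  have hci : ∀ x : N, ((ci x : N) : L) = i * x * i⁻¹ := fun x => MulAut.conjNormal_apply i x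
  have hcj : ∀ x : N, ((cj x : N) : L) = j * x * j⁻¹ := fun x => MulAut.conjNormal_apply j x
  apply card_square_of_quaternion hodd ci cj
  · intro x
    apply Subtype.ext
    rw [hci, hci]
    have : i * (i * (x : L) * i⁻¹) * i⁻¹ = (i * i) * x * (i * i)⁻¹ := by group
    rw [this, hii, hinv x x.2]; rfl
  · intro x
    apply Subtype.ext
    rw [hcj, hcj]
    have : j * (j * (x : L) * j⁻¹) * j⁻¹ = (j * j) * x * (j * j)⁻¹ := by group
    rw [this, hjj, hinv x x.2]; rfl
  · intro x
    apply Subtype.ext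
    rw [Subgroup.coe_inv, hci, hcj, hcj, hci]
    -- i j = j i⁻¹ ... 
    have e1 : j * i = i⁻¹ * j := by rw [← hji]; group
    have e2 : i * j = z * (j * i) := by
      rw [e1, ← hii]; group
    have e3 : i * (j * (x : L) * j⁻¹) * i⁻¹ = (i * j) * x * (i * j)⁻¹ := by group
    have e4 : j * (i * (x : L) * i⁻¹) * j⁻¹ = (j * i) * x * (j * i)⁻¹ := by group
    rw [e3, e4, e2]
    have e5 : z * (j * i) * (x : L) * (z * (j * i))⁻¹ = z * ((j * i) * x * (j * i)⁻¹) * z⁻¹ := by group
    rw [e5, hinv _ (hNn.conj_mem _ x.2 (j * i))]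

/-- elements generating a quaternion group of order eight inside a generalized quaternion group -/
theorem exists_quat_elems {P : Type*} [Group P] {n : ℕ} (hn : n ≠ 0) (e : P ≃* QuaternionGroup (2 ^ n)) :
    ∃ i j z : P, i * i = z ∧ j * j = z ∧ z * z = 1 ∧ z ≠ 1 ∧ j * i * j⁻¹ = i⁻¹ := by
  obtain ⟨k, rfl⟩ := Nat.exists_eq_succ_of_ne_zero hn
  let i' : QuaternionGroup (2 ^ (k + 1)) := QuaternionGroup.a ((2 ^ k : ℕ) : ZMod (2 * 2 ^ (k + 1)))
  let j' : QuaternionGroup (2 ^ (k + 1)) := QuaternionGroup.xa 0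
  let z' : QuaternionGroup (2 ^ (k + 1)) := QuaternionGroup.a ((2 ^ (k + 1) : ℕ) : ZMod (2 * 2 ^ (k + 1)))
  have h1 : i' * i' = z' := by
    simp only [i', z', QuaternionGroup.a_mul_a]
    congr 1
    rw [← Nat.cast_add]; congr 1; ring
  have h2 : j' * j' = z' := by
    simp only [j', z', QuaternionGroup.xa_mul_xa]
    congr 1
    simp
  have h3 : z' * z' = 1 := by
    simp only [z', QuaternionGroup.a_mul_a, QuaternionGroup.one_def]
    congr 1
    rw [← Nat.cast_add, ZMod.natCast_eq_zero_iff]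
    exact ⟨1, by ring⟩
  have h4 : z' ≠ 1 := by
    intro h
    simp only [z', QuaternionGroup.one_def] at h
    have h5 := QuaternionGroup.a.inj h
    rw [ZMod.natCast_eq_zero_iff] at h5
    have := Nat.le_of_dvd (by positivity) h5
    have h6 : 0 < 2 ^ (k + 1) := by positivity
    omega
  have h5 : j' * i' = i'⁻¹ * j' := by
    have : i' * (j' * i') = j' := by
      simp only [i', j', QuaternionGroup.xa_mul_a, QuaternionGroup.a_mul_xa]
      congr 1
      ring
    calc j' * i' = i'⁻¹ * (i' * (j' * i')) := by group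
      _ = _ := by rw [this]
  refine ⟨e.symm i', e.symm j', e.symm z', ?_, ?_, ?_, ?_, ?_⟩
  · rw [← map_mul, h1]
  · rw [← map_mul, h2]
  · rw [← map_mul, h3, map_one]
  · intro h; apply h4
    have := congrArg e h
    simpa using this
  · rw [← map_mul, ← map_inv, ← map_mul, ← map_inv, h5]
    congr 1; group

end CfsgH3
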